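import Mathlib
import Cfsg.Prelude.Def_FusionSystem
import Cfsg.Agent.Lib.Fusion.GroupSubsystem
import Cfsg.Agent.Lib.Fusion.GroupSystem
import Cfsg.Agent.Lib.Fusion.Model
import Cfsg.Agent.Lib.Fusion.Realized
import Cfsg.Agent.Lib.Fusion.ConstrainedSub

/-!
Constrained fusion systems of groups modulo central subgroups.
-/

set_option autoImplicit false
set_option linter.style.haveILetI false

open scoped Classical

namespace Cfsg.Lib.Fusion.CentralQuotient

open Cfsg Cfsg.FusionSystem Cfsg.Lib.Fusion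

universe u

/-- Constrainedness passes to quotients by central subgroups. -/
theorem constrained_quotient {H : Type u} [Group H] [Finite H] {p : ℕ} [Fact p.Prime] (T : Sylow p H)
    (hF : (Cfsg.groupFusionSystem (T : Subgroup H)).IsConstrained p) (Z : Subgroup H) [Z.Normal]
    (hZ : Z ≤ Subgroup.center H) :
    (Cfsg.groupFusionSystem ((T : Subgroup H).map (QuotientGroup.mk' Z))).IsConstrained p := by
  set T' := (T : Subgroup H) with hT'
  obtain ⟨hsat, Q, hQn, hQc⟩ := hF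
  obtain ⟨M, _, ι, ⟨hfin, hι, ⟨U, hU⟩, hC⟩, -⟩ := exists_model T.2 hsat hQn hQc
  haveI := hfin
  set R := pCore p M with hR
  haveI : R.Normal := Transfer.pCore_normal p
  have hRU : R ≤ ι.range := hU ▸ Transfer.pCore_le_sylow U
  have hcomm : ∀ z ∈ Z, ∀ x : H, x * z = z * x := fun z hz x => Subgroup.mem_center_iff.1 (hZ hz) x
  -- the central subgroup of the model
  let W : Subgroup M := (Z.subgroupOf T').map ι
  obtain ⟨P₀, hP₀, hP₀R⟩ := exists_iotaImg_eq (ι := ι) hRU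
  have hWc : ∀ (m : M), ∀ w ∈ W, m * w * m⁻¹ = w := by
    rintro m _ ⟨z, hz, rfl⟩
    have hzZ : (z : H) ∈ Z := hz
    obtain ⟨f, hf, hfe⟩ := exists_mor_of_conj_mem hι hP₀ m fun y hy =>
      hRU (Subgroup.Normal.conj_mem inferInstance _ (hP₀R ▸ iotaFun_mem_iotaImg hP₀ hy) m)
    obtain ⟨-, h, hh⟩ := mor_group_iff.1 hf
    set P₁ := P₀ ⊔ Subgroup.zpowers (z : H)
    have hP₁ : P₁ ≤ T' := sup_le hP₀ (Subgroup.zpowers_le.2 z.2)
    have hmem : ∀ x ∈ P₁, h * x * h⁻¹ ∈ T' := by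
      intro x hx
      refine (show P₁ ≤ T'.comap (MulAut.conj h).toMonoidHom from sup_le (fun y hy => (hh y hy).2) ?_) hx
      rw [Subgroup.zpowers_le]
      show h * (z : H) * h⁻¹ ∈ T'
      rw [hcomm _ hzZ h, mul_inv_cancel_right]
      exact z.2
    obtain ⟨m', hm'⟩ := exists_conj_of_mor hι (mor_group_conj hP₁ hmem)
    have hd : m'⁻¹ * m ∈ R := hC (Subgroup.mem_centralizer_iff.2 fun r hr => by
      rw [← hP₀R] at hr
      obtain ⟨y, hy, rfl⟩ := (mem_iotaImg hP₀).1 hr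
      have h1 : m * iotaFun ι y * m⁻¹ = m' * iotaFun ι y * m'⁻¹ := by
        rw [← hfe y hy, ← hm' y (Subgroup.mem_sup_left hy), (hh y hy).1]
      calc iotaFun ι y * (m'⁻¹ * m) = m'⁻¹ * (m' * iotaFun ι y * m'⁻¹) * m := by group
        _ = m'⁻¹ * m * iotaFun ι y := by rw [← h1]; group)
    obtain ⟨s, hs, hse⟩ := exists_iotaFun_eq (hRU hd)
    have hz' : m' * ι z * m'⁻¹ = ι z := by
      have := hm' (z : H) (Subgroup.mem_sup_right (Subgroup.mem_zpowers _))
      rw [hcomm _ hzZ h, mul_inv_cancel_right, iotaFun_apply ι z.2] at this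
      exact this.symm
    have hsz : (m'⁻¹ * m) * ι z = ι z * (m'⁻¹ * m) := by
      rw [← hse, iotaFun_apply ι hs, ← map_mul, ← map_mul]
      congr 1
      exact Subtype.ext (hcomm _ hzZ s)
    calc m * ι z * m⁻¹ = m' * ((m'⁻¹ * m) * ι z * (m'⁻¹ * m)⁻¹) * m'⁻¹ := by group
      _ = ι z := by rw [hsz, mul_inv_cancel_right, hz']
  haveI hWn : W.Normal := ⟨fun w hw m => by rw [hWc m w hw]; exact hw⟩
  have hWR : W ≤ R := Lib.Solv.le_pCore hWn ((T.2.to_subgroup _).map ι)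
  set π := QuotientGroup.mk' W with hπ
  have hM' : Subgroup.centralizer ((pCore p (M ⧸ W) : Subgroup (M ⧸ W)) : Set (M ⧸ W)) ≤ pCore p (M ⧸ W) := by
    have hle : R.map π ≤ pCore p (M ⧸ W) :=
      Lib.Solv.le_pCore (Subgroup.Normal.map inferInstance π (QuotientGroup.mk'_surjective W))
        ((Lib.Solv.isPGroup_pCore (G := M) p).map π)
    intro c hc
    obtain ⟨g, rfl⟩ := QuotientGroup.mk'_surjective W c
    refine hle ⟨g, mem_pCore_of_stabilizes W hWR hC (fun u hu => hWc g u hu) (fun q hq => ?_), rfl⟩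
    rw [← QuotientGroup.eq_one_iff]
    show π (g * q * g⁻¹ * q⁻¹) = 1
    have h1 := Subgroup.mem_centralizer_iff.1 hc (π q) (hle ⟨q, hq, rfl⟩)
    simp only [map_mul, map_inv]
    rw [← h1, mul_inv_cancel_right, mul_inv_cancel]
  -- the image of the Sylow subgroup
  set Tb := T'.map (QuotientGroup.mk' Z) with hTb
  let pr : T' →* Tb := (QuotientGroup.mk' Z).subgroupMap T'
  have hpr : Function.Surjective pr := (QuotientGroup.mk' Z).subgroupMap_surjective T'
  have hprval : ∀ t : T', (pr t : H ⧸ Z) = QuotientGroup.mk (t : H) := fun _ => rfl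
  have hker : pr.ker = Z.subgroupOf T' := by
    ext t
    rw [MonoidHom.mem_ker, Subtype.ext_iff, hprval, Subgroup.mem_subgroupOf]
    exact QuotientGroup.eq_one_iff _
  have hkle : pr.ker ≤ (π.comp ι).ker := by
    intro t ht
    rw [hker] at ht
    rw [MonoidHom.mem_ker, MonoidHom.comp_apply]
    exact (QuotientGroup.eq_one_iff _).2 ⟨t, ht, rfl⟩
  let ι' : Tb →* M ⧸ W := pr.liftOfSurjective hpr ⟨π.comp ι, hkle⟩
  have hι' : ∀ t : T', ι' (pr t) = π (ι t) := fun t => pr.liftOfRightInverse_comp_apply _ _ _ t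
  have hinj : Function.Injective ι' := by
    refine (injective_iff_map_eq_one ι').2 fun x hx => ?_
    obtain ⟨t, rfl⟩ := hpr x
    rw [hι'] at hx
    obtain ⟨z, hz, hze⟩ := (QuotientGroup.eq_one_iff _).1 hx
    have := hι.1 hze
    subst this
    rw [← MonoidHom.mem_ker, hker]
    exact hz
  have hlift : ∀ (h : H) (x : H), x ∈ T' → (QuotientGroup.mk (h * x * h⁻¹) : H ⧸ Z) ∈ Tb → h * x * h⁻¹ ∈ T' := by
    intro h x hx hm
    obtain ⟨t, ht, hte⟩ := hm
    have hd : t⁻¹ * (h * x * h⁻¹) ∈ Z := QuotientGroup.eq.1 hte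
    set z := t⁻¹ * (h * x * h⁻¹) with hz
    have hy : h * x * h⁻¹ = t * z := by rw [hz]; group
    rw [hy]
    refine T'.mul_mem ht ?_
    obtain ⟨a, ha⟩ := T.2 ⟨x, hx⟩
    obtain ⟨b, hb⟩ := T.2 ⟨t, ht⟩
    have ha' : x ^ p ^ a = 1 := congrArg Subtype.val ha
    have hb' : t ^ p ^ b = 1 := congrArg Subtype.val hb
    have hzp : z ^ p ^ (a + b) = 1 := by
      have h1 : (t * z) ^ p ^ (a + b) = 1 := by
        rw [← hy, conj_pow, pow_add, pow_mul, ha', one_pow, mul_one, mul_inv_cancel]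
      have ht1 : t ^ p ^ (a + b) = 1 := by rw [pow_add, mul_comm, pow_mul, hb', one_pow]
      rwa [(show Commute t z from hcomm z hd t).mul_pow, ht1, one_mul] at h1
    have hzp' : IsPGroup p (Subgroup.zpowers z) := by
      rintro ⟨y, i, rfl⟩
      refine ⟨a + b, Subtype.ext ?_⟩
      show (z ^ i) ^ p ^ (a + b) = 1
      rw [← zpow_natCast, ← zpow_mul, mul_comm, zpow_mul, zpow_natCast, hzp, one_zpow]
    haveI : (Subgroup.zpowers z).Normal := ⟨fun y hy g => by
      obtain ⟨i, rfl⟩ := hy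
      show g * z ^ i * g⁻¹ ∈ _
      rw [hcomm _ (Z.zpow_mem hd i) g, mul_inv_cancel_right]
      exact Subgroup.zpow_mem _ (Subgroup.mem_zpowers z) i⟩
    have := T.3 (IsPGroup.to_sup_of_normal_right T.2 hzp') le_sup_left
    exact this.le (Subgroup.mem_sup_right (Subgroup.mem_zpowers z))
  refine constrained_of_model (ι := ι') ((T.2).map (QuotientGroup.mk' Z)) ⟨hinj, fun P hP φ hφ => ?_⟩
    ⟨U.mapSurjective (QuotientGroup.mk'_surjective W), ?_⟩ hM'
  · set P' : Subgroup H := T' ⊓ P.comap (QuotientGroup.mk' Z) with hP'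
    have hP'T : P' ≤ T' := inf_le_left
    constructor
    · rintro ⟨-, -, g, hg⟩
      obtain ⟨h, rfl⟩ := QuotientGroup.mk_surjective g
      have hmem : ∀ x ∈ P', h * x * h⁻¹ ∈ T' := fun x hx => hlift h x hx.1 (by
        have := hg ⟨_, hx.2⟩
        rw [show (QuotientGroup.mk (h * x * h⁻¹) : H ⧸ Z) = φ ⟨_, hx.2⟩ from this.symm]
        exact hφ _)
      obtain ⟨m, hm⟩ := exists_conj_of_mor hι (mor_group_conj hP'T hmem)
      refine ⟨π m, fun y => ?_⟩
      obtain ⟨t, ht⟩ := hpr ⟨(y : H ⧸ Z), hP y.2⟩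
      have htP : (t : H) ∈ P' := ⟨t.2, show (QuotientGroup.mk (t : H) : H ⧸ Z) ∈ P by
        rw [← hprval, ht]; exact y.2⟩
      have h2 : pr ⟨_, hmem _ htP⟩ = ⟨φ y, hφ y⟩ := Subtype.ext (by
        show _ = φ y
        rw [hg y, ← congrArg Subtype.val ht, hprval]
        rfl)
      rw [← h2, ← ht, hι', hι', ← map_inv, ← map_mul, ← map_mul]
      congr 1
      have := hm _ htP
      rwa [iotaFun_apply ι (hmem _ htP), iotaFun_apply ι t.2] at this
    · rintro ⟨g, hg⟩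
      obtain ⟨m, rfl⟩ := QuotientGroup.mk'_surjective W g
      have hran : ∀ x ∈ P', m * iotaFun ι x * m⁻¹ ∈ ι.range := by
        intro x hx
        obtain ⟨t, ht⟩ := hpr ⟨φ ⟨_, hx.2⟩, hφ _⟩
        have h1 := hg ⟨_, hx.2⟩
        rw [← ht, hι', show (⟨((⟨_, hx.2⟩ : P) : H ⧸ Z), hP hx.2⟩ : Tb) = pr ⟨x, hx.1⟩ from rfl, hι',
          ← map_inv, ← map_mul, ← map_mul] at h1
        obtain ⟨z, -, hze⟩ := QuotientGroup.eq.1 h1
        refine ⟨t * z, ?_⟩
        rw [map_mul, hze, iotaFun_apply ι hx.1]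
        group
      obtain ⟨f, hf, hfe⟩ := exists_mor_of_conj_mem hι hP'T m hran
      obtain ⟨-, h, hh⟩ := mor_group_iff.1 hf
      refine ⟨hP, hφ, QuotientGroup.mk h, fun y => ?_⟩
      obtain ⟨t, ht⟩ := hpr ⟨(y : H ⧸ Z), hP y.2⟩
      have htP : (t : H) ∈ P' := ⟨t.2, show (QuotientGroup.mk (t : H) : H ⧸ Z) ∈ P by
        rw [← hprval, ht]; exact y.2⟩
      have h1 : ι' ⟨φ y, hφ y⟩ = ι' (pr ⟨f t, hf.mem htP⟩) := by
        rw [hg y, hι', ← ht, hι', ← map_inv, ← map_mul, ← map_mul]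
        congr 1
        have := hfe _ htP
        rw [iotaFun_apply ι (hf.mem htP), iotaFun_apply ι t.2] at this
        exact this.symm
      have h2 : φ y = QuotientGroup.mk (f t) := congrArg Subtype.val (hinj h1)
      rw [h2, (hh _ htP).1, ← congrArg Subtype.val ht, hprval]
      rfl
  · rw [Sylow.coe_mapSurjective, hU]
    ext y
    constructor
    · rintro ⟨_, ⟨t, rfl⟩, rfl⟩
      exact ⟨pr t, hι' t⟩
    · rintro ⟨x, rfl⟩
      obtain ⟨t, rfl⟩ := hpr x
      exact ⟨ι t, ⟨t, rfl⟩, (hι' t).symm⟩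

end Cfsg.Lib.Fusion.CentralQuotient
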