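import Mathlib
import Cfsg.Agent.Lib.Fusion.Saturation
import Cfsg.Agent.Lib.TwoFus.Presentations

/-!
# Saturated systems over large dihedral and quaternion groups: automorphisms of the top group
-/

set_option autoImplicit false

namespace Cfsg.Lib.Fusion

open Cfsg Cfsg.FusionSystem Subgroup

theorem isPGroup_mulAut_dihedral {m : ℕ} (hm : 2 ≤ m) : IsPGroup 2 (MulAut (DihedralGroup (2 ^ m))) := by
  have hN : 4 ≤ 2 ^ m := by
    calc 4 = 2 ^ 2 := by norm_num
      _ ≤ 2 ^ m := Nat.pow_le_pow_right (by norm_num) hm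
  haveI : NeZero (2 ^ m) := ⟨by omega⟩
  have hx : orderOf (DihedralGroup.r 1 : DihedralGroup (2 ^ m)) = 2 ^ m := DihedralGroup.orderOf_r_one
  have hr : ∀ i : ZMod (2 ^ m), (DihedralGroup.r i : DihedralGroup (2 ^ m)) = DihedralGroup.r 1 ^ i.val := fun i => by
    rw [DihedralGroup.r_one_pow, ZMod.natCast_zmod_val]
  have hax : ∀ α : MulAut (DihedralGroup (2 ^ m)), ∃ i : ℕ, Odd i ∧ α (DihedralGroup.r 1) = DihedralGroup.r 1 ^ i := by
    intro α
    have ho : orderOf (α (DihedralGroup.r 1)) = 2 ^ m := by rw [MulEquiv.orderOf_eq, hx]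
    rcases h : α (DihedralGroup.r 1) with i | i
    · refine ⟨i.val, ?_, hr i⟩
      rw [h, hr i] at ho
      by_contra hc
      obtain ⟨k, hk⟩ := (Nat.not_odd_iff_even.1 hc).two_dvd
      obtain ⟨m, rfl⟩ : ∃ l, m = l + 1 := ⟨m - 1, by omega⟩
      have : orderOf ((DihedralGroup.r 1 : DihedralGroup (2 ^ (m + 1))) ^ i.val) ∣ 2 ^ m := by
        refine orderOf_dvd_of_pow_eq_one ?_
        rw [← pow_mul, hk, show 2 * k * 2 ^ m = 2 ^ (m + 1) * k by ring, pow_mul, orderOf_dvd_iff_pow_eq_one.1 hx.dvd,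
          one_pow]
      rw [ho] at this
      have := (Nat.pow_dvd_pow_iff_le_right (by norm_num : 1 < 2)).1 this
      omega
    · rw [h, DihedralGroup.orderOf_sr] at ho
      omega
  refine Cfsg.Lib.TwoFus.isPGroup_mulAut_of (y := DihedralGroup.sr 0) hx ?_ hax ?_
  · rintro (i | i)
    · exact ⟨i.val, Or.inl (hr i)⟩
    · refine ⟨(-i).val, Or.inr ?_⟩
      rw [← hr, DihedralGroup.r_mul_sr]
      simp
  · intro α
    rcases h : α (DihedralGroup.sr 0) with i | i
    · exfalso
      obtain ⟨k, -, hk⟩ := hax α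
      have hc : α (DihedralGroup.r 1 * DihedralGroup.sr 0) = α (DihedralGroup.sr 0 * DihedralGroup.r 1) := by
        rw [map_mul, map_mul, h, hk, hr i, ← pow_add, ← pow_add, add_comm]
      have hc' := α.injective hc
      rw [DihedralGroup.r_mul_sr, DihedralGroup.sr_mul_r] at hc'
      injection hc' with h1
      have h2 : ((2 : ℕ) : ZMod (2 ^ m)) = 0 := by
        rw [zero_add] at h1
        push_cast
        linear_combination -h1
      rw [ZMod.natCast_eq_zero_iff] at h2
      have := Nat.le_of_dvd two_pos h2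
      omega
    · refine ⟨(-i).val, ?_⟩
      rw [← hr, DihedralGroup.r_mul_sr]
      simp

theorem isPGroup_mulAut_quaternion {m : ℕ} (hm : 2 ≤ m) : IsPGroup 2 (MulAut (QuaternionGroup (2 ^ m))) := by
  have hN : 4 ≤ 2 ^ m := by
    calc 4 = 2 ^ 2 := by norm_num
      _ ≤ 2 ^ m := Nat.pow_le_pow_right (by norm_num) hm
  haveI : NeZero (2 ^ m) := ⟨by omega⟩
  have hx : orderOf (QuaternionGroup.a 1 : QuaternionGroup (2 ^ m)) = 2 ^ (m + 1) := by
    rw [QuaternionGroup.orderOf_a_one, pow_succ, mul_comm]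
  have hr : ∀ i : ZMod (2 * 2 ^ m), (QuaternionGroup.a i : QuaternionGroup (2 ^ m)) = QuaternionGroup.a 1 ^ i.val := fun i => by
    rw [QuaternionGroup.a_one_pow, ZMod.natCast_zmod_val]
  have hax : ∀ α : MulAut (QuaternionGroup (2 ^ m)), ∃ i : ℕ, Odd i ∧ α (QuaternionGroup.a 1) = QuaternionGroup.a 1 ^ i := by
    intro α
    have ho : orderOf (α (QuaternionGroup.a 1)) = 2 ^ (m + 1) := by rw [MulEquiv.orderOf_eq, hx]
    rcases h : α (QuaternionGroup.a 1) with i | i
    · refine ⟨i.val, ?_, hr i⟩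
      rw [h, hr i] at ho
      by_contra hc
      obtain ⟨k, hk⟩ := (Nat.not_odd_iff_even.1 hc).two_dvd
      have : orderOf ((QuaternionGroup.a 1 : QuaternionGroup (2 ^ m)) ^ i.val) ∣ 2 ^ m := by
        refine orderOf_dvd_of_pow_eq_one ?_
        rw [← pow_mul, hk, show 2 * k * 2 ^ m = 2 ^ (m + 1) * k by ring, pow_mul, orderOf_dvd_iff_pow_eq_one.1 hx.dvd,
          one_pow]
      rw [ho] at this
      have := (Nat.pow_dvd_pow_iff_le_right (by norm_num : 1 < 2)).1 this
      omega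
    · rw [h, QuaternionGroup.orderOf_xa] at ho
      rw [pow_succ] at ho
      omega
  refine Cfsg.Lib.TwoFus.isPGroup_mulAut_of (y := QuaternionGroup.xa 0) hx ?_ hax ?_
  · rintro (i | i)
    · exact ⟨i.val, Or.inl (hr i)⟩
    · refine ⟨(-i).val, Or.inr ?_⟩
      rw [← hr, QuaternionGroup.a_mul_xa]
      simp
  · intro α
    rcases h : α (QuaternionGroup.xa 0) with i | i
    · exfalso
      obtain ⟨k, -, hk⟩ := hax α
      have hc : α (QuaternionGroup.a 1 * QuaternionGroup.xa 0) = α (QuaternionGroup.xa 0 * QuaternionGroup.a 1) := by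
        rw [map_mul, map_mul, h, hk, hr i, ← pow_add, ← pow_add, add_comm]
      have hc' := α.injective hc
      rw [QuaternionGroup.a_mul_xa, QuaternionGroup.xa_mul_a] at hc'
      injection hc' with h1
      have h2 : ((2 : ℕ) : ZMod (2 * 2 ^ m)) = 0 := by
        rw [zero_add] at h1
        push_cast
        linear_combination -h1
      rw [ZMod.natCast_eq_zero_iff] at h2
      have := Nat.le_of_dvd two_pos h2
      omega
    · refine ⟨(-i).val, ?_⟩
      rw [← hr, QuaternionGroup.a_mul_xa]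
      simp

variable {Ω : Type*} [Group Ω] {S : Subgroup Ω}

theorem autGroup_eq_inn [Finite S] {p : ℕ} [Fact p.Prime] (hS : IsPGroup p S) (F : FusionSystem S)
    (hF : F.IsSaturated p) (hA : IsPGroup p (MulAut S)) : F.autGroup S = Inn S := by
  obtain ⟨-, R, hR⟩ := (fullyNormalized_axiom hS hF fullyNormalized_top).2
  refine le_antisymm ?_ (inn_le_autGroup le_rfl)
  have htop : (R : Subgroup (F.autGroup S)) = ⊤ :=
    (R.is_maximal' ((hA.to_subgroup (F.autGroup S)).to_subgroup ⊤) le_top).symm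
  rw [hR, subgroupOf_eq_top] at htop
  rw [inn_eq_autInducedBy]
  exact htop

theorem autGroup_dih_quat [Finite S] (n : ℕ) (hn : 4 ≤ n)
    (hshape : Nonempty (S ≃* DihedralGroup (2 ^ (n - 1))) ∨ Nonempty (S ≃* QuaternionGroup (2 ^ (n - 2))))
    (F : FusionSystem S) (hF : F.IsSaturated 2) : F.autGroup S = Inn S := by
  haveI : Fact (Nat.Prime 2) := ⟨Nat.prime_two⟩
  rcases hshape with ⟨⟨e⟩⟩ | ⟨⟨e⟩⟩
  · refine autGroup_eq_inn (IsPGroup.of_card (n := n) ?_) F hF
      ((isPGroup_mulAut_dihedral (m := n - 1) (by omega)).of_equiv (MulAut.congr e).symm)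
    rw [Nat.card_congr e.toEquiv, DihedralGroup.nat_card, ← pow_succ', show n - 1 + 1 = n by omega]
  · haveI : NeZero (2 ^ (n - 2)) := ⟨by positivity⟩
    refine autGroup_eq_inn (IsPGroup.of_card (n := n) ?_) F hF
      ((isPGroup_mulAut_quaternion (m := n - 2) (by omega)).of_equiv (MulAut.congr e).symm)
    rw [Nat.card_congr e.toEquiv, Nat.card_eq_fintype_card, QuaternionGroup.card, show (4 : ℕ) = 2 ^ 2 by norm_num, ← pow_add,
      show 2 + (n - 2) = n by omega]

end Cfsg.Lib.Fusion
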