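import Mathlib
import Cfsg.Prelude.Def_FusionSystem
import Cfsg.Agent.Lib.Fusion.Realized
import Cfsg.Agent.Lib.Fusion.Normal
import Cfsg.Agent.Lib.Fusion.ExtremelySparse
import Cfsg.Agent.Lib.Solv.Cores

/-!
Uniqueness of models, by averaging sections over the cosets of the Sylow subgroup.
-/

set_option autoImplicit false
set_option linter.style.haveILetI false

open scoped Classical

namespace Cfsg.Lib.Fusion.ModelUnique

open Cfsg Cfsg.FusionSystem Cfsg.Lib.Fusion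

variable {Ω : Type*} [Group Ω] {S Q : Subgroup Ω} [Finite S] {F : Cfsg.FusionSystem S}
  {p : ℕ} [Fact p.Prime]

/-- A normal subgroup of the system is normal in every model. -/
theorem normal_iotaImg {L : Type*} [Group L] {ι : S →* L} (hm : F.IsModel p L ι)
    (hQ : F.IsNormal Q) : (iotaImg ι Q).Normal := by
  obtain ⟨hfin, hι, ⟨T, hT⟩, hCR⟩ := hm
  set R := pCore p L
  have hRS : R ≤ ι.range := hT ▸ Cfsg.Lib.Solv.pCore_le_sylow p T
  haveI : R.Normal := inferInstanceAs (pCore p L).Normal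
  obtain ⟨P₀, hP₀, hP₀R⟩ := exists_iotaImg_eq (ι := ι) hRS
  refine ⟨fun y hy g => ?_⟩
  obtain ⟨x, hx, rfl⟩ := (mem_iotaImg hQ.1).1 hy
  obtain ⟨f, hf, hfe⟩ := exists_mor_of_conj_mem hι hP₀ g fun z hz =>
    hRS (Subgroup.Normal.conj_mem inferInstance _ (hP₀R ▸ iotaFun_mem_iotaImg hP₀ hz) g)
  obtain ⟨k, hk, hke, hkQ⟩ := (isNormal_iff.1 hQ).2 P₀ f hf
  obtain ⟨g', hg'⟩ := exists_conj_of_mor hι hk
  have hc : g'⁻¹ * g ∈ R := hCR (Subgroup.mem_centralizer_iff.2 fun r hr => by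
    rw [← hP₀R] at hr
    obtain ⟨z, hz, rfl⟩ := (mem_iotaImg hP₀).1 hr
    have h1 : g * iotaFun ι z * g⁻¹ = g' * iotaFun ι z * g'⁻¹ := by
      rw [← hfe z hz, ← hke z hz, hg' z (Subgroup.mem_sup_left hz)]
    calc iotaFun ι z * (g'⁻¹ * g) = g'⁻¹ * (g' * iotaFun ι z * g'⁻¹) * g := by group
      _ = g'⁻¹ * g * iotaFun ι z := by rw [← h1]; group)
  obtain ⟨c, hcS, hce⟩ := exists_iotaFun_eq (hRS hc)
  have hcx : c * x * c⁻¹ ∈ Q :=
    (Subgroup.mem_normalizer_iff.1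
      (StronglyClosed.le_normalizer (stronglyClosed_of_isNormal hQ) hcS) x).1 hx
  refine (mem_iotaImg hQ.1).2 ⟨k (c * x * c⁻¹), hkQ ▸ mem_img_of_mem hcx, ?_⟩
  rw [hg' _ (Subgroup.mem_sup_right hcx), iotaFun_conj ι hcS (hQ.1 hx), hce]
  group

/-- A normal centric subgroup contains its centralizer in every model. -/
theorem centralizer_le {L : Type*} [Group L] {ι : S →* L} (hS : IsPGroup p S) (hm : F.IsModel p L ι)
    (hc : F.IsCentric Q) (hn : (iotaImg ι Q).Normal) :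
    Subgroup.centralizer (iotaImg ι Q : Set L) ≤ iotaImg ι Q := by
  haveI := hm.1
  haveI := hn
  haveI : (Subgroup.centralizer (iotaImg ι Q : Set L)).Normal := ⟨fun y hy g =>
    Subgroup.mem_centralizer_iff.2 fun z hz => by
      have hz' := hn.conj_mem z hz g⁻¹
      rw [inv_inv] at hz'
      calc z * (g * y * g⁻¹) = g * ((g⁻¹ * z * g) * y) * g⁻¹ := by group
        _ = g * (y * (g⁻¹ * z * g)) * g⁻¹ := by rw [Subgroup.mem_centralizer_iff.1 hy _ hz']
        _ = _ := by group⟩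
  have hCp : IsPGroup p (Subgroup.centralizer (iotaImg ι Q : Set L)) := by
    intro c
    refine ⟨(orderOf c).factorization p, orderOf_dvd_iff_pow_eq_one.1 (dvd_of_eq ?_)⟩
    have h := Nat.eq_prime_pow_of_unique_prime_dvd (p := p) (orderOf_pos c).ne' fun {d} hd hdd => ?_
    · conv_rhs => rw [h, (Fact.out : p.Prime).factorization_pow, Finsupp.single_eq_same]
      exact h
    by_contra hne
    haveI := Fact.mk hd
    obtain ⟨m, hmd⟩ := hdd
    have ho : orderOf ((c : L) ^ m) = d := by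
      rw [← SubmonoidClass.coe_pow, Subgroup.orderOf_coe,
        orderOf_pow' c (fun h => by rw [h, mul_zero] at hmd; exact (orderOf_pos c).ne' hmd),
        hmd, Nat.gcd_eq_right (dvd_mul_left m d), Nat.mul_div_cancel]
      exact Nat.pos_of_ne_zero fun h => by rw [h, mul_zero] at hmd; exact (orderOf_pos c).ne' hmd
    refine Sparse.not_centralizes hS hm hc hn hd hne ho fun x hx => ?_
    have h1 : (c : L) ^ m ∈ Subgroup.centralizer (iotaImg ι Q : Set L) := pow_mem c.2 m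
    rw [← Subgroup.mem_centralizer_iff.1 h1 _ (iotaFun_mem_iotaImg hc.1 hx), mul_inv_cancel_right]
  obtain ⟨-, hι, ⟨T, hT⟩, -⟩ := hm
  intro c hcC
  obtain ⟨s, hs, rfl⟩ := exists_iotaFun_eq
    ((hT ▸ Cfsg.Lib.Solv.pCore_le_sylow p T : pCore p L ≤ ι.range)
      (Cfsg.Lib.Solv.le_pCore inferInstance hCp hcC))
  refine iotaFun_mem_iotaImg hc.1 (hc.2 Q (isConj_refl hc.1) (mem_centralizerIn_iff.2 ⟨hs, fun x hx => ?_⟩))
  refine iotaFun_injOn hι (S.mul_mem (S.mul_mem hs (hc.1 hx)) (S.inv_mem hs)) (hc.1 hx) ?_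
  rw [iotaFun_conj ι hs (hc.1 hx), ← Subgroup.mem_centralizer_iff.1 hcC _ (iotaFun_mem_iotaImg hc.1 hx),
    mul_inv_cancel_right]

variable {G₁ G₂ : Type*} [Group G₁] [Group G₂]

set_option maxHeartbeats 2000000 in
/-- Model uniqueness. -/
theorem main (hS : IsPGroup p S) (hF : F.IsConstrained p) {ι₁ : S →* G₁} {ι₂ : S →* G₂}
    (h₁ : F.IsModel p G₁ ι₁) (h₂ : F.IsModel p G₂ ι₂) :
    ∃ φ : G₁ ≃* G₂, ∀ x : S, φ (ι₁ x) = ι₂ x := by
  obtain ⟨-, Q, hQn, hQc⟩ := hF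
  haveI := h₁.1
  haveI := h₂.1
  have hι₁ := h₁.2.1
  have hι₂ := h₂.2.1
  have hN₁ := normal_iotaImg h₁ hQn
  have hN₂ := normal_iotaImg h₂ hQn
  have hC₁ := centralizer_le hS h₁ hQc hN₁
  have hC₂ := centralizer_le hS h₂ hQc hN₂
  have hQS := hQn.1
  have hnormS : ∀ s ∈ S, ∀ x ∈ Q, s * x * s⁻¹ ∈ Q := fun s hs x hx =>
    (Subgroup.mem_normalizer_iff.1
      (StronglyClosed.le_normalizer (stronglyClosed_of_isNormal hQn) hs) x).1 hx
  -- the pairs inducing the same map on `Q`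
  let Km : Submonoid (G₁ × G₂) :=
    { carrier := {k | ∀ x ∈ Q, ∃ y ∈ Q, k.1 * iotaFun ι₁ x * k.1⁻¹ = iotaFun ι₁ y ∧
        k.2 * iotaFun ι₂ x * k.2⁻¹ = iotaFun ι₂ y}
      one_mem' := fun x hx => ⟨x, hx, by simp, by simp⟩
      mul_mem' := by
        intro a b ha hb x hx
        obtain ⟨y, hy, hy1, hy2⟩ := hb x hx
        obtain ⟨z, hz, hz1, hz2⟩ := ha y hy
        refine ⟨z, hz, ?_, ?_⟩
        · rw [← hz1, ← hy1]; simp only [Prod.fst_mul]; group
        · rw [← hz2, ← hy2]; simp only [Prod.snd_mul]; group }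
  let K : Subgroup (G₁ × G₂) :=
    { Km with
      inv_mem' := fun {k} hk => by
        have h : k⁻¹ = k ^ (orderOf k - 1) := inv_eq_of_mul_eq_one_right (by
          rw [← pow_succ', show orderOf k - 1 + 1 = orderOf k by have := orderOf_pos k; omega,
            pow_orderOf_eq_one])
        show k⁻¹ ∈ Km
        rw [h]
        exact Km.pow_mem hk _ }
  let δ : S →* K := (ι₁.prod ι₂).codRestrict K fun s x hx =>
    ⟨(s : Ω) * x * (s : Ω)⁻¹, hnormS s s.2 x hx,
      by rw [iotaFun_conj ι₁ s.2 (hQS hx), iotaFun_apply ι₁ s.2]; rfl,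
      by rw [iotaFun_conj ι₂ s.2 (hQS hx), iotaFun_apply ι₂ s.2]; rfl⟩
  have hδ1 : ∀ s, (δ s : G₁ × G₂).1 = ι₁ s := fun _ => rfl
  have hδ2 : ∀ s, (δ s : G₁ × G₂).2 = ι₂ s := fun _ => rfl
  let D : Subgroup K := δ.range
  let B := G₁ ⧸ ι₁.range
  let π : K ⧸ D → B := fun x => Quotient.liftOn' x (fun k => (QuotientGroup.mk (k : G₁ × G₂).1 : B))
    (fun a b hab => by
      rw [QuotientGroup.leftRel_apply] at hab
      obtain ⟨s, hs⟩ := hab
      refine QuotientGroup.eq.2 ⟨s, ?_⟩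
      rw [← hδ1 s, hs]
      rfl)
  have hπmk : ∀ k : K, π (QuotientGroup.mk k) = QuotientGroup.mk (k : G₁ × G₂).1 := fun _ => rfl
  have hπsmul : ∀ (k : K) (x : K ⧸ D), π (k • x) = (k : G₁ × G₂).1 • π x := by
    intro k x
    induction x using QuotientGroup.induction_on with
    | _ l => rfl
  -- the kernel
  let Z : Subgroup G₂ := Subgroup.centralizer (iotaImg ι₂ Q : Set G₂)
  haveI hZc : IsMulCommutative Z := ⟨⟨fun a b => Subtype.ext
    (Subgroup.mem_centralizer_iff.1 b.2 _ (hC₂ a.2))⟩⟩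
  letI : CommGroup Z := { (inferInstance : Group Z) with mul_comm := hZc.is_comm.comm }
  have hZfix : ∀ z ∈ Z, ∀ x ∈ Q, z * iotaFun ι₂ x * z⁻¹ = iotaFun ι₂ x := fun z hz x hx => by
    rw [← Subgroup.mem_centralizer_iff.1 hz _ (iotaFun_mem_iotaImg hQS hx), mul_inv_cancel_right]
  let e : Z →* K := ((MonoidHom.inr G₁ G₂).comp Z.subtype).codRestrict K fun z x hx =>
    ⟨x, hx, by simp, by simpa using hZfix z z.2 x hx⟩
  have he1 : ∀ z, (e z : G₁ × G₂).1 = 1 := fun _ => rfl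
  have he2 : ∀ z, (e z : G₁ × G₂).2 = z := fun _ => rfl
  have hfree : ∀ (x : K ⧸ D) (z : Z), e z • x = x → z = 1 := by
    intro x z
    induction x using QuotientGroup.induction_on with
    | _ k =>
      intro h
      obtain ⟨s, hs⟩ := QuotientGroup.eq.1 h.symm
      change δ s = k⁻¹ * (e z * k) at hs
      have h1 := congrArg (fun t : K => (t : G₁ × G₂).1) hs
      simp only [Subgroup.coe_mul, Subgroup.coe_inv, Prod.fst_mul, Prod.fst_inv, he1,
        one_mul, inv_mul_cancel, hδ1] at h1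
      have hs1 : s = 1 := hι₁.1 (by rw [h1, map_one])
      subst hs1
      rw [map_one, eq_comm, inv_mul_eq_one, eq_comm, mul_eq_right] at hs
      exact Subtype.ext (congrArg (fun t : K => (t : G₁ × G₂).2) hs)
  have hfib : ∀ x x' : K ⧸ D, π x = π x' → ∃ z : Z, e z • x = x' := by
    intro x x'
    induction x using QuotientGroup.induction_on with
    | _ k =>
    induction x' using QuotientGroup.induction_on with
    | _ k' =>
      intro h
      obtain ⟨s, hs⟩ := QuotientGroup.eq.1 h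
      set w : K := k' * (k * δ s)⁻¹ with hw
      have hw1 : (w : G₁ × G₂).1 = 1 := by
        simp only [hw, Subgroup.coe_mul, Subgroup.coe_inv, Prod.fst_mul, Prod.fst_inv, hδ1, hs]
        group
      have hwZ : (w : G₁ × G₂).2 ∈ Z := Subgroup.mem_centralizer_iff.2 fun y hy => by
        obtain ⟨x, hx, rfl⟩ := (mem_iotaImg hQS).1 hy
        obtain ⟨y, hy, hy1, hy2⟩ := w.2 x hx
        rw [hw1, one_mul, inv_one, mul_one] at hy1
        rw [← iotaFun_injOn hι₁ (hQS hx) (hQS hy) hy1] at hy2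
        exact (mul_inv_eq_iff_eq_mul.1 hy2).symm
      refine ⟨⟨_, hwZ⟩, ?_⟩
      have hwe : e ⟨_, hwZ⟩ = w := Subtype.ext (Prod.ext (by rw [he1, hw1]) rfl)
      show (QuotientGroup.mk (e ⟨_, hwZ⟩ * k) : K ⧸ D) = QuotientGroup.mk k'
      rw [hwe]
      exact QuotientGroup.eq.2 ⟨s, by rw [hw]; group⟩
  -- differences
  let dl : K ⧸ D → K ⧸ D → Z := fun x x' => if h : π x = π x' then (hfib x x' h).choose else 1
  have hdl : ∀ x x', π x = π x' → e (dl x x') • x = x' := fun x x' h => by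
    simp only [dl, dif_pos h]
    exact (hfib x x' h).choose_spec
  have huniq : ∀ x x' z, e z • x = x' → dl x x' = z := by
    intro x x' z h
    have hπ : π x = π x' := by rw [← h, hπsmul, he1, one_smul]
    have h1 := hdl x x' hπ
    refine inv_mul_eq_one.1 (hfree x _ ?_) |>.symm
    rw [map_mul, map_inv, mul_smul, h1, inv_smul_eq_iff, h]
  have hdl_self : ∀ x, dl x x = 1 := fun x => huniq x x 1 (by rw [map_one, one_smul])
  have hdl_trans : ∀ x x' x'', π x = π x' → π x' = π x'' → dl x x'' = dl x' x'' * dl x x' := by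
    intro x x' x'' h h'
    refine huniq _ _ _ ?_
    rw [map_mul, mul_smul, hdl x x' h, hdl x' x'' h']
  have hZn : Z.Normal := ⟨fun y hy g => Subgroup.mem_centralizer_iff.2 fun w hw => by
    have hw' := hN₂.conj_mem w hw g⁻¹
    rw [inv_inv] at hw'
    calc w * (g * y * g⁻¹) = g * ((g⁻¹ * w * g) * y) * g⁻¹ := by group
      _ = g * (y * (g⁻¹ * w * g)) * g⁻¹ := by rw [Subgroup.mem_centralizer_iff.1 hy _ hw']
      _ = _ := by group⟩
  let θ : K → Z →* Z := fun k =>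
    { toFun := fun z => ⟨(k : G₁ × G₂).2 * z * (k : G₁ × G₂).2⁻¹, hZn.conj_mem _ z.2 _⟩
      map_one' := Subtype.ext (by simp)
      map_mul' := fun a b => Subtype.ext (by simp [mul_assoc]) }
  have hdl_smul : ∀ (k : K) x x', π x = π x' → dl (k • x) (k • x') = θ k (dl x x') := by
    intro k x x' h
    refine huniq _ _ _ ?_
    have hcomm : e (θ k (dl x x')) * k = k * e (dl x x') := by
      refine Subtype.ext (Prod.ext ?_ ?_)
      · simp [he1]
      · show (θ k (dl x x') : G₂) * (k : G₁ × G₂).2 = (k : G₁ × G₂).2 * _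
        show (k : G₁ × G₂).2 * (dl x x' : G₂) * (k : G₁ × G₂).2⁻¹ * (k : G₁ × G₂).2 = _
        group
        rfl
    rw [← mul_smul, hcomm, mul_smul, hdl x x' h]
  -- sections
  letI := Fintype.ofFinite B
  let Sec := {σ : B → K ⧸ D // ∀ b, π (σ b) = b}
  let act : K → Sec → Sec := fun k σ => ⟨fun b => k • σ.1 ((k : G₁ × G₂).1⁻¹ • b), fun b => by
    rw [hπsmul, σ.2, smul_inv_smul]⟩
  let d : Sec → Sec → Z := fun σ τ => ∏ b, dl (σ.1 b) (τ.1 b)
  have hd_trans : ∀ σ τ υ, d σ υ = d τ υ * d σ τ := fun σ τ υ => by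
    simp only [d]
    rw [← Finset.prod_mul_distrib]
    exact Finset.prod_congr rfl fun b _ => hdl_trans _ _ _ ((σ.2 b).trans (τ.2 b).symm) ((τ.2 b).trans (υ.2 b).symm)
  have hd_act : ∀ k σ τ, d (act k σ) (act k τ) = θ k (d σ τ) := fun k σ τ => by
    simp only [d, act]
    rw [map_prod]
    refine Fintype.prod_equiv (MulAction.toPerm (k : G₁ × G₂).1⁻¹) _ _ fun b => ?_
    exact hdl_smul k _ _ ((σ.2 _).trans (τ.2 _).symm)
  have hact_mul : ∀ k l σ, act (k * l) σ = act k (act l σ) := fun k l σ => Subtype.ext (funext fun b => by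
    simp only [act, Subgroup.coe_mul, Prod.fst_mul, mul_inv_rev, mul_smul])
  -- the invariant section
  letI : MulAction S B := MulAction.compHom _ ι₁
  have hsmulB : ∀ (s : S) (b : B), s • b = ι₁ s • b := fun _ _ => rfl
  have hpoint : ∀ o : B, ∃ x : K ⧸ D, π x = o ∧ ∀ s : S, s • o = o → δ s • x = x := by
    intro o
    induction o using QuotientGroup.induction_on with
    | _ g =>
      let R : Subgroup Ω := (MulAction.stabilizer S (QuotientGroup.mk g : B)).map S.subtype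
      have hR : R ≤ S := Subgroup.map_subtype_le _
      have hmemR : ∀ x ∈ R, g⁻¹ * iotaFun ι₁ x * g⁻¹⁻¹ ∈ ι₁.range := by
        rintro _ ⟨s, hs, rfl⟩
        have h := QuotientGroup.eq.1 (hs : (QuotientGroup.mk (ι₁ s * g) : B) = QuotientGroup.mk g).symm
        rw [inv_inv, show iotaFun ι₁ (S.subtype s) = ι₁ s from iotaFun_apply ι₁ s.2, mul_assoc]
        exact h
      obtain ⟨f, hf, hfe⟩ := exists_mor_of_conj_mem hι₁ hR g⁻¹ hmemR
      have hQR : Q ≤ R := fun x hx => ⟨⟨x, hQS hx⟩, by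
        show (QuotientGroup.mk (ι₁ ⟨x, hQS hx⟩ * g) : B) = QuotientGroup.mk g
        refine (QuotientGroup.eq.2 ?_).symm
        rw [← mul_assoc]
        have := hN₁.conj_mem _ (iotaFun_mem_iotaImg (ι := ι₁) hQS hx) g⁻¹
        rw [inv_inv, iotaFun_apply ι₁ (hQS hx)] at this
        exact iotaImg_le_range Q this, rfl⟩
      obtain ⟨h, hh⟩ := exists_conj_of_mor hι₂ hf
      have hk : ((g⁻¹, h) : G₁ × G₂) ∈ K := fun x hx => by
        refine ⟨f x, ?_, (hfe x (hQR hx)).symm, (hh x (hQR hx)).symm⟩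
        refine mem_of_iotaFun_mem hι₁ hQS (hf.mem (hQR hx)) ?_
        rw [hfe x (hQR hx)]
        exact hN₁.conj_mem _ (iotaFun_mem_iotaImg hQS hx) _
      refine ⟨QuotientGroup.mk (⟨_, hk⟩ : K)⁻¹, ?_, fun s hs => ?_⟩
      · rw [hπmk]
        simp
      · have hsR : (s : Ω) ∈ R := ⟨s, hs, rfl⟩
        show (QuotientGroup.mk (δ s * (⟨_, hk⟩ : K)⁻¹) : K ⧸ D) = _
        refine (QuotientGroup.eq.2 (MonoidHom.mem_range.2 ⟨⟨f s, hf.mem hsR⟩, ?_⟩)).symm
        refine Subtype.ext (Prod.ext ?_ ?_)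
        · simp only [hδ1, Subgroup.coe_mul, Subgroup.coe_inv, Prod.fst_mul, Prod.fst_inv, inv_inv]
          rw [← iotaFun_apply ι₁ (hf.mem hsR), hfe _ hsR, inv_inv, iotaFun_apply ι₁ s.2]
          group
        · simp only [hδ2, Subgroup.coe_mul, Subgroup.coe_inv, Prod.snd_mul, Prod.snd_inv, inv_inv]
          rw [← iotaFun_apply ι₂ (hf.mem hsR), hh _ hsR, iotaFun_apply ι₂ s.2]
          group
  choose pt hpt hptfix using hpoint
  let orep : B → B := fun b => (Quotient.mk (MulAction.orbitRel S B) b).out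
  have horep : ∀ (s : S) b, orep (s • b) = orep b := fun s b =>
    congrArg Quotient.out (Quotient.sound (s := MulAction.orbitRel S B) (MulAction.mem_orbit b s))
  have hr : ∀ b, ∃ r : S, r • orep b = b := fun b => by
    have h1 : b ∈ MulAction.orbit S (orep b) := by
      rw [← MulAction.orbitRel_apply, ← Quotient.eq'']
      exact (Quotient.out_eq' _).symm
    exact h1
  choose r hr using hr
  let σ₀ : Sec := ⟨fun b => δ (r b) • pt (orep b), fun b => by
    rw [hπsmul, hpt, hδ1, ← hsmulB, hr]⟩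
  have hσ₀ : ∀ s, act (δ s) σ₀ = σ₀ := fun s => Subtype.ext (funext fun b => by
    show δ s • δ (r ((ι₁ s)⁻¹ • b)) • pt (orep ((ι₁ s)⁻¹ • b)) = δ (r b) • pt (orep b)
    rw [← map_inv, ← hsmulB s⁻¹ b, horep, smul_smul, ← map_mul, eq_comm, ← inv_smul_eq_iff,
      smul_smul, ← map_inv, ← map_mul, eq_comm]
    refine (hptfix _ _ ?_).symm
    have h1 : r (s⁻¹ • b) • orep b = s⁻¹ • b := by
      have := hr (s⁻¹ • b)
      rwa [horep] at this
    rw [mul_smul, inv_smul_eq_iff, hr, mul_smul, h1, smul_inv_smul])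
  -- the graph
  let Mm : Submonoid K :=
    { carrier := {k | d σ₀ (act k σ₀) = 1}
      one_mem' := Finset.prod_eq_one fun b _ => by simp [act, hdl_self]
      mul_mem' := by
        intro a b ha hb
        show d σ₀ (act (a * b) σ₀) = 1
        rw [hd_trans σ₀ (act a σ₀), hact_mul, hd_act, show d σ₀ (act b σ₀) = 1 from hb,
          show d σ₀ (act a σ₀) = 1 from ha, map_one, one_mul] }
  let M : Subgroup K :=
    { Mm with
      inv_mem' := fun {k} hk => by
        have h : k⁻¹ = k ^ (orderOf k - 1) := inv_eq_of_mul_eq_one_right (by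
          rw [← pow_succ', show orderOf k - 1 + 1 = orderOf k by have := orderOf_pos k; omega,
            pow_orderOf_eq_one])
        show k⁻¹ ∈ Mm
        rw [h]
        exact Mm.pow_mem hk _ }
  have hDM : ∀ s, δ s ∈ M := fun s => by
    show d σ₀ (act (δ s) σ₀) = 1
    rw [hσ₀]
    exact Finset.prod_eq_one fun b _ => hdl_self _
  have hcop : (Nat.card Z).Coprime (Fintype.card B) := by
    obtain ⟨T, hT⟩ := h₁.2.2.1
    have hm : ¬ p ∣ Fintype.card B := by
      rw [← Nat.card_eq_fintype_card, ← Subgroup.index_eq_card, ← hT]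
      exact T.not_dvd_index
    have hZp : IsPGroup p Z :=
      ((hS.to_subgroup (Q.subgroupOf S)).map ι₂).to_le hC₂
    obtain ⟨n, hn⟩ := IsPGroup.iff_card.1 hZp
    rw [hn]
    exact Nat.Coprime.pow_left n ((Fact.out : p.Prime).coprime_iff_not_dvd.2 hm)
  have hd_e : ∀ z σ, d σ (act (e z) σ) = z ^ Fintype.card B := fun z σ => by
    simp only [d]
    rw [Finset.prod_congr rfl fun b _ => huniq (σ.1 b) ((act (e z) σ).1 b) z (by
      simp only [act, he1, inv_one, one_smul]), Finset.prod_const, Finset.card_univ]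
  have hMZ : ∀ z, e z ∈ M → z = 1 := fun z hz => by
    refine (powCoprime hcop).injective ?_
    show z ^ Fintype.card B = (1 : Z) ^ Fintype.card B
    rw [one_pow, ← hd_e z σ₀]
    exact hz
  have hadj : ∀ k : K, ∃ z : Z, e z * k ∈ M := fun k => by
    obtain ⟨z, hz⟩ := (powCoprime hcop).surjective (d σ₀ (act k σ₀))⁻¹
    refine ⟨z, ?_⟩
    show d σ₀ (act (e z * k) σ₀) = 1
    rw [hd_trans σ₀ (act k σ₀), hact_mul, hd_e]
    show (z ^ Fintype.card B) * _ = 1
    rw [show z ^ Fintype.card B = (d σ₀ (act k σ₀))⁻¹ from hz, inv_mul_cancel]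
  have hlift₁ : ∀ g₁ : G₁, ∃ g₂, (g₁, g₂) ∈ K := fun g₁ => by
    obtain ⟨f, hf, hfe⟩ := exists_mor_of_conj_mem hι₁ hQS g₁ fun x hx =>
      iotaImg_le_range Q (hN₁.conj_mem _ (iotaFun_mem_iotaImg hQS hx) g₁)
    obtain ⟨g₂, hg₂⟩ := exists_conj_of_mor hι₂ hf
    refine ⟨g₂, fun x hx => ⟨f x, mem_of_iotaFun_mem hι₁ hQS (hf.mem hx) ?_, (hfe x hx).symm, (hg₂ x hx).symm⟩⟩
    rw [hfe x hx]
    exact hN₁.conj_mem _ (iotaFun_mem_iotaImg hQS hx) g₁
  have hlift₂ : ∀ g₂ : G₂, ∃ g₁, (g₁, g₂) ∈ K := fun g₂ => by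
    obtain ⟨f, hf, hfe⟩ := exists_mor_of_conj_mem hι₂ hQS g₂ fun x hx =>
      iotaImg_le_range Q (hN₂.conj_mem _ (iotaFun_mem_iotaImg hQS hx) g₂)
    obtain ⟨g₁, hg₁⟩ := exists_conj_of_mor hι₁ hf
    refine ⟨g₁, fun x hx => ⟨f x, mem_of_iotaFun_mem hι₂ hQS (hf.mem hx) ?_, (hg₁ x hx).symm, (hfe x hx).symm⟩⟩
    rw [hfe x hx]
    exact hN₂.conj_mem _ (iotaFun_mem_iotaImg hQS hx) g₂
  let p₁ : M →* G₁ := (MonoidHom.fst G₁ G₂).comp (K.subtype.comp M.subtype)
  let p₂ : M →* G₂ := (MonoidHom.snd G₁ G₂).comp (K.subtype.comp M.subtype)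
  have hp₁ : Function.Bijective p₁ := by
    refine ⟨(injective_iff_map_eq_one p₁).2 fun ⟨k, hk⟩ h => ?_, fun g₁ => ?_⟩
    · have hk1 : (k : G₁ × G₂).1 = 1 := h
      have hwZ : (k : G₁ × G₂).2 ∈ Z := Subgroup.mem_centralizer_iff.2 fun y hy => by
        obtain ⟨x, hx, rfl⟩ := (mem_iotaImg hQS).1 hy
        obtain ⟨y, hy, hy1, hy2⟩ := k.2 x hx
        rw [hk1, one_mul, inv_one, mul_one] at hy1
        rw [← iotaFun_injOn hι₁ (hQS hx) (hQS hy) hy1] at hy2
        exact (mul_inv_eq_iff_eq_mul.1 hy2).symm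
      have hke : e ⟨_, hwZ⟩ = k := Subtype.ext (Prod.ext (by rw [he1, hk1]) rfl)
      refine Subtype.ext ?_
      show k = 1
      have hz := hMZ ⟨_, hwZ⟩ (hke.symm ▸ hk)
      rw [← hke, hz, map_one]
    · obtain ⟨g₂, hg⟩ := hlift₁ g₁
      obtain ⟨z, hz⟩ := hadj ⟨_, hg⟩
      exact ⟨⟨_, hz⟩, by show 1 * g₁ = g₁; rw [one_mul]⟩
  have hp₂ : Function.Bijective p₂ := by
    refine ⟨(injective_iff_map_eq_one p₂).2 fun ⟨k, hk⟩ h => ?_, fun g₂ => ?_⟩
    · have hk2 : (k : G₁ × G₂).2 = 1 := h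
      have hc : (k : G₁ × G₂).1 ∈ Subgroup.centralizer (iotaImg ι₁ Q : Set G₁) :=
        Subgroup.mem_centralizer_iff.2 fun y hy => by
          obtain ⟨x, hx, rfl⟩ := (mem_iotaImg hQS).1 hy
          obtain ⟨y, hy, hy1, hy2⟩ := k.2 x hx
          rw [hk2, one_mul, inv_one, mul_one] at hy2
          rw [← iotaFun_injOn hι₂ (hQS hx) (hQS hy) hy2] at hy1
          exact (mul_inv_eq_iff_eq_mul.1 hy1).symm
      obtain ⟨s, hs, hse⟩ := exists_iotaFun_eq (iotaImg_le_range Q (hC₁ hc))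
      rw [iotaFun_apply ι₁ hs] at hse
      have hm : k * (δ ⟨s, hs⟩)⁻¹ ∈ M := M.mul_mem hk (M.inv_mem (hDM _))
      have hsq : s ∈ Q := mem_of_iotaFun_mem hι₁ hQS hs (by rw [iotaFun_apply ι₁ hs, hse]; exact hC₁ hc)
      have hsZ : (ι₂ ⟨s, hs⟩)⁻¹ ∈ Z := Subgroup.inv_mem _ (Subgroup.mem_centralizer_iff.2 fun y hy => by
        obtain ⟨x, hx, rfl⟩ := (mem_iotaImg hQS).1 hy
        have h1 : (⟨x, hQS hx⟩ : S) * ⟨s, hs⟩ = ⟨s, hs⟩ * ⟨x, hQS hx⟩ := hι₁.1 (by
          rw [map_mul, map_mul, hse, ← iotaFun_apply ι₁ (hQS hx)]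
          exact Subgroup.mem_centralizer_iff.1 hc _ (iotaFun_mem_iotaImg hQS hx))
        rw [iotaFun_apply ι₂ (hQS hx), ← map_mul, ← map_mul, h1])
      have hke : e ⟨_, hsZ⟩ = k * (δ ⟨s, hs⟩)⁻¹ := Subtype.ext (Prod.ext
        (by simp only [he1, Subgroup.coe_mul, Subgroup.coe_inv, Prod.fst_mul, Prod.fst_inv, hδ1, hse, mul_inv_cancel])
        (by simp only [he2, Subgroup.coe_mul, Subgroup.coe_inv, Prod.snd_mul, Prod.snd_inv, hδ2, hk2, one_mul]))
      have hz := hMZ _ (hke.symm ▸ hm)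
      have hs1 : (⟨s, hs⟩ : S) = 1 := hι₂.1 (by
        rw [map_one, ← inv_eq_one]
        exact congrArg Subtype.val hz)
      refine Subtype.ext (Subtype.ext (Prod.ext ?_ hk2))
      show (k : G₁ × G₂).1 = 1
      rw [← hse, hs1, map_one]
    · obtain ⟨g₁, hg⟩ := hlift₂ g₂
      obtain ⟨z, hz⟩ := hadj ⟨_, hg⟩
      obtain ⟨s, hs, hse⟩ := exists_iotaFun_eq (iotaImg_le_range Q (hC₂ (Subgroup.inv_mem _ z.2)))
      rw [iotaFun_apply ι₂ hs] at hse
      refine ⟨⟨δ ⟨s, hs⟩ * (e z * ⟨_, hg⟩), M.mul_mem (hDM _) hz⟩, ?_⟩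
      show ι₂ ⟨s, hs⟩ * ((z : G₂) * g₂) = g₂
      rw [hse, ← mul_assoc, inv_mul_cancel, one_mul]
  refine ⟨(MulEquiv.ofBijective p₁ hp₁).symm.trans (MulEquiv.ofBijective p₂ hp₂), fun x => ?_⟩
  have : (MulEquiv.ofBijective p₁ hp₁).symm (ι₁ x) = ⟨δ x, hDM x⟩ := by
    rw [MulEquiv.symm_apply_eq]
    rfl
  simp only [MulEquiv.trans_apply, this]
  rfl

end Cfsg.Lib.Fusion.ModelUnique
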