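import Mathlib
import Cfsg.Prelude.Def_FusionSystem
import Cfsg.Agent.Lib.Fusion.Basic
import Cfsg.Agent.Lib.Fusion.Saturation
import Cfsg.Agent.Lib.Fusion.GroupSystem
import Cfsg.Agent.Lib.Fusion.Alperin

/-!
A simplicity criterion for groups of Lie type in their own characteristic: no strongly closed subgroups, and the
normalizer of the Sylow subgroup is generated, modulo centralizing elements, by elements that are products of
conjugates of Sylow elements inside normalizers of self-centralizing normal subgroups of the Sylow subgroup.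
-/

set_option autoImplicit false

open scoped Classical Pointwise

namespace Cfsg.Lib.Fusion

open Cfsg Cfsg.FusionSystem

variable {G : Type*} [Group G]

/-- The elements normalizing `S` that are generated by conjugates of `S` under the normalizer of some normal
self-centralizing subgroup of `S`. -/
def radicalGens (S : Subgroup G) : Set G :=
  {h | h ∈ Subgroup.normalizer (S : Set G) ∧ ∃ P : Subgroup G, P ≤ S ∧ S ≤ Subgroup.normalizer (P : Set G) ∧
    Subgroup.centralizer (P : Set G) ≤ P ∧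
    h ∈ Subgroup.closure {y | ∃ x ∈ Subgroup.normalizer (P : Set G), ∃ s ∈ S, y = x * s * x⁻¹}}

variable [Finite G] {p : ℕ} [Fact p.Prime]

/-- The criterion, on one Sylow subgroup. -/
theorem isSimple_group_of_radicalGens₀ (S : Sylow p G) (hne : (S : Subgroup G) ≠ ⊥)
    (hclosed : ∀ T : Subgroup G, T ≤ S → (∀ x ∈ T, ∀ g : G, g * x * g⁻¹ ∈ (S : Subgroup G) → g * x * g⁻¹ ∈ T) →
      T = ⊥ ∨ T = S)
    (hgen : Subgroup.normalizer ((S : Subgroup G) : Set G) ≤
      Subgroup.closure (((S : Subgroup G) : Set G) ∪ (Subgroup.centralizer ((S : Subgroup G) : Set G) : Set G) ∪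
        radicalGens (S : Subgroup G))) :
    (groupFusionSystem (S : Subgroup G)).IsSimple p := by
  set F := groupFusionSystem (S : Subgroup G)
  have hS := S.isPGroup'
  have hF : F.IsSaturated p := saturated_group S
  refine isSimple_of_stronglyClosed hS hF hne (fun T hT => hclosed T hT.1 fun x hx g hg => ?_) fun E hE => ?_
  · have hle : Subgroup.zpowers x ≤ T := Subgroup.zpowers_le.2 hx
    refine hT.2 (Subgroup.zpowers x) hle (conjHom (Subgroup.zpowers x) g)
      ⟨hle.trans hT.1, ?_, g, fun _ => rfl⟩ ⟨x, Subgroup.mem_zpowers x⟩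
    rintro ⟨_, i, rfl⟩
    show g * x ^ i * g⁻¹ ∈ _
    rw [← conj_zpow]
    exact zpow_mem hg i
  obtain ⟨hEs, -, hinv⟩ := hE.1
  set N := Subgroup.normalizer ((S : Subgroup G) : Set G)
  let γ : N →* MulAut (S : Subgroup G) := (S : Subgroup G).normalizerMonoidHom
  have hγ : ∀ (n : N), ∀ x ∈ (S : Subgroup G), autFun (γ n) x = (n : G) * x * (n : G)⁻¹ := fun n x hx => by
    rw [autFun_apply _ hx]; rfl
  suffices hA : ∀ n : N, γ n ∈ E.autGroup (S : Subgroup G) by
    intro α hα
    obtain ⟨-, c, hc⟩ := mor_group_iff.1 ((mem_autGroup_iff le_rfl).1 hα)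
    have hcN : c ∈ N := by
      have hle : (S : Subgroup G).map (MulAut.conj c).toMonoidHom ≤ S := by
        rintro _ ⟨x, hx, rfl⟩
        exact (hc x hx).2
      have heq := Subgroup.eq_of_le_of_card_ge hle
        (Subgroup.card_map_of_injective (MulAut.conj c).injective).ge
      refine Subgroup.mem_normalizer_iff.2 fun x => ⟨fun hx => (hc x hx).2, fun hx => ?_⟩
      obtain ⟨y, hy, hye⟩ := heq.ge hx
      rwa [← (MulAut.conj c).injective hye]
    convert hA ⟨c, hcN⟩ using 1
    exact aut_ext fun x hx => by rw [hγ _ x hx, (hc x hx).1]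
  suffices hA : N ≤ ((E.autGroup (S : Subgroup G)).comap γ).map N.subtype by
    intro n
    obtain ⟨m, hm, hme⟩ := hA n.2
    exact (Subtype.ext hme : m = n) ▸ hm
  refine hgen.trans ((Subgroup.closure_le _).2 ?_)
  rintro h ((hh | hh) | ⟨hhN, P, hPS, hSP, hPC, hh⟩)
  · refine ⟨⟨h, Subgroup.le_normalizer hh⟩, ?_, rfl⟩
    exact (mem_autGroup_iff le_rfl).2 ((mor_conj le_rfl hh).congr fun x hx => (hγ ⟨h, Subgroup.le_normalizer hh⟩ x hx).symm)
  · have hhN : h ∈ N := Subgroup.mem_normalizer_iff.2 fun x => ⟨fun hx => by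
      rw [← Subgroup.mem_centralizer_iff.1 hh x hx, mul_inv_cancel_right]; exact hx, fun hx => by
      have h2 := Subgroup.mem_centralizer_iff.1 hh _ hx
      rw [inv_mul_cancel_right] at h2
      rw [mul_left_cancel h2]; exact hx⟩
    refine ⟨⟨h, hhN⟩, (mem_autGroup_iff le_rfl).2 ((mor_id le_rfl).congr fun x hx => ?_), rfl⟩
    rw [hγ _ x hx, ← Subgroup.mem_centralizer_iff.1 hh x hx, mul_inv_cancel_right]
  refine ⟨⟨h, hhN⟩, ?_, rfl⟩
  -- conjugation by `h` on `P` is in `E`
  set M := Subgroup.normalizer (P : Set G)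
  let δ : M →* MulAut P := P.normalizerMonoidHom
  have hδ : ∀ (m : M), ∀ x ∈ P, autFun (δ m) x = (m : G) * x * (m : G)⁻¹ := fun m x hx => by
    rw [autFun_apply _ hx]; rfl
  have hB : Subgroup.closure {y | ∃ x ∈ M, ∃ s ∈ (S : Subgroup G), y = x * s * x⁻¹} ≤
      ((E.autGroup P).comap δ).map M.subtype := by
    rw [Subgroup.closure_le]
    rintro _ ⟨x, hx, s, hs, rfl⟩
    refine ⟨⟨x, hx⟩ * ⟨s, hSP hs⟩ * ⟨x, hx⟩⁻¹, ?_, rfl⟩
    show δ _ ∈ E.autGroup P
    rw [map_mul, map_mul, map_inv]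
    refine autGroup_conj_mem_of_invariant hinv hPS ((mem_autGroup_iff hPS).2 (mor_group_iff.2 ⟨hPS, x,
      fun z hz => ⟨hδ _ z hz, hPS ((Subgroup.mem_normalizer_iff.1 hx z).1 hz)⟩⟩)) ?_
    exact (mem_autGroup_iff hPS).2 ((mor_conj hPS hs).congr fun z hz => (hδ ⟨s, hSP hs⟩ z hz).symm)
  obtain ⟨m, hm, hme⟩ := hB hh
  have hmP : Mor E P (fun z => h * z * h⁻¹) := ((mem_autGroup_iff hPS).1 hm).congr fun z hz => by
    rw [hδ _ z hz, show (m : G) = h from hme]
  have himg : img P (fun z => h * z * h⁻¹) = P := by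
    have hhM : h ∈ M := hme ▸ m.2
    refine le_antisymm (img_le fun z hz => (Subgroup.mem_normalizer_iff.1 hhM z).1 hz) fun z hz => ?_
    have h1 : h * (h⁻¹ * z * h) * h⁻¹ = z := by group
    rw [← h1]
    exact mem_img_of_mem (f := fun z => h * z * h⁻¹)
      ((Subgroup.mem_normalizer_iff.1 hhM _).2 (h1.symm ▸ hz))
  -- `P` is fully normalized, so receptive
  have hnP : normalizerIn (S : Subgroup G) P = S := inf_eq_left.2 hSP
  have hfn : E.IsFullyNormalized P := ⟨hPS, fun Q _ => by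
    rw [hnP]; exact Subgroup.card_le_of_le normalizerIn_le⟩
  obtain ⟨-, hrec⟩ := isReceptive_iff.1 (receptive_of_fullyNormalized hS hEs hfn)
  obtain ⟨k, hk, hke⟩ := hrec P _ hmP himg
  have hext : extN (S : Subgroup G) P (fun z => h * z * h⁻¹) = S := le_antisymm extN_le fun c hc =>
    ⟨hnP.symm ▸ hc, h * c * h⁻¹, (Subgroup.mem_normalizer_iff.1 hhN c).1 hc, fun z _ => by group⟩
  rw [hext] at hk
  obtain ⟨-, g, hg⟩ := mor_group_iff.1 (hk.of_subsystem hinv.1)
  have hz : g⁻¹ * h ∈ P := hPC (Subgroup.mem_centralizer_iff.2 fun z hz => by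
    have h1 := (hg z (hPS hz)).1
    rw [hke z hz] at h1
    calc z * (g⁻¹ * h) = g⁻¹ * (g * z * g⁻¹) * h := by group
      _ = g⁻¹ * (h * z * h⁻¹) * h := by rw [← h1]
      _ = _ := by group)
  refine (mem_autGroup_iff le_rfl).2 ((hk.comp (mor_conj le_rfl (hPS hz)) fun x hx =>
    (S : Subgroup G).mul_mem ((S : Subgroup G).mul_mem (hPS hz) hx) ((S : Subgroup G).inv_mem (hPS hz))).congr
      fun x hx => ?_)
  have hx' : g⁻¹ * h * x * (g⁻¹ * h)⁻¹ ∈ (S : Subgroup G) :=
    (S : Subgroup G).mul_mem ((S : Subgroup G).mul_mem (hPS hz) hx) ((S : Subgroup G).inv_mem (hPS hz))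
  show k (g⁻¹ * h * x * (g⁻¹ * h)⁻¹) = _
  rw [hγ _ x hx, (hg _ hx').1]
  group

/-- The criterion, from one Sylow subgroup to all. -/
theorem isSimple_group_of_radicalGens (S₀ : Sylow p G) (hne : (S₀ : Subgroup G) ≠ ⊥)
    (hclosed : ∀ T : Subgroup G, T ≤ S₀ → (∀ x ∈ T, ∀ g : G, g * x * g⁻¹ ∈ (S₀ : Subgroup G) → g * x * g⁻¹ ∈ T) →
      T = ⊥ ∨ T = S₀)
    (hgen : Subgroup.normalizer ((S₀ : Subgroup G) : Set G) ≤
      Subgroup.closure (((S₀ : Subgroup G) : Set G) ∪ (Subgroup.centralizer ((S₀ : Subgroup G) : Set G) : Set G) ∪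
        radicalGens (S₀ : Subgroup G))) (S : Sylow p G) :
    (groupFusionSystem (S : Subgroup G)).IsSimple p := by
  obtain ⟨k, hk⟩ := MulAction.exists_smul_eq G S₀ S
  set e : G ≃* G := MulAut.conj k with he
  have hS : (S : Subgroup G) = (S₀ : Subgroup G).map e.toMonoidHom := by rw [← hk]; rfl
  have hmem : ∀ {A : Subgroup G} {x : G}, x ∈ A.map e.toMonoidHom ↔ e.symm x ∈ A := fun {A x} =>
    Subgroup.mem_map_equiv
  have hnorm : ∀ A : Subgroup G, Subgroup.normalizer ((A.map e.toMonoidHom : Subgroup G) : Set G) =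
      (Subgroup.normalizer (A : Set G)).map e.toMonoidHom := fun A => (Subgroup.map_equiv_normalizer_eq _ _).symm
  refine isSimple_group_of_radicalGens₀ S (fun h => hne ?_) ?_ ?_
  · rw [hS, Subgroup.map_eq_bot_iff_of_injective _ e.injective] at h
    exact h
  · intro T hT hc
    have hTk : T.map e.symm.toMonoidHom ≤ (S₀ : Subgroup G) := by
      rintro _ ⟨x, hx, rfl⟩
      exact hmem.1 (hS ▸ hT hx)
    rcases hclosed _ hTk (by
      rintro _ ⟨x, hx, rfl⟩ g hg
      refine ⟨e g * x * (e g)⁻¹, hc x hx _ (hS ▸ hmem.2 ?_), ?_⟩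
      · simpa using hg
      · simp) with h | h
    · left
      rwa [Subgroup.map_eq_bot_iff_of_injective _ e.symm.injective] at h
    · right
      rw [hS, ← h, Subgroup.map_map, show e.toMonoidHom.comp e.symm.toMonoidHom = MonoidHom.id G from
        MonoidHom.ext fun x => by simp, Subgroup.map_id]
  · rw [hS, hnorm]
    refine (Subgroup.map_mono hgen).trans ?_
    rw [MonoidHom.map_closure]
    refine Subgroup.closure_mono ?_
    rintro _ ⟨y, (hy | hy) | ⟨hyN, P, hP1, hP2, hP3, hy⟩, rfl⟩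
    · refine Or.inl (Or.inl (hmem.2 ?_))
      rw [show e.symm (e.toMonoidHom y) = y from e.symm_apply_apply y]
      exact hy
    · refine Or.inl (Or.inr (Subgroup.mem_centralizer_iff.2 ?_))
      rintro _ ⟨z, hz, rfl⟩
      simpa [← map_mul] using congrArg e (Subgroup.mem_centralizer_iff.1 hy z hz)
    · refine Or.inr ⟨?_, P.map e.toMonoidHom, Subgroup.map_mono hP1, ?_, ?_, ?_⟩
      · rw [hnorm]; exact ⟨y, hyN, rfl⟩
      · rw [hnorm]; exact Subgroup.map_mono hP2
      · rw [← centralizer_map_conj P k]; exact Subgroup.map_mono hP3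
      · have h1 := Subgroup.mem_map_of_mem e.toMonoidHom hy
        rw [MonoidHom.map_closure] at h1
        refine Subgroup.closure_mono ?_ h1
        rintro _ ⟨_, ⟨x, hx, s, hs, rfl⟩, rfl⟩
        refine ⟨e x, ?_, e s, ⟨s, hs, rfl⟩, ?_⟩
        · rw [hnorm]; exact ⟨x, hx, rfl⟩
        · simp

end Cfsg.Lib.Fusion
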