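import Mathlib
import Cfsg.Prelude.Def_FusionSystem
import Cfsg.Agent.Lib.Fusion.SimpleLieCriterion
import Cfsg.Agent.Lib.Classical.PSLAut.RootGroups
import Cfsg.Agent.Lib.Transfer.PGroupNormal

/-!
The fusion system of `PSL_n(q)`, `n ≥ 3`, in the defining characteristic is simple.
-/

set_option autoImplicit false

open scoped Classical Pointwise

namespace Cfsg.Lib.Fusion.PSLDefining

open Cfsg Matrix Cfsg.Lib.Classical.PSLAut
open Cfsg.Lib.Classical (tv det_tv tv_mul_right conj_tv)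
open scoped MatrixGroups

variable {n : ℕ} {F : Type*} [Field F]

local notation "SLn" => Matrix.SpecialLinearGroup (Fin n) F
local notation "PSLn" => Matrix.ProjectiveSpecialLinearGroup (Fin n) F
local notation "U₀" => (Ubar n F)

theorem tvS_add_right {v φ ψ : Fin n → F} (h : φ ⬝ᵥ v = 0) (h' : ψ ⬝ᵥ v = 0) :
    tvS v φ * tvS v ψ = tvS v (φ + ψ) := by
  refine Subtype.ext ?_
  rw [Matrix.SpecialLinearGroup.coe_mul, coe_tvS h, coe_tvS h', coe_tvS (by rw [add_dotProduct, h, h', add_zero]),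
    tv_mul_right _ _ _ h]

theorem ev_dot_self (i : Fin n) : (ev i : Fin n → F) ⬝ᵥ ev i = 1 := by simp [ev]

theorem exists_third (hn : 3 ≤ n) (a b : Fin n) : ∃ c : Fin n, c ≠ a ∧ c ≠ b := by
  have h : ({a, b} : Finset (Fin n)).card < Fintype.card (Fin n) := by
    rw [Fintype.card_fin]
    exact lt_of_le_of_lt Finset.card_le_two (by omega)
  obtain ⟨c, hc⟩ : ∃ c : Fin n, c ∉ ({a, b} : Finset (Fin n)) := by
    by_contra hne
    push Not at hne
    rw [Finset.eq_univ_iff_forall.2 hne, Finset.card_univ] at h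
    exact lt_irrefl _ h
  exact ⟨c, fun e => hc (by simp [e]), fun e => hc (by simp [e])⟩

theorem ev_mulVec_upper {s : SLn} (hs : ∀ i j : Fin n, j < i → s.1 i j = 0) {a : Fin n} (ha : ∀ k, a ≤ k) :
    s.1 *ᵥ ev a = s.1 a a • ev a := by
  funext k
  rw [mulVec_single_one, col_apply]
  by_cases hk : k = a
  · subst hk; simp [ev]
  · rw [hs k a (lt_of_le_of_ne (ha k) (Ne.symm hk))]; simp [ev, hk]

theorem vecMul_upper {s : SLn} (hs : ∀ i j : Fin n, j < i → s.1 i j = 0) {b : Fin n} (hb : ∀ k, k ≤ b) :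
    ev b ᵥ* s.1 = s.1 b b • ev b := by
  funext k
  rw [single_one_vecMul, row_apply]
  by_cases hk : k = b
  · subst hk; simp [ev]
  · rw [hs b k (lt_of_le_of_ne (hb k) hk)]; simp [ev, hk]

theorem upper_of_mem_Usl {u : SLn} (hu : u ∈ Usl n F) : ∀ i j : Fin n, j < i → u.1 i j = 0 := fun i j h => by
  rw [hu i j h.le, if_neg h.ne']

/-- A matrix normalizing the unitriangular group is upper triangular. -/
theorem upper_of_normalizes {s : SLn} (h : ∀ u ∈ Usl n F, s * u * s⁻¹ ∈ Usl n F) :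
    ∀ i j : Fin n, j < i → s.1 i j = 0 := by
  suffices key : ∀ m : ℕ, ∀ k i : Fin n, n ≤ (k : ℕ) + m → i < k → s.1 k i = 0 from fun i j hij =>
    key n i j (Nat.le_add_left _ _) hij
  intro m
  induction m with
  | zero => intro k i hk _; exact absurd k.2 (by omega)
  | succ m ih =>
    intro k i hk hik
    let j : Fin n := ⟨i + 1, by have := k.2; omega⟩
    have hij : i < j := Nat.lt_succ_self _
    set x := xs i j (1 : F) with hx
    obtain ⟨y, hy, he⟩ : ∃ y ∈ Usl n F, s * x = y * s :=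
      ⟨s * x * s⁻¹, h _ (xs_mem_Usl hij 1), by rw [inv_mul_cancel_right]⟩
    have e : (s * x).1 k j = (y * s).1 k j := by rw [he]
    rw [Matrix.SpecialLinearGroup.coe_mul, Matrix.SpecialLinearGroup.coe_mul, hx, xs_eq_transvection hij.ne,
      show (Matrix.SpecialLinearGroup.transvection hij.ne (1 : F)).1 = Matrix.transvection i j 1 from rfl,
      Matrix.mul_transvection_apply_same, Matrix.mul_apply, Finset.sum_eq_single k] at e
    · rw [hy k k le_rfl, if_pos rfl, one_mul, one_mul] at e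
      simpa using e
    · intro l _ hl
      rcases lt_or_gt_of_ne hl with h' | h'
      · rw [hy k l h'.le, if_neg (Ne.symm hl), zero_mul]
      · have hjl : j < l := lt_of_le_of_lt (Fin.le_def.2 (Nat.succ_le_of_lt hik)) h'
        rw [ih l j (by have : (k : ℕ) < l := h'; omega) hjl, mul_zero]
    · exact fun h' => absurd (Finset.mem_univ k) h'

/-- The normalizer of the unitriangular image consists of images of upper triangular matrices. -/
theorem exists_upper (hn : 3 ≤ n) {g : PSLn} (hg : g ∈ Subgroup.normalizer (U₀ : Set PSLn)) :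
    ∃ s : SLn, g = QuotientGroup.mk s ∧ ∀ i j : Fin n, j < i → s.1 i j = 0 := by
  obtain ⟨s, rfl⟩ := QuotientGroup.mk_surjective g
  refine ⟨s, rfl, upper_of_normalizes fun u hu => ?_⟩
  obtain ⟨y, hy, hye⟩ := (Subgroup.mem_normalizer_iff.1 hg (QuotientGroup.mk u)).1 ⟨u, hu, rfl⟩
  have hye' : (QuotientGroup.mk y : PSLn) = QuotientGroup.mk (s * u * s⁻¹) := hye
  let a : Fin n := ⟨0, by omega⟩
  have ha : ∀ k, a ≤ k := fun k => Nat.zero_le _
  obtain ⟨r, -, hr⟩ := mk_eq_iff.1 hye'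
  -- `s e_a` is an eigenvector of the unitriangular `y` for the eigenvalue `r⁻¹`
  set w := s.1 *ᵥ ev a with hw
  have hw1 : (s * u * s⁻¹).1 *ᵥ w = w := by
    rw [hw, mulVec_mulVec, ← Matrix.SpecialLinearGroup.coe_mul, inv_mul_cancel_right,
      Matrix.SpecialLinearGroup.coe_mul, ← mulVec_mulVec, Usl_fix hu ha]
  have hw0 : w ≠ 0 := by
    intro e
    have h1 := congrArg (fun z => (s⁻¹ : SLn).1 *ᵥ z) e
    simp only [hw, mulVec_mulVec, ← Matrix.SpecialLinearGroup.coe_mul, inv_mul_cancel,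
      Matrix.SpecialLinearGroup.coe_one, one_mulVec, mulVec_zero] at h1
    simp [ev] at h1
  obtain ⟨k, hk, hkmax⟩ : ∃ k, w k ≠ 0 ∧ ∀ l, k < l → w l = 0 := by
    obtain ⟨k₀, hk₀⟩ := Function.ne_iff.1 hw0
    obtain ⟨k, hk, hmax⟩ := (Finset.univ.filter fun l => w l ≠ 0).exists_max_image (fun l => l)
      ⟨k₀, by simpa using hk₀⟩
    exact ⟨k, (Finset.mem_filter.1 hk).2, fun l hl => of_not_not fun h =>
      absurd (hmax l (by simp [h])) (not_le.2 hl)⟩
  have hyk : (y.1 *ᵥ w) k = w k := by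
    rw [mulVec, dotProduct, Finset.sum_eq_single k]
    · rw [hy k k le_rfl, if_pos rfl, one_mul]
    · intro l _ hl
      rcases lt_or_gt_of_ne hl with h' | h'
      · rw [hy k l h'.le, if_neg (Ne.symm hl), zero_mul]
      · rw [hkmax l h', mul_zero]
    · exact fun h' => absurd (Finset.mem_univ k) h'
  have hr1 : r = 1 := by
    have h2 := congrFun hw1 k
    rw [hr, smul_mulVec, Pi.smul_apply, hyk, smul_eq_mul] at h2
    exact mul_right_cancel₀ hk (h2.trans (one_mul _).symm)
  rwa [show s * u * s⁻¹ = y from Subtype.ext (by rw [hr, hr1, one_smul])]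

/-- Upper triangular elements normalize the unitriangular image. -/
theorem mk_mem_normalizer [Fintype F] {s : SLn} (hs : ∀ i j : Fin n, j < i → s.1 i j = 0) :
    (QuotientGroup.mk s : PSLn) ∈ Subgroup.normalizer (U₀ : Set PSLn) := by
  have key : ∀ u ∈ Usl n F, s * u * s⁻¹ ∈ Usl n F := by
    intro u hu
    have hinv : ∀ i j : Fin n, j < i → (s⁻¹ : SLn).1 i j = 0 := by
      have h1 : s.1.BlockTriangular id := fun i j h => hs i j h
      haveI : Invertible s.1 := Matrix.invertibleOfIsUnitDet _ (by rw [s.2]; exact isUnit_one)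
      have h2 := Matrix.blockTriangular_inv_of_blockTriangular h1
      intro i j h
      have h3 : (s⁻¹ : SLn).1 = s.1⁻¹ := by
        rw [Matrix.SpecialLinearGroup.coe_inv, Matrix.inv_def, s.2, Ring.inverse_one, one_smul]
      rw [h3]
      exact h2 h
    intro i j hij
    rw [Matrix.SpecialLinearGroup.coe_mul, Matrix.mul_apply]
    have hsu : ∀ k l : Fin n, l ≤ k → (s * u).1 k l = if k = l then s.1 k k else 0 := by
      intro k l hlk
      rw [Matrix.SpecialLinearGroup.coe_mul, Matrix.mul_apply, Finset.sum_eq_single k]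
      · rw [hu k l hlk]; split_ifs <;> simp
      · intro m _ hm
        rcases lt_or_gt_of_ne hm with h' | h'
        · rw [hs k m h', zero_mul]
        · rw [upper_of_mem_Usl hu m l (lt_of_le_of_lt hlk h'), mul_zero]
      · exact fun h' => absurd (Finset.mem_univ k) h'
    rw [Finset.sum_eq_single i]
    · rw [hsu i i le_rfl, if_pos rfl]
      rcases eq_or_lt_of_le hij with rfl | hlt
      · rw [if_pos rfl]
        have h1 : (s * s⁻¹).1 j j = 1 := by simp
        rw [Matrix.SpecialLinearGroup.coe_mul, Matrix.mul_apply, Finset.sum_eq_single j] at h1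
        · exact h1
        · intro m _ hm
          rcases lt_or_gt_of_ne hm with h' | h'
          · rw [hs j m h', zero_mul]
          · rw [hinv m j h', mul_zero]
        · exact fun h' => absurd (Finset.mem_univ j) h'
      · rw [hinv i j hlt, mul_zero, if_neg hlt.ne']
    · intro m _ hm
      rcases lt_or_gt_of_ne hm with h' | h'
      · rw [hsu i m h'.le, if_neg (Ne.symm hm), zero_mul]
      · rw [hinv m j (lt_of_le_of_lt hij h'), mul_zero]
    · exact fun h' => absurd (Finset.mem_univ i) h'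
  have hle : (U₀).map (MulAut.conj (QuotientGroup.mk s : PSLn)).toMonoidHom ≤ U₀ := by
    rintro _ ⟨_, ⟨u, hu, rfl⟩, rfl⟩
    exact ⟨s * u * s⁻¹, key u hu, rfl⟩
  have heq := Subgroup.eq_of_le_of_card_ge hle
    (Subgroup.card_map_of_injective (MulAut.conj (QuotientGroup.mk s : PSLn)).injective).ge
  refine Subgroup.mem_normalizer_iff.2 fun x => ⟨fun hx => hle ⟨x, hx, rfl⟩, fun hx => ?_⟩
  obtain ⟨z, hz, hze⟩ := heq.ge hx
  rwa [← (MulAut.conj (QuotientGroup.mk s : PSLn)).injective hze]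

/-! ### Two abelian normal subgroups -/

/-- The transvections with centre the line of `e_a`. -/
def rowGrp (a : Fin n) : Subgroup PSLn :=
  Subgroup.closure {y | ∃ φ : Fin n → F, φ ⬝ᵥ ev a = 0 ∧ y = QuotientGroup.mk (tvS (ev a) φ)}

/-- The transvections with axis the hyperplane of `e_b`. -/
def colGrp (b : Fin n) : Subgroup PSLn :=
  Subgroup.closure {y | ∃ v : Fin n → F, ev b ⬝ᵥ v = 0 ∧ y = QuotientGroup.mk (tvS v (ev b))}

theorem tvS_zero_right (v : Fin n → F) : tvS v (0 : Fin n → F) = 1 :=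
  ext_mulVec' fun x => by rw [tvS_mulVec (zero_dotProduct v)]; simp

theorem tvS_zero_left (φ : Fin n → F) : tvS (0 : Fin n → F) φ = 1 :=
  ext_mulVec' fun x => by rw [tvS_mulVec (dotProduct_zero φ)]; simp

theorem mem_rowGrp_iff [Fintype F] {a : Fin n} {y : PSLn} :
    y ∈ rowGrp a ↔ ∃ φ : Fin n → F, φ ⬝ᵥ ev a = 0 ∧ y = QuotientGroup.mk (tvS (ev a) φ) := by
  refine ⟨fun h => ?_, fun h => Subgroup.subset_closure h⟩
  refine Subgroup.closure_induction (fun _ h => h) ⟨0, zero_dotProduct _, by rw [tvS_zero_right]; rfl⟩ ?_ ?_ h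
  · rintro _ _ - - ⟨φ, hφ, rfl⟩ ⟨ψ, hψ, rfl⟩
    exact ⟨φ + ψ, by rw [add_dotProduct, hφ, hψ, add_zero], by
      rw [← QuotientGroup.mk_mul, tvS_add_right hφ hψ]⟩
  · rintro _ - ⟨φ, hφ, rfl⟩
    refine ⟨-φ, by rw [neg_dotProduct, hφ, neg_zero], ?_⟩
    rw [← QuotientGroup.mk_inv, tvS_inv hφ, show -(ev a) = (-1 : F) • (ev a : Fin n → F) by simp,
      tvS_smul hφ, neg_one_smul]

theorem mem_colGrp_iff [Fintype F] {b : Fin n} {y : PSLn} :
    y ∈ colGrp b ↔ ∃ v : Fin n → F, ev b ⬝ᵥ v = 0 ∧ y = QuotientGroup.mk (tvS v (ev b)) := by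
  refine ⟨fun h => ?_, fun h => Subgroup.subset_closure h⟩
  refine Subgroup.closure_induction (fun _ h => h) ⟨0, dotProduct_zero _, by rw [tvS_zero_left]; rfl⟩ ?_ ?_ h
  · rintro _ _ - - ⟨φ, hφ, rfl⟩ ⟨ψ, hψ, rfl⟩
    exact ⟨φ + ψ, by rw [dotProduct_add, hφ, hψ, add_zero], by
      rw [← QuotientGroup.mk_mul, tvS_mul hφ hψ]⟩
  · rintro _ - ⟨φ, hφ, rfl⟩
    exact ⟨-φ, by rw [dotProduct_neg, hφ, neg_zero], by rw [← QuotientGroup.mk_inv, tvS_inv hφ]⟩

theorem rowGrp_le [Fintype F] {a : Fin n} (ha : ∀ k, a ≤ k) : rowGrp a ≤ U₀ := by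
  intro y hy
  obtain ⟨φ, hφ, rfl⟩ := mem_rowGrp_iff.1 hy
  refine ⟨_, fun i j hij => ?_, rfl⟩
  rw [coe_tvS hφ, tv, Matrix.add_apply, Matrix.one_apply, vecMulVec_apply]
  by_cases hi : i = a
  · subst hi
    have hj : j = i := le_antisymm hij (ha j)
    subst hj
    have : φ j = 0 := by simpa [ev] using hφ
    simp [this]
  · simp [ev, hi]

theorem colGrp_le [Fintype F] {b : Fin n} (hb : ∀ k, k ≤ b) : colGrp b ≤ U₀ := by
  intro y hy
  obtain ⟨v, hv, rfl⟩ := mem_colGrp_iff.1 hy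
  refine ⟨_, fun i j hij => ?_, rfl⟩
  rw [coe_tvS hv, tv, Matrix.add_apply, Matrix.one_apply, vecMulVec_apply]
  by_cases hj : j = b
  · subst hj
    have hi : i = j := le_antisymm (hb i) hij
    subst hi
    have : v i = 0 := by simpa [ev] using hv
    simp [this]
  · simp [ev, hj]

theorem mk_mem_normalizer_rowGrp [Fintype F] {a : Fin n} {g : SLn} {c : F} (hg : g.1 *ᵥ ev a = c • ev a) :
    (QuotientGroup.mk g : PSLn) ∈ Subgroup.normalizer ((rowGrp a : Subgroup PSLn) : Set PSLn) := by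
  have hle : (rowGrp a).map (MulAut.conj (QuotientGroup.mk g : PSLn)).toMonoidHom ≤ rowGrp a := by
    rintro _ ⟨y, hy, rfl⟩
    obtain ⟨φ, hφ, rfl⟩ := mem_rowGrp_iff.1 hy
    have h0 : (φ ᵥ* (g⁻¹ : SLn).1) ⬝ᵥ (c • ev a) = 0 := by
      rw [← hg, ← dotProduct_mulVec, mulVec_mulVec, ← Matrix.SpecialLinearGroup.coe_mul, inv_mul_cancel,
        Matrix.SpecialLinearGroup.coe_one, one_mulVec, hφ]
    have hc : c ≠ 0 := by
      intro e
      rw [e, zero_smul] at hg
      have h1 := congrArg (fun z => (g⁻¹ : SLn).1 *ᵥ z) hg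
      simp only [mulVec_mulVec, ← Matrix.SpecialLinearGroup.coe_mul, inv_mul_cancel,
        Matrix.SpecialLinearGroup.coe_one, one_mulVec, mulVec_zero] at h1
      simp [ev] at h1
    have h0' : (φ ᵥ* (g⁻¹ : SLn).1) ⬝ᵥ ev a = 0 := by
      rw [dotProduct_smul, smul_eq_mul] at h0
      exact (mul_eq_zero.1 h0).resolve_left hc
    refine mem_rowGrp_iff.2 ⟨c • (φ ᵥ* (g⁻¹ : SLn).1), by rw [smul_dotProduct, h0', smul_zero], ?_⟩
    rw [← tvS_smul h0' c, ← hg, ← conj_tvS g hφ]
    rfl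
  have heq := Subgroup.eq_of_le_of_card_ge hle
    (Subgroup.card_map_of_injective (MulAut.conj (QuotientGroup.mk g : PSLn)).injective).ge
  refine Subgroup.mem_normalizer_iff.2 fun x => ⟨fun hx => hle ⟨x, hx, rfl⟩, fun hx => ?_⟩
  obtain ⟨z, hz, hze⟩ := heq.ge hx
  rwa [← (MulAut.conj (QuotientGroup.mk g : PSLn)).injective hze]

theorem mk_mem_normalizer_colGrp [Fintype F] {b : Fin n} {g : SLn} {c : F} (hg : ev b ᵥ* g.1 = c • ev b) :
    (QuotientGroup.mk g : PSLn) ∈ Subgroup.normalizer ((colGrp b : Subgroup PSLn) : Set PSLn) := by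
  have hle : (colGrp b).map (MulAut.conj (QuotientGroup.mk g : PSLn)⁻¹).toMonoidHom ≤ colGrp b := by
    rintro _ ⟨y, hy, rfl⟩
    obtain ⟨v, hv, rfl⟩ := mem_colGrp_iff.1 hy
    have h0 : (c • ev b) ⬝ᵥ ((g⁻¹ : SLn).1 *ᵥ v) = 0 := by
      rw [← hg, ← dotProduct_mulVec, mulVec_mulVec, ← Matrix.SpecialLinearGroup.coe_mul, mul_inv_cancel,
        Matrix.SpecialLinearGroup.coe_one, one_mulVec, hv]
    have hc : c ≠ 0 := by
      intro e
      rw [e, zero_smul] at hg
      have h1 := congrArg (fun z => z ᵥ* (g⁻¹ : SLn).1) hg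
      simp only [vecMul_vecMul, ← Matrix.SpecialLinearGroup.coe_mul, mul_inv_cancel,
        Matrix.SpecialLinearGroup.coe_one, vecMul_one, zero_vecMul] at h1
      simp [ev] at h1
    have h0' : ev b ⬝ᵥ ((g⁻¹ : SLn).1 *ᵥ v) = 0 := by
      rw [smul_dotProduct, smul_eq_mul] at h0
      exact (mul_eq_zero.1 h0).resolve_left hc
    refine mem_colGrp_iff.2 ⟨c • ((g⁻¹ : SLn).1 *ᵥ v), by rw [dotProduct_smul, h0', smul_zero], ?_⟩
    rw [tvS_smul h0' c, ← hg]
    have h1 := conj_tvS g⁻¹ hv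
    rw [inv_inv] at h1
    rw [← h1]
    show (QuotientGroup.mk g : PSLn)⁻¹ * _ * (QuotientGroup.mk g : PSLn)⁻¹⁻¹ = _
    rw [inv_inv]
    rfl
  have heq := Subgroup.eq_of_le_of_card_ge hle
    (Subgroup.card_map_of_injective (MulAut.conj (QuotientGroup.mk g : PSLn)⁻¹).injective).ge
  rw [← inv_mem_iff]
  refine Subgroup.mem_normalizer_iff.2 fun x => ⟨fun hx => hle ⟨x, hx, rfl⟩, fun hx => ?_⟩
  obtain ⟨z, hz, hze⟩ := heq.ge hx
  rwa [← (MulAut.conj (QuotientGroup.mk g : PSLn)⁻¹).injective hze]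

theorem centralizer_rowGrp [Fintype F] (hn : 3 ≤ n) (a : Fin n) :
    Subgroup.centralizer ((rowGrp a : Subgroup PSLn) : Set PSLn) ≤ rowGrp (F := F) a := by
  intro y hy
  obtain ⟨s, rfl⟩ := QuotientGroup.mk_surjective y
  have hfix : ∀ φ : Fin n → F, φ ⬝ᵥ ev a = 0 →
      tvS (s.1 *ᵥ ev a) (φ ᵥ* (s⁻¹ : SLn).1) = tvS (ev a) φ := by
    intro φ hφ
    obtain ⟨x, hx0, hx1, hx2⟩ := exists_common_fixed hn φ (φ ᵥ* (s⁻¹ : SLn).1)
    have h0 : (φ ᵥ* (s⁻¹ : SLn).1) ⬝ᵥ (s.1 *ᵥ ev a) = 0 := by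
      rw [← dotProduct_mulVec, mulVec_mulVec, ← Matrix.SpecialLinearGroup.coe_mul, inv_mul_cancel,
        Matrix.SpecialLinearGroup.coe_one, one_mulVec, hφ]
    refine eq_of_mk_eq hx0 (by rw [tvS_mulVec h0, hx2, zero_smul, add_zero])
      (by rw [tvS_mulVec hφ, hx1, zero_smul, add_zero]) ?_
    have hc := Subgroup.mem_centralizer_iff.1 hy _ (mem_rowGrp_iff.2 ⟨φ, hφ, rfl⟩)
    rw [← conj_tvS s hφ, QuotientGroup.mk_mul, QuotientGroup.mk_mul, QuotientGroup.mk_inv, ← hc,
      mul_inv_cancel_right]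
  have happ : ∀ φ : Fin n → F, φ ⬝ᵥ ev a = 0 → ∀ x,
      ((φ ᵥ* (s⁻¹ : SLn).1) ⬝ᵥ x) • (s.1 *ᵥ ev a) = (φ ⬝ᵥ x) • ev a := by
    intro φ hφ x
    have h0 : (φ ᵥ* (s⁻¹ : SLn).1) ⬝ᵥ (s.1 *ᵥ ev a) = 0 := by
      rw [← dotProduct_mulVec, mulVec_mulVec, ← Matrix.SpecialLinearGroup.coe_mul, inv_mul_cancel,
        Matrix.SpecialLinearGroup.coe_one, one_mulVec, hφ]
    have h1 := congrArg (fun m : SLn => m.1 *ᵥ x) (hfix φ hφ)
    simp only [tvS_mulVec h0, tvS_mulVec hφ] at h1
    exact add_left_cancel h1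
  obtain ⟨k₀, hk₀, -⟩ := exists_third hn a a
  set c := s.1 a a
  have hsa : s.1 *ᵥ ev a = c • ev a := by
    have h1 := happ (ev k₀) (ev_dot hk₀) (ev k₀)
    rw [ev_dot_self, one_smul] at h1
    have hr : (ev k₀ ᵥ* (s⁻¹ : SLn).1) ⬝ᵥ ev k₀ ≠ 0 := by
      intro e
      rw [e, zero_smul] at h1
      simpa [ev] using h1.symm
    set r := (ev k₀ ᵥ* (s⁻¹ : SLn).1) ⬝ᵥ ev k₀
    have h2 : s.1 *ᵥ ev a = r⁻¹ • ev a := by
      calc s.1 *ᵥ ev a = r⁻¹ • (r • (s.1 *ᵥ ev a)) := by rw [smul_smul, inv_mul_cancel₀ hr, one_smul]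
        _ = r⁻¹ • ev a := by rw [h1]
    have h3 : c = r⁻¹ := by
      have := congrFun h2 a
      rw [mulVec_single_one, col_apply] at this
      simpa [ev, c] using this
    rw [h3, h2]
  have hrow : ∀ k, k ≠ a → ∀ l, s.1 k l = if k = l then c else 0 := by
    intro k hk l
    have h1 := happ (ev k) (ev_dot hk) (s.1 *ᵥ ev l)
    rw [← dotProduct_mulVec, mulVec_mulVec, ← Matrix.SpecialLinearGroup.coe_mul, inv_mul_cancel,
      Matrix.SpecialLinearGroup.coe_one, one_mulVec, hsa, smul_smul] at h1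
    have h2 := congrFun h1 a
    simp only [Pi.smul_apply, smul_eq_mul, ev, Pi.single_eq_same, mul_one, mulVec_single_one] at h2
    rw [single_dotProduct, one_mul, single_dotProduct, one_mul, col_apply] at h2
    rw [← h2]
    by_cases e : k = l
    · subst e; simp
    · simp [e]
  have hcn : c ^ n = 1 := by
    have hdet := s.2
    let ψ : Fin n → F := fun l => if l = a then 0 else c⁻¹ * s.1 a l
    have hs' : s.1 = c • (1 : Matrix (Fin n) (Fin n) F) + vecMulVec (ev a) (fun l => if l = a then 0 else s.1 a l) := by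
      ext k l
      rw [Matrix.add_apply, Matrix.smul_apply, Matrix.one_apply, vecMulVec_apply]
      by_cases hk : k = a
      · subst hk
        by_cases hl : l = k
        · subst hl; simp [ev, c]
        · simp [ev, hl, Ne.symm hl]
      · rw [hrow k hk l]; simp [ev, hk]
    have hc0 : c ≠ 0 := by
      intro e
      rw [e, zero_smul] at hsa
      have h1 := congrArg (fun z => (s⁻¹ : SLn).1 *ᵥ z) hsa
      simp only [mulVec_mulVec, ← Matrix.SpecialLinearGroup.coe_mul, inv_mul_cancel,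
        Matrix.SpecialLinearGroup.coe_one, one_mulVec, mulVec_zero] at h1
      simp [ev] at h1
    have hs2 : s.1 = c • tv (ev a) ψ := by
      rw [hs', tv, smul_add]
      congr 1
      ext k l
      simp only [vecMulVec_apply, Matrix.smul_apply, smul_eq_mul, ψ]
      split_ifs
      · simp
      · field_simp
    rw [hs2, Matrix.det_smul, det_tv, Fintype.card_fin] at hdet
    simpa [ψ, ev] using hdet
  have hc0 : c ≠ 0 := fun e => by rw [e, zero_pow (by omega)] at hcn; exact zero_ne_one hcn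
  refine mem_rowGrp_iff.2 ⟨fun l => if l = a then 0 else c⁻¹ * s.1 a l, by simp [ev], ?_⟩
  rw [eq_comm, mk_eq_iff]
  refine ⟨c, hcn, ?_⟩
  rw [coe_tvS (by simp [ev])]
  ext k l
  rw [Matrix.smul_apply, tv, Matrix.add_apply, Matrix.one_apply, vecMulVec_apply, smul_eq_mul]
  by_cases hk : k = a
  · subst hk
    by_cases hl : l = k
    · subst hl; simp [ev, c]
    · simp [ev, hl, Ne.symm hl, hc0]
  · rw [hrow k hk l]; simp [ev, hk]

theorem centralizer_colGrp [Fintype F] (hn : 3 ≤ n) (b : Fin n) :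
    Subgroup.centralizer ((colGrp b : Subgroup PSLn) : Set PSLn) ≤ colGrp (F := F) b := by
  have himg : ∀ (a : Fin n) {y : PSLn}, y ∈ colGrp a → (itP (n := n) (F := F)) y ∈ rowGrp a := by
    intro a y hy
    obtain ⟨v, hv, rfl⟩ := mem_colGrp_iff.1 hy
    have hv' : (-v) ⬝ᵥ ev a = 0 := by rw [dotProduct_comm, dotProduct_neg, hv, neg_zero]
    refine mem_rowGrp_iff.2 ⟨-v, hv', ?_⟩
    rw [itP_mk]
    refine congrArg QuotientGroup.mk (Subtype.ext ?_)
    rw [coe_itSL, tvS_inv hv, coe_tvS (by rw [dotProduct_neg, hv, neg_zero]), coe_tvS hv', tv, tv,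
      transpose_add, transpose_one, transpose_vecMulVec]
  have hback : ∀ (a : Fin n) {y : PSLn}, y ∈ rowGrp a → (itP (n := n) (F := F)) y ∈ colGrp a := by
    intro a y hy
    obtain ⟨φ, hφ, rfl⟩ := mem_rowGrp_iff.1 hy
    have hφ' : ev a ⬝ᵥ (-φ) = 0 := by rw [dotProduct_neg, dotProduct_comm, hφ, neg_zero]
    refine mem_colGrp_iff.2 ⟨-φ, hφ', ?_⟩
    rw [itP_mk]
    refine congrArg QuotientGroup.mk (Subtype.ext ?_)
    rw [coe_itSL, tvS_inv hφ, coe_tvS (by rw [dotProduct_neg, hφ, neg_zero]), coe_tvS hφ', tv, tv,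
      transpose_add, transpose_one, transpose_vecMulVec]
    congr 1
    ext k l
    simp [vecMulVec_apply]
  have hii : ∀ y : PSLn, (itP (n := n) (F := F)) (itP (n := n) (F := F) y) = y := fun y => by
    rw [← MulAut.mul_apply, itP_mul_itP, MulAut.one_apply]
  intro y hy
  have h1 : (itP (n := n) (F := F)) y ∈ rowGrp b := by
    refine centralizer_rowGrp hn b (Subgroup.mem_centralizer_iff.2 fun z hz => ?_)
    have h2 := congrArg (itP (n := n) (F := F)) (Subgroup.mem_centralizer_iff.1 hy _ (hback b hz))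
    rwa [map_mul, map_mul, hii] at h2
  rw [← hii y]
  exact hback b h1

/-! ### The torus -/

/-- `x_ij(t) x_ji(-t⁻¹) x_ij(t)`. -/
noncomputable def wEl (i j : Fin n) (t : F) : SLn := xs i j t * xs j i (-t⁻¹) * xs i j t

theorem wEl_mulVec {i j : Fin n} (h : i ≠ j) {t : F} (ht : t ≠ 0) (x : Fin n → F) (k : Fin n) :
    ((wEl i j t).1 *ᵥ x) k = if k = i then t * x j else if k = j then -t⁻¹ * x i else x k := by
  rw [wEl, Matrix.SpecialLinearGroup.coe_mul, Matrix.SpecialLinearGroup.coe_mul, ← mulVec_mulVec, ← mulVec_mulVec,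
    xs_mulVec h, xs_mulVec h.symm, xs_mulVec h]
  by_cases hki : k = i
  · subst hki
    simp [ev, h, h.symm]
    field_simp
    ring
  by_cases hkj : k = j
  · subst hkj
    simp [ev, h, h.symm]
    field_simp
    ring
  · simp [ev, hki, hkj]

theorem xs_lower {i j : Fin n} (h : i ≠ j) (t : F) : xs i j t = wEl i j 1 * xs j i (-t) * (wEl i j 1)⁻¹ := by
  rw [eq_mul_inv_iff_mul_eq]
  refine ext_mulVec' fun x => funext fun k => ?_
  rw [Matrix.SpecialLinearGroup.coe_mul, Matrix.SpecialLinearGroup.coe_mul, ← mulVec_mulVec, ← mulVec_mulVec,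
    xs_mulVec h, wEl_mulVec h one_ne_zero, xs_mulVec h.symm]
  simp only [Pi.add_apply, Pi.smul_apply, smul_eq_mul, wEl_mulVec h one_ne_zero]
  by_cases hki : k = i
  · subst hki
    simp [ev, h, h.symm]
  by_cases hkj : k = j
  · subst hkj
    simp [ev, h, h.symm]
  · simp [ev, hki, hkj]

/-- `diag(t, t⁻¹)` at the positions `i, j`. -/
noncomputable def hEl (i j : Fin n) (t : F) : SLn := wEl i j t * (wEl i j 1)⁻¹

theorem hEl_apply {i j : Fin n} (h : i ≠ j) {t : F} (ht : t ≠ 0) :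
    (hEl i j t).1 = Matrix.diagonal fun k => if k = i then t else if k = j then t⁻¹ else 1 := by
  have e : hEl i j t * wEl i j 1 = wEl i j t := inv_mul_cancel_right _ _
  have e' := congrArg Subtype.val e
  rw [Matrix.SpecialLinearGroup.coe_mul] at e'
  have hu : IsUnit (wEl i j (1 : F)).1.det := by rw [(wEl i j (1 : F)).2]; exact isUnit_one
  haveI := Matrix.invertibleOfIsUnitDet _ hu
  refine Matrix.mul_left_injective_of_invertible (wEl i j (1 : F)).1 (e'.trans ?_)
  refine Cfsg.Lib.Classical.ext_mulVec fun x => funext fun k => ?_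
  rw [← mulVec_mulVec, mulVec_diagonal, wEl_mulVec h ht, wEl_mulVec h one_ne_zero]
  by_cases hki : k = i
  · subst hki; simp
  by_cases hkj : k = j
  · subst hkj; simp [h.symm]
  · simp [hki, hkj]

/-- A subgroup with the elements `diag(t, t⁻¹)` contains the diagonal elements. -/
theorem diag_mem {H : Subgroup SLn} (c : Fin n)
    (hH : ∀ (i : Fin n) (t : F), i ≠ c → t ≠ 0 → hEl i c t ∈ H) {s : SLn} {d : Fin n → F}
    (hs : s.1 = Matrix.diagonal d) : s ∈ H := by
  suffices key : ∀ m, ∀ s : SLn, ∀ d : Fin n → F, s.1 = Matrix.diagonal d →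
      (Finset.univ.filter fun k => k ≠ c ∧ d k ≠ 1).card = m → s ∈ H from key _ s d hs rfl
  intro m
  induction m using Nat.strong_induction_on with
  | _ m ih =>
  intro s d hs hm
  have hprod : ∏ k, d k = 1 := by rw [← Matrix.det_diagonal, ← hs, s.2]
  rcases (Finset.univ.filter fun k => k ≠ c ∧ d k ≠ 1).eq_empty_or_nonempty with he | ⟨k, hk⟩
  · have h1 : ∀ k, k ≠ c → d k = 1 := fun k hk => of_not_not fun h =>
      Finset.notMem_empty k (he ▸ Finset.mem_filter.2 ⟨Finset.mem_univ _, hk, h⟩)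
    have hc : d c = 1 := by rwa [Finset.prod_eq_single c (fun k _ hk => h1 k hk) (by simp)] at hprod
    have : s = 1 := Subtype.ext (by
      rw [hs, Matrix.SpecialLinearGroup.coe_one, ← Matrix.diagonal_one]
      congr 1; funext k
      by_cases hk : k = c
      · rw [hk, hc]
      · exact h1 k hk)
    exact this ▸ H.one_mem
  obtain ⟨-, hkc, hk1⟩ := Finset.mem_filter.1 hk
  have hd0 : d k ≠ 0 := fun e => by
    rw [Finset.prod_eq_zero (Finset.mem_univ k) e] at hprod; exact zero_ne_one hprod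
  let d' : Fin n → F := fun l => d l * if l = k then (d k)⁻¹ else if l = c then d k else 1
  set s' := s * hEl k c (d k)⁻¹ with hs'
  have hs'd : s'.1 = Matrix.diagonal d' := by
    rw [hs', Matrix.SpecialLinearGroup.coe_mul, hs, hEl_apply hkc (inv_ne_zero hd0), diagonal_mul_diagonal]
    congr 1
    funext l
    simp only [d', inv_inv]
  have hlt : (Finset.univ.filter fun l => l ≠ c ∧ d' l ≠ 1).card < m := by
    rw [← hm]
    refine Finset.card_lt_card (Finset.ssubset_iff_of_subset ?_ |>.2 ⟨k, hk, ?_⟩)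
    · intro l hl
      obtain ⟨-, hlc, hl1⟩ := Finset.mem_filter.1 hl
      refine Finset.mem_filter.2 ⟨Finset.mem_univ _, hlc, fun e => hl1 ?_⟩
      by_cases hlk : l = k
      · subst hlk; simp [d', hd0]
      · simp [d', hlk, hlc, e]
    · simp [d', hd0]
  have hmem := H.mul_mem (ih _ hlt s' d' hs'd rfl) (H.inv_mem (hH k (d k)⁻¹ hkc (inv_ne_zero hd0)))
  rwa [hs', mul_inv_cancel_right] at hmem

/-- The upper root elements generate the unitriangular group. -/
theorem Usl_le {H : Subgroup SLn} (hH : ∀ (i j : Fin n) (t : F), i < j → xs i j t ∈ H) : Usl n F ≤ H := by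
  suffices key : ∀ m, ∀ u : SLn, u ∈ Usl n F →
      (Finset.univ.filter fun p : Fin n × Fin n => p.1 < p.2 ∧ u.1 p.1 p.2 ≠ 0).card = m → u ∈ H from
    fun u hu => key _ u hu rfl
  intro m
  induction m using Nat.strong_induction_on with
  | _ m ih =>
  intro u hu hm
  rcases (Finset.univ.filter fun p : Fin n × Fin n => p.1 < p.2 ∧ u.1 p.1 p.2 ≠ 0).eq_empty_or_nonempty with he | hne
  · have : u = 1 := Subtype.ext (Matrix.ext fun i j => by
      rw [Matrix.SpecialLinearGroup.coe_one, Matrix.one_apply]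
      rcases le_or_gt j i with h | h
      · exact hu i j h
      · rw [if_neg h.ne]
        exact of_not_not fun h' => Finset.notMem_empty (i, j) (he ▸ Finset.mem_filter.2 ⟨Finset.mem_univ _, h, h'⟩))
    exact this ▸ H.one_mem
  obtain ⟨⟨i, j⟩, hij, hmax⟩ := Finset.exists_max_image _ (fun p : Fin n × Fin n => p.1) hne
  obtain ⟨-, hlt, hne0⟩ := Finset.mem_filter.1 hij
  set v := xs i j (-u.1 i j) * u with hv
  have hvU : v ∈ Usl n F := (Usl n F).mul_mem (xs_mem_Usl hlt _) hu
  have hvap : ∀ k l, v.1 k l = u.1 k l + if k = i then -u.1 i j * u.1 j l else 0 := by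
    intro k l
    rw [hv, Matrix.SpecialLinearGroup.coe_mul, xs_eq_transvection hlt.ne,
      show (Matrix.SpecialLinearGroup.transvection hlt.ne (-u.1 i j)).1 = Matrix.transvection i j (-u.1 i j) from rfl]
    by_cases hk : k = i
    · subst hk; rw [Matrix.transvection_mul_apply_same, if_pos rfl]
    · rw [Matrix.transvection_mul_apply_of_ne _ _ _ _ hk, if_neg hk, add_zero]
  have hrowj : ∀ l, u.1 j l = if j = l then 1 else 0 := fun l => by
    rcases le_or_gt l j with h | h
    · exact hu j l h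
    · rw [if_neg h.ne]
      exact of_not_not fun h' => absurd (hmax (j, l) (Finset.mem_filter.2 ⟨Finset.mem_univ _, h, h'⟩)) (not_le.2 hlt)
  have hlt' : (Finset.univ.filter fun p : Fin n × Fin n => p.1 < p.2 ∧ v.1 p.1 p.2 ≠ 0).card < m := by
    rw [← hm]
    refine Finset.card_lt_card (Finset.ssubset_iff_of_subset ?_ |>.2 ⟨(i, j), hij, ?_⟩)
    · rintro ⟨k, l⟩ hkl
      obtain ⟨-, hkl', hne'⟩ := Finset.mem_filter.1 hkl
      refine Finset.mem_filter.2 ⟨Finset.mem_univ _, hkl', fun e => hne' ?_⟩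
      rw [hvap, e]
      split_ifs with hk
      · subst hk
        rw [hrowj]
        split_ifs with hjl
        · subst hjl; rw [e]; simp
        · simp
      · simp
    · simp [hvap, hrowj]
  have hmem := H.mul_mem (H.inv_mem (hH i j (-u.1 i j) hlt)) (ih _ hlt' v hvU rfl)
  rwa [hv, inv_mul_cancel_left] at hmem

/-- The fusion system of `PSL_n(q)`, `n ≥ 3`, in the defining characteristic is simple. -/
theorem isSimple [Fintype F] {p : ℕ} [Fact p.Prime] [CharP F p] (hn : 3 ≤ n) (S : Sylow p PSLn) :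
    (groupFusionSystem (S : Subgroup PSLn)).IsSimple p := by
  obtain ⟨f, -, hq⟩ := FiniteField.card F p
  have hU : IsPGroup p (Usl n F) := IsPGroup.of_card (n := f * (∑ i ∈ Finset.range n, i))
    (by rw [card_Usl, hq, ← pow_mul])
  have hUb : IsPGroup p U₀ := hU.map _
  obtain ⟨S₀, hS₀⟩ := hUb.exists_le_sylow
  let a : Fin n := ⟨0, by omega⟩
  let b : Fin n := ⟨n - 1, by omega⟩
  have ha : ∀ k, a ≤ k := fun k => Nat.zero_le _
  have hb : ∀ k, k ≤ b := fun k => by show (k : ℕ) ≤ n - 1; have := k.2; omega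
  have hab : a < b := by show 0 < n - 1; omega
  -- `U₀` is a Sylow subgroup: its normalizer in `S₀` is itself
  have hS₀eq : (S₀ : Subgroup PSLn) = U₀ := by
    refine (eq_of_le_of_not_lt hS₀ fun hlt => ?_).symm
    haveI := S₀.isPGroup'.isNilpotent
    have hlt' : (Ubar n F).subgroupOf S₀ < ⊤ := lt_top_iff_ne_top.2 fun e =>
      hlt.ne (le_antisymm hS₀ (Subgroup.subgroupOf_eq_top.1 e))
    obtain ⟨g, hg, hgU⟩ := SetLike.exists_of_lt (Group.normalizerCondition_of_isNilpotent _ hlt')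
    have hgN : (g : PSLn) ∈ Subgroup.normalizer (U₀ : Set PSLn) := Subgroup.mem_normalizer_iff.2 fun x => by
      constructor
      · intro hx
        exact (Subgroup.mem_normalizer_iff.1 hg ⟨x, hS₀ hx⟩).1 hx
      · intro hx
        have hxS : x ∈ (S₀ : Subgroup PSLn) := by
          have := (S₀ : Subgroup PSLn).mul_mem ((S₀ : Subgroup PSLn).mul_mem
            ((S₀ : Subgroup PSLn).inv_mem g.2) (hS₀ hx)) g.2
          simpa [mul_assoc] using this
        exact (Subgroup.mem_normalizer_iff.1 hg ⟨x, hxS⟩).2 hx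
    obtain ⟨s, hs, hsu⟩ := exists_upper hn hgN
    refine hgU (Subgroup.mem_subgroupOf.2 ?_)
    -- the diagonal of `s` is scalar: `g` has `p`-power order
    obtain ⟨k, hk⟩ := S₀.isPGroup' g
    have hgk : (QuotientGroup.mk (s ^ (p ^ k)) : PSLn) = QuotientGroup.mk (1 : SLn) := by
      rw [QuotientGroup.mk_pow, ← hs, ← Subgroup.coe_pow, hk]; rfl
    obtain ⟨r, -, hr⟩ := mk_eq_iff.1 hgk.symm
    have hbt : s.1.BlockTriangular id := fun i j h => hsu i j h
    have hpw : ∀ e : ℕ, (s.1 ^ e).BlockTriangular id ∧ ∀ i, (s.1 ^ e) i i = s.1 i i ^ e := by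
      intro e
      induction e with
      | zero => simp [Matrix.blockTriangular_one]
      | succ e ihe =>
        refine ⟨by rw [pow_succ]; exact ihe.1.mul hbt, fun i => ?_⟩
        rw [pow_succ, Matrix.mul_apply, Finset.sum_eq_single i, ihe.2, pow_succ]
        · intro l _ hl
          rcases lt_or_gt_of_ne hl with h' | h'
          · rw [ihe.1 h', zero_mul]
          · rw [hsu l i h', mul_zero]
        · exact fun h' => absurd (Finset.mem_univ i) h'
    have hdiag : ∀ i, s.1 i i ^ (p ^ k) = r := fun i => by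
      rw [← (hpw _).2, ← Matrix.SpecialLinearGroup.coe_pow, hr]; simp
    have hfrob : ∀ i, s.1 i i = s.1 a a := fun i =>
      iterateFrobenius_inj F p k (by simp only [iterateFrobenius_def]; rw [hdiag, hdiag])
    set c := s.1 a a
    have hcn : c ^ n = 1 := by
      have := s.2
      rw [Matrix.det_of_isUpperTriangular hbt] at this
      simp only [hfrob, Finset.prod_const, Finset.card_univ, Fintype.card_fin] at this
      exact this
    have hc0 : c ≠ 0 := fun e => by rw [e, zero_pow (by omega)] at hcn; exact zero_ne_one hcn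
    refine ⟨⟨c⁻¹ • s.1, by rw [Matrix.det_smul, s.2, Fintype.card_fin, mul_one, inv_pow, hcn, inv_one]⟩,
      fun i j hij => ?_, ?_⟩
    · show (c⁻¹ • s.1) i j = _
      rw [Matrix.smul_apply, smul_eq_mul]
      rcases eq_or_lt_of_le hij with rfl | hlt'
      · rw [hfrob, if_pos rfl, inv_mul_cancel₀ hc0]
      · rw [hsu i j hlt', if_neg hlt'.ne', mul_zero]
    · rw [hs]
      refine (mk_eq_iff.2 ⟨c, hcn, ?_⟩)
      show s.1 = c • c⁻¹ • s.1
      rw [smul_smul, mul_inv_cancel₀ hc0, one_smul]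
  have hroot : ∀ {i j : Fin n}, i ≠ j → ∀ t : F, ∀ A : Subgroup PSLn,
      (∀ k l : Fin n, k ≠ l → (k = i ∨ k = j) → (l = i ∨ l = j) → ∀ t : F,
        (QuotientGroup.mk (xs k l t) : PSLn) ∈ Subgroup.normalizer (A : Set PSLn)) →
      xp i j t ∈ Subgroup.closure {y | ∃ x ∈ Subgroup.normalizer (A : Set PSLn), ∃ s ∈ U₀, y = x * s * x⁻¹} := by
    intro i j hij t A hA
    rcases lt_or_gt_of_ne hij with h | h
    · exact Subgroup.subset_closure ⟨1, Subgroup.one_mem _, _, ⟨_, xs_mem_Usl h t, rfl⟩, by simp [xp]⟩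
    · refine Subgroup.subset_closure ⟨QuotientGroup.mk (wEl i j 1), ?_, QuotientGroup.mk (xs j i (-t)),
        ⟨_, xs_mem_Usl h (-t), rfl⟩, ?_⟩
      · rw [wEl, QuotientGroup.mk_mul, QuotientGroup.mk_mul]
        exact mul_mem (mul_mem (hA i j hij (Or.inl rfl) (Or.inr rfl) _) (hA j i hij.symm (Or.inr rfl) (Or.inl rfl) _))
          (hA i j hij (Or.inl rfl) (Or.inr rfl) _)
      · rw [xp, xs_lower hij t]; rfl
  refine isSimple_group_of_radicalGens S₀ ?_ ?_ ?_ S
  · rw [hS₀eq]
    intro e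
    have h1 : xp a b (1 : F) = 1 := by
      rw [← Subgroup.mem_bot, ← e]; exact ⟨_, xs_mem_Usl hab 1, rfl⟩
    have h2 : xp a b (0 : F) = 1 := by rw [xp, xs_zero hab.ne]; rfl
    exact one_ne_zero (xp_injective hab.ne (h1.trans h2.symm))
  · intro T hT hclosed
    rcases eq_or_ne T ⊥ with hT1 | hT1
    · exact Or.inl hT1
    refine Or.inr (le_antisymm hT ?_)
    rw [hS₀eq] at hT ⊢
    have hn' : (T.subgroupOf U₀).Normal := ⟨fun x hx g => Subgroup.mem_subgroupOf.2
      (hclosed x hx g (by rw [hS₀eq]; exact (Ubar n F).mul_mem ((Ubar n F).mul_mem g.2 x.2) ((Ubar n F).inv_mem g.2)))⟩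
    have hne : T.subgroupOf U₀ ≠ ⊥ := fun e => hT1 (by
      rw [← Subgroup.map_subgroupOf_eq_of_le hT, e, Subgroup.map_bot])
    obtain ⟨z, hz1⟩ := Subgroup.ne_bot_iff_exists_ne_one.1
      (Cfsg.Lib.Transfer.inf_center_ne_bot hUb (T.subgroupOf U₀) hne)
    obtain ⟨t, ht⟩ := exists_of_central (by omega) ha hb z.1.2 fun x hx =>
      (congrArg Subtype.val (Subgroup.mem_center_iff.1 (Subgroup.mem_inf.1 z.2).2 ⟨x, hx⟩)).symm
    have hT0 : xp a b t ∈ T := ht ▸ (Subgroup.mem_inf.1 z.2).1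
    have ht0 : t ≠ 0 := fun e => hz1 (Subtype.ext (Subtype.ext (by
      rw [ht, e, xp, xs_zero hab.ne]; rfl)))
    have hall : ∀ i j : Fin n, i < j → ∀ r : F, xp i j r ∈ T := by
      intro i j hij r
      rcases eq_or_ne r 0 with rfl | hr
      · rw [xp, xs_zero hij.ne]; exact T.one_mem
      obtain ⟨h, c, hc, hh⟩ := exists_monomial (F := F) hab.ne hij.ne
      have h1 : xp i j (c⁻¹ * t) = QuotientGroup.mk h * xp a b t * (QuotientGroup.mk h : PSLn)⁻¹ := by
        rw [xp, hh, mul_inv_cancel_left₀ hc]; rfl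
      have hT1' : xp i j (c⁻¹ * t) ∈ T := h1 ▸ hclosed _ hT0 _ (by
        rw [hS₀eq, ← h1]; exact ⟨_, xs_mem_Usl hij _, rfl⟩)
      -- scale by a diagonal element
      obtain ⟨m, hmi, hmj⟩ := exists_third hn i j
      set e := r / (c⁻¹ * t) with he
      have he0 : e ≠ 0 := div_ne_zero hr (mul_ne_zero (inv_ne_zero hc) ht0)
      have h2 : xs i j r = hEl i m e * xs i j (c⁻¹ * t) * (hEl i m e)⁻¹ := by
        rw [eq_mul_inv_iff_mul_eq]
        refine ext_mulVec' fun x => funext fun k => ?_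
        rw [Matrix.SpecialLinearGroup.coe_mul, Matrix.SpecialLinearGroup.coe_mul, ← mulVec_mulVec, ← mulVec_mulVec,
          hEl_apply hmi.symm he0, xs_mulVec hij.ne, xs_mulVec hij.ne, mulVec_diagonal, mulVec_diagonal]
        simp only [Pi.add_apply, Pi.smul_apply, smul_eq_mul, mulVec_diagonal]
        by_cases hki : k = i
        · subst hki
          simp [ev, hij.ne', hmj.symm, he]
          field_simp
        · simp [ev, hki]
      have h3 : xp i j r = QuotientGroup.mk (hEl i m e) * xp i j (c⁻¹ * t) *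
          (QuotientGroup.mk (hEl i m e) : PSLn)⁻¹ := by
        rw [xp, h2]; rfl
      exact h3 ▸ hclosed _ hT1' _ (by rw [hS₀eq, ← h3]; exact ⟨_, xs_mem_Usl hij _, rfl⟩)
    rintro _ ⟨u, hu, rfl⟩
    exact Usl_le (H := T.comap (QuotientGroup.mk' _)) (fun i j r hij => hall i j hij r) hu
  · intro g hg
    rw [hS₀eq] at hg
    obtain ⟨s, rfl, hsu⟩ := exists_upper hn hg
    set C := Subgroup.closure (((S₀ : Subgroup PSLn) : Set PSLn) ∪
      (Subgroup.centralizer ((S₀ : Subgroup PSLn) : Set PSLn) : Set PSLn) ∪ radicalGens (S₀ : Subgroup PSLn))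
    -- the radicals
    let j : Fin n := ⟨1, by omega⟩
    have hja : j ≠ a := fun e => by have := congrArg Fin.val e; simp [j, a] at this
    have hjb : j ≠ b := fun e => by have := congrArg Fin.val e; simp [j, b] at this; omega
    have hrad : ∀ (i : Fin n) (t : F), i ≠ j → t ≠ 0 → hEl i j t ∈ C.comap (QuotientGroup.mk' _) := by
      intro i t hij ht
      refine Subgroup.subset_closure (Or.inr ⟨?_, ?_⟩)
      · rw [hS₀eq]
        refine mk_mem_normalizer fun k l hlk => ?_
        rw [hEl_apply hij ht, Matrix.diagonal_apply_ne _ hlk.ne']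
      -- a fixed point index outside `{i, j}` among the two ends, or the middle
      have hcl : ∀ A : Subgroup PSLn, (∀ k l : Fin n, k ≠ l → (k = i ∨ k = j) → (l = i ∨ l = j) → ∀ t : F,
          (QuotientGroup.mk (xs k l t) : PSLn) ∈ Subgroup.normalizer (A : Set PSLn)) →
          (QuotientGroup.mk' _ (hEl i j t) : PSLn) ∈
            Subgroup.closure {y | ∃ x ∈ Subgroup.normalizer (A : Set PSLn), ∃ s ∈ U₀, y = x * s * x⁻¹} := by
        intro A hA
        have h1 := fun t => hroot hij t A hA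
        have h2 := fun t => hroot hij.symm t A fun k l hkl hk hl => hA k l hkl hk.symm hl.symm
        show QuotientGroup.mk (hEl i j t) ∈ _
        simp only [hEl, wEl, QuotientGroup.mk_mul, QuotientGroup.mk_inv]
        exact mul_mem (mul_mem (mul_mem (h1 _) (h2 _)) (h1 _))
          (inv_mem (mul_mem (mul_mem (h1 _) (h2 _)) (h1 _)))
      by_cases hia : i = a
      · have hib : i ≠ b ∧ j ≠ b := ⟨hia ▸ hab.ne, hjb⟩
        refine ⟨colGrp b, hS₀eq ▸ colGrp_le hb, ?_, centralizer_colGrp hn b, hS₀eq ▸ hcl _ fun k l hkl hk _ t => ?_⟩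
        · rw [hS₀eq]
          rintro _ ⟨u, hu, rfl⟩
          exact mk_mem_normalizer_colGrp (vecMul_upper (upper_of_mem_Usl hu) hb)
        · refine mk_mem_normalizer_colGrp (c := 1) ?_
          rw [one_smul, xs_eq_transvection hkl,
            show (Matrix.SpecialLinearGroup.transvection hkl t).1 = Matrix.transvection k l t from rfl]
          have hkb : k ≠ b := by rcases hk with rfl | rfl <;> [exact hib.1; exact hib.2]
          funext q
          rw [single_one_vecMul, row_apply, Matrix.transvection, Matrix.add_apply, Matrix.one_apply,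
            Matrix.single_apply, if_neg (c := k = b ∧ l = q) (fun e => hkb e.1), add_zero]
          simp [ev, Pi.single_apply, eq_comm]
      · have hia : i ≠ a ∧ j ≠ a := ⟨hia, hja⟩
        refine ⟨rowGrp a, hS₀eq ▸ rowGrp_le ha, ?_, centralizer_rowGrp hn a, hS₀eq ▸ hcl _ fun k l hkl _ hl t => ?_⟩
        · rw [hS₀eq]
          rintro _ ⟨u, hu, rfl⟩
          exact mk_mem_normalizer_rowGrp (ev_mulVec_upper (upper_of_mem_Usl hu) ha)
        · refine mk_mem_normalizer_rowGrp (c := 1) ?_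
          have hla : l ≠ a := by rcases hl with rfl | rfl <;> [exact hia.1; exact hia.2]
          rw [one_smul, xs_mulVec hkl]
          simp [ev, hla]
    set D : SLn := ⟨Matrix.diagonal fun k => s.1 k k, by
      rw [Matrix.det_diagonal]
      exact (Matrix.det_of_isUpperTriangular (M := s.1) fun i j h => hsu i j h).symm.trans s.2⟩ with hD
    have hDm : D ∈ C.comap (QuotientGroup.mk' _) := diag_mem j hrad (d := fun k => s.1 k k) rfl
    have hdu : D⁻¹ * s ∈ Usl n F := by
      intro i j hij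
      have e : (D * (D⁻¹ * s)).1 i j = s.1 i j := by rw [mul_inv_cancel_left]
      rw [Matrix.SpecialLinearGroup.coe_mul, hD, Matrix.diagonal_mul] at e
      have hne : s.1 i i ≠ 0 := fun h => by
        have hdet : D.1.det = 1 := D.2
        rw [hD, Matrix.det_diagonal, Finset.prod_eq_zero (f := fun k => s.1 k k) (Finset.mem_univ i) h] at hdet
        exact zero_ne_one hdet
      rcases eq_or_lt_of_le hij with rfl | hlt
      · rw [if_pos rfl]; exact mul_left_cancel₀ hne (e.trans (mul_one _).symm)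
      · rw [hsu i j hlt] at e
        rw [if_neg hlt.ne']; exact (mul_eq_zero.1 e).resolve_left hne
    have hu₀ : (QuotientGroup.mk' _ (D⁻¹ * s) : PSLn) ∈ (S₀ : Subgroup PSLn) := by
      rw [hS₀eq]; exact ⟨_, hdu, rfl⟩
    have hmem : _ ∈ C := C.mul_mem hDm (Subgroup.subset_closure (Or.inl (Or.inl hu₀)))
    rwa [← map_mul, mul_inv_cancel_left] at hmem

end Cfsg.Lib.Fusion.PSLDefining
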