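import Mathlib
import Cfsg.Agent.Lib.Classical.PSpAut.Image
import Cfsg.Agent.Lib.Classical.PSLAut.RootGroups
import Cfsg.Agent.Lib.Classical.ClassicalOrders

/-!
The unipotent radical of the Siegel parabolic and the upper unitriangular Sylow subgroup of `Sp_2m`, and
generation of a vector stabiliser by transvections.
-/

set_option autoImplicit false

open scoped Classical

namespace Cfsg.Lib.Fusion.SpRoot

open Cfsg Matrix Cfsg.Lib.Classical Cfsg.Lib.Classical.PSpAut
open Cfsg.Lib.Classical.PSLAut (Usl xs)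

variable {F : Type*} [Field F] {m : ℕ}

set_option quotPrecheck false in
local notation "V" => (Fin m ⊕ Fin m → F)
set_option quotPrecheck false in
local notation "Sp" => (↥(Matrix.symplecticGroup (Fin m) F))
set_option quotPrecheck false in
local notation "SLm" => (Matrix.SpecialLinearGroup (Fin m) F)
set_option quotPrecheck false in
local notation "MM" => (Matrix (Fin m) (Fin m) F)
set_option quotPrecheck false in
local notation "ω" => sympBilin F m

/-- `γ(A) = diag(A, A⁻ᵀ)`. -/
noncomputable def gam : SLm →* Sp where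
  toFun A := ⟨fromBlocks A.1 0 0 ((A⁻¹ : SLm).1)ᵀ, by
    rw [SymplecticGroup.fromBlocks_mem_iff]
    refine ⟨by simp, by simp, ?_⟩
    rw [transpose_zero, zero_mul, sub_zero, ← transpose_mul, ← Matrix.SpecialLinearGroup.coe_mul,
      inv_mul_cancel, Matrix.SpecialLinearGroup.coe_one, transpose_one]⟩
  map_one' := Subtype.ext (by simp [fromBlocks_one])
  map_mul' A B := Subtype.ext (by
    show fromBlocks _ _ _ _ = fromBlocks A.1 0 0 _ * fromBlocks B.1 0 0 _
    rw [fromBlocks_multiply, _root_.mul_inv_rev, Matrix.SpecialLinearGroup.coe_mul,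
      Matrix.SpecialLinearGroup.coe_mul, transpose_mul]
    simp)

theorem coe_gam (A : SLm) : (gam A : Sp).1 = fromBlocks A.1 0 0 ((A⁻¹ : SLm).1)ᵀ := rfl

/-- `β(X) = [[1, X], [0, 1]]` for symmetric `X`. -/
noncomputable def bet (X : MM) (h : Xᵀ = X) : Sp := ⟨fromBlocks 1 X 0 1, by
  rw [SymplecticGroup.fromBlocks_mem_iff]; simp [h]⟩

theorem coe_bet (X : MM) (h : Xᵀ = X) : (bet X h : Sp).1 = fromBlocks 1 X 0 1 := rfl

theorem bet_mul {X Y : MM} (hX : Xᵀ = X) (hY : Yᵀ = Y) :
    bet X hX * bet Y hY = bet (X + Y) (by rw [transpose_add, hX, hY]) := Subtype.ext (by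
  show fromBlocks 1 X 0 1 * fromBlocks 1 Y 0 1 = fromBlocks 1 (X + Y) 0 1
  rw [fromBlocks_multiply]; simp [add_comm])

theorem bet_congr {X Y : MM} {hX : Xᵀ = X} {hY : Yᵀ = Y} (h : X = Y) : bet X hX = bet Y hY := by
  subst h; rfl

theorem bet_zero : (bet (0 : MM) transpose_zero : Sp) = 1 :=
  Subtype.ext (by simp [coe_bet, fromBlocks_one])

theorem conj_bet (A : SLm) {X : MM} (hX : Xᵀ = X) :
    gam A * bet X hX * (gam A)⁻¹ = bet (A.1 * X * A.1ᵀ) (by
      rw [transpose_mul, transpose_mul, transpose_transpose, hX, mul_assoc]) := by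
  rw [mul_inv_eq_iff_eq_mul]
  refine Subtype.ext ?_
  show fromBlocks A.1 0 0 _ * fromBlocks 1 X 0 1 = fromBlocks 1 _ 0 1 * fromBlocks A.1 0 0 _
  rw [fromBlocks_multiply, fromBlocks_multiply]
  have h1 : A.1ᵀ * ((A⁻¹ : SLm).1)ᵀ = 1 := by
    rw [← transpose_mul, ← Matrix.SpecialLinearGroup.coe_mul, inv_mul_cancel,
      Matrix.SpecialLinearGroup.coe_one, transpose_one]
  simp only [mul_assoc, h1, mul_one, one_mul, mul_zero, zero_mul, add_zero, zero_add]

/-- The radical of the Siegel parabolic. -/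
noncomputable def QL : Subgroup Sp where
  carrier := {g | ∃ (X : MM) (h : Xᵀ = X), g = bet X h}
  one_mem' := ⟨0, transpose_zero, bet_zero.symm⟩
  mul_mem' := by
    rintro _ _ ⟨X, hX, rfl⟩ ⟨Y, hY, rfl⟩
    exact ⟨_, _, bet_mul hX hY⟩
  inv_mem' := by
    rintro _ ⟨X, hX, rfl⟩
    refine ⟨-X, by rw [transpose_neg, hX], ?_⟩
    refine inv_eq_of_mul_eq_one_right ?_
    rw [bet_mul, ← bet_zero]
    exact bet_congr (add_neg_cancel X)

theorem bet_mem_QL {X : MM} (h : Xᵀ = X) : bet X h ∈ (QL : Subgroup Sp) := ⟨X, h, rfl⟩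

theorem gam_conj_QL (A : SLm) {u : Sp} (hu : u ∈ (QL : Subgroup Sp)) : gam A * u * (gam A)⁻¹ ∈ (QL : Subgroup Sp) := by
  obtain ⟨X, hX, rfl⟩ := hu
  exact ⟨_, _, conj_bet A hX⟩

/-- An element with vanishing lower left and scalar upper left block is a scalar times an element of the radical. -/
theorem eq_smul_bet {g : Sp} {r : F} (h21 : g.1.toBlocks₂₁ = 0) (h11 : g.1.toBlocks₁₁ = r • 1) (hr : r * r = 1) :
    ∃ (X : MM) (h : Xᵀ = X), g.1 = r • (bet X h).1 := by
  have hg := g.2
  rw [← fromBlocks_toBlocks g.1, SymplecticGroup.fromBlocks_mem_iff, h21, h11] at hg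
  obtain ⟨-, h2, h3⟩ := hg
  simp only [transpose_smul, transpose_one, smul_mul, one_mul, transpose_zero, zero_mul, sub_zero] at h3
  have hD : g.1.toBlocks₂₂ = r • 1 := by
    calc g.1.toBlocks₂₂ = (r * r) • g.1.toBlocks₂₂ := by rw [hr, one_smul]
      _ = r • (1 : MM) := by rw [← smul_smul, h3]
  rw [hD] at h2
  simp only [transpose_smul, transpose_one, Matrix.mul_smul, mul_one, smul_mul, one_mul] at h2
  refine ⟨r • g.1.toBlocks₁₂, by rw [transpose_smul, h2], ?_⟩
  conv_lhs => rw [← fromBlocks_toBlocks g.1, h21, h11, hD]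
  rw [coe_bet, fromBlocks_smul, smul_smul, hr, one_smul, smul_zero]

theorem toBlocks_mul_of_zero {a b : Matrix (Fin m ⊕ Fin m) (Fin m ⊕ Fin m) F}
    (ha : a.toBlocks₂₁ = 0) (hb : b.toBlocks₂₁ = 0) :
    (a * b).toBlocks₂₁ = 0 ∧ (a * b).toBlocks₁₁ = a.toBlocks₁₁ * b.toBlocks₁₁ := by
  rw [← fromBlocks_toBlocks a, ← fromBlocks_toBlocks b, fromBlocks_multiply, ha, hb]
  simp [toBlocks_fromBlocks₂₁, toBlocks_fromBlocks₁₁]

theorem unitri_mul {A B : MM} (ha : ∀ i j : Fin m, j ≤ i → A i j = if i = j then 1 else 0)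
    (hb : ∀ i j : Fin m, j ≤ i → B i j = if i = j then 1 else 0) :
    ∀ i j : Fin m, j ≤ i → (A * B) i j = if i = j then 1 else 0 := by
  intro i j hij
  rw [Matrix.mul_apply, Finset.sum_eq_single i]
  · rw [ha i i le_rfl, if_pos rfl, one_mul, hb i j hij]
  · intro k _ hk
    rcases lt_or_gt_of_ne hk with h | h
    · rw [ha i k h.le, if_neg (Ne.symm hk), zero_mul]
    · rw [hb k j (hij.trans h.le), if_neg (c := k = j) (fun e => absurd (e ▸ h : i < j) (not_lt.2 hij)), mul_zero]
  · exact fun h => absurd (Finset.mem_univ i) h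

variable [Fintype F]

/-- The standard Sylow subgroup. -/
noncomputable def Usp : Subgroup Sp :=
  { carrier := {g | g.1.toBlocks₂₁ = 0 ∧ ∀ i j : Fin m, j ≤ i → g.1.toBlocks₁₁ i j = if i = j then 1 else 0}
    one_mem' := ⟨by ext i j; simp [toBlocks₂₁], fun i j _ => by simp [toBlocks₁₁, Matrix.one_apply]⟩
    mul_mem' := by
      intro a b ha hb
      obtain ⟨h21, h11⟩ := toBlocks_mul_of_zero ha.1 hb.1
      exact ⟨h21, fun i j hij => by
        show (a.1 * b.1).toBlocks₁₁ i j = _
        rw [h11]; exact unitri_mul ha.2 hb.2 i j hij⟩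
    inv_mem' := by
      intro a ha
      have key : ∀ k : ℕ, (a ^ k).1.toBlocks₂₁ = 0 ∧
          ∀ i j : Fin m, j ≤ i → (a ^ k).1.toBlocks₁₁ i j = if i = j then 1 else 0 := by
        intro k
        induction k with
        | zero => exact ⟨by ext i j; simp [toBlocks₂₁], fun i j _ => by simp [toBlocks₁₁, Matrix.one_apply]⟩
        | succ k ih =>
          rw [pow_succ]
          obtain ⟨h21, h11⟩ := toBlocks_mul_of_zero ih.1 ha.1
          exact ⟨h21, fun i j hij => by
            show ((a ^ k).1 * a.1).toBlocks₁₁ i j = _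
            rw [h11]; exact unitri_mul ih.2 ha.2 i j hij⟩
      have : a⁻¹ = a ^ (orderOf a - 1) := by
        refine inv_eq_of_mul_eq_one_right ?_
        rw [← pow_succ', Nat.sub_add_cancel (orderOf_pos a), pow_orderOf_eq_one]
      show (a⁻¹).1.toBlocks₂₁ = 0 ∧ _
      rw [this]; exact key _ }

theorem gam_mem_Usp {A : SLm} (hA : A ∈ Usl m F) : gam A ∈ (Usp : Subgroup Sp) :=
  ⟨toBlocks_fromBlocks₂₁ _ _ _ _, fun i j hij => by rw [coe_gam, toBlocks_fromBlocks₁₁]; exact hA i j hij⟩

theorem QL_le_Usp : (QL : Subgroup Sp) ≤ Usp := by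
  rintro _ ⟨X, hX, rfl⟩
  exact ⟨toBlocks_fromBlocks₂₁ _ _ _ _, fun i j _ => by rw [coe_bet, toBlocks_fromBlocks₁₁, Matrix.one_apply]⟩

theorem exists_decomp {g : Sp} (hg : g ∈ (Usp : Subgroup Sp)) :
    ∃ A ∈ Usl m F, ∃ (X : MM) (h : Xᵀ = X), g = bet X h * gam A := by
  let A : SLm := ⟨g.1.toBlocks₁₁, by
    rw [Matrix.det_of_isUpperTriangular (fun i j h =>
      (hg.2 i j (le_of_lt h)).trans (if_neg (ne_of_gt (α := Fin m) h)))]
    exact Finset.prod_eq_one fun i _ => by rw [hg.2 i i le_rfl, if_pos rfl]⟩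
  have hA : A ∈ Usl m F := fun i j hij => hg.2 i j hij
  have hgA := (Usp : Subgroup Sp).mul_mem hg ((Usp : Subgroup Sp).inv_mem (gam_mem_Usp hA))
  set h := g * (gam A)⁻¹ with hh
  have h11 : h.1.toBlocks₁₁ = (1 : F) • (1 : MM) := by
    rw [hh, ← map_inv, one_smul]
    show (g.1 * (gam A⁻¹).1).toBlocks₁₁ = _
    rw [coe_gam, (toBlocks_mul_of_zero hg.1 (toBlocks_fromBlocks₂₁ _ _ _ _)).2, toBlocks_fromBlocks₁₁,
      show g.1.toBlocks₁₁ = A.1 from rfl, ← Matrix.SpecialLinearGroup.coe_mul, mul_inv_cancel,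
      Matrix.SpecialLinearGroup.coe_one]
  obtain ⟨X, hX, he⟩ := eq_smul_bet hgA.1 h11 (mul_one 1)
  refine ⟨A, hA, X, hX, ?_⟩
  rw [show bet X hX = h from Subtype.ext (by rw [he, one_smul]), hh, inv_mul_cancel_right]

theorem conj_bet_Usp {g : Sp} (hg : g ∈ (Usp : Subgroup Sp)) {u : Sp} (hu : u ∈ (QL : Subgroup Sp)) :
    g * u * g⁻¹ ∈ (QL : Subgroup Sp) := by
  obtain ⟨A, -, X, hX, rfl⟩ := exists_decomp hg
  have h1 := (QL : Subgroup Sp).mul_mem ((QL : Subgroup Sp).mul_mem (bet_mem_QL hX) (gam_conj_QL A hu))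
    ((QL : Subgroup Sp).inv_mem (bet_mem_QL hX))
  convert h1 using 1
  group

/-- Symmetric matrices as functions on the pairs `i ≤ j`. -/
noncomputable def symEquiv : {X : MM // Xᵀ = X} ≃ ({p : Fin m × Fin m // p.1 ≤ p.2} → F) where
  toFun X p := X.1 p.1.1 p.1.2
  invFun f := ⟨Matrix.of fun i j => if h : i ≤ j then f ⟨(i, j), h⟩ else f ⟨(j, i), le_of_not_ge h⟩, by
    ext i j
    simp only [transpose_apply, of_apply]
    rcases lt_trichotomy i j with h | h | h
    · rw [dif_neg h.not_ge, dif_pos h.le]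
    · subst h; rfl
    · rw [dif_pos h.le, dif_neg h.not_ge]⟩
  left_inv X := Subtype.ext (Matrix.ext fun i j => by
    simp only [of_apply]
    split_ifs with h
    · rfl
    · exact congrFun (congrFun X.2 i) j)
  right_inv f := funext fun p => by simp [p.2]

theorem card_Usp : Nat.card (Usp : Subgroup Sp) = Fintype.card F ^ (m ^ 2) := by
  have e : Nat.card (Usp : Subgroup Sp) = Nat.card (Usl m F × {X : MM // Xᵀ = X}) := by
    refine (Nat.card_congr (Equiv.ofBijective
      (fun p : Usl m F × {X : MM // Xᵀ = X} =>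
        (⟨bet p.2.1 p.2.2 * gam p.1.1, (Usp : Subgroup Sp).mul_mem (QL_le_Usp (bet_mem_QL p.2.2))
          (gam_mem_Usp p.1.2)⟩ : (Usp : Subgroup Sp))) ⟨?_, ?_⟩)).symm
    · rintro ⟨⟨A, hA⟩, ⟨X, hX⟩⟩ ⟨⟨B, hB⟩, ⟨Y, hY⟩⟩ h
      have h' : fromBlocks (1 : MM) X 0 1 * fromBlocks A.1 0 0 ((A⁻¹ : SLm).1)ᵀ =
          fromBlocks (1 : MM) Y 0 1 * fromBlocks B.1 0 0 ((B⁻¹ : SLm).1)ᵀ :=
        congrArg (fun z : (Usp : Subgroup Sp) => z.1.1) h
      rw [fromBlocks_multiply, fromBlocks_multiply, fromBlocks_inj] at h'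
      simp only [one_mul, zero_mul, add_zero, mul_zero, zero_add] at h'
      obtain ⟨h11, h12, -, -⟩ := h'
      obtain rfl : A = B := Subtype.ext h11
      have hunit : ((A⁻¹ : SLm).1)ᵀ * A.1ᵀ = 1 := by
        rw [← transpose_mul, ← Matrix.SpecialLinearGroup.coe_mul, mul_inv_cancel,
          Matrix.SpecialLinearGroup.coe_one, transpose_one]
      have : X = Y := by
        have h3 := congrArg (fun M : MM => M * A.1ᵀ) h12
        simpa only [mul_assoc, hunit, mul_one] using h3
      subst this; rfl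
    · rintro ⟨g, hg⟩
      obtain ⟨A, hA, X, hX, rfl⟩ := exists_decomp hg
      exact ⟨⟨⟨A, hA⟩, ⟨X, hX⟩⟩, rfl⟩
  have hs : Nat.card {X : MM // Xᵀ = X} = Fintype.card F ^ (∑ i ∈ Finset.range m, (i + 1)) := by
    rw [Nat.card_congr symEquiv, Nat.card_fun, Nat.card_eq_fintype_card, Nat.card_eq_fintype_card]
    congr 1
    rw [← Fintype.card_congr ((Equiv.prodComm (Fin m) (Fin m)).subtypeEquiv (q := fun p => p.1 ≤ p.2)
      (p := fun p => p.2 ≤ p.1) fun _ => Iff.rfl),
      Fintype.card_congr (Equiv.subtypeProdEquivSigmaSubtype fun a b : Fin m => b ≤ a), Fintype.card_sigma,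
      ← Fin.sum_univ_eq_sum_range (fun i => i + 1) m]
    refine Finset.sum_congr rfl fun i _ => ?_
    rw [Fintype.card_subtype, show (Finset.univ.filter fun b : Fin m => b ≤ i) = Finset.Iic i by ext; simp,
      Fin.card_Iic]
  rw [e, Nat.card_prod, Cfsg.Lib.Classical.PSLAut.card_Usl, hs, ← pow_add, ← Finset.sum_add_distrib]
  congr 1
  clear e hs
  induction m with
  | zero => simp
  | succ m ih => rw [Finset.sum_range_succ, ih]; ring

theorem not_dvd_index_Usp {p : ℕ} [Fact p.Prime] [CharP F p] : ¬ p ∣ (Usp : Subgroup Sp).index := by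
  have h := (Usp : Subgroup Sp).card_mul_index
  rw [card_Usp, ClassicalOrders.card_sp rfl m] at h
  rw [Nat.eq_of_mul_eq_mul_left (pow_pos Fintype.card_pos _) h, (Nat.Prime.prime Fact.out).dvd_finsetProd_iff]
  rintro ⟨i, -, hi⟩
  have h1 : p ∣ Fintype.card F ^ (2 * (i + 1)) := dvd_pow (p_dvd_card p) (by omega)
  have h2 : 1 ≤ Fintype.card F ^ (2 * (i + 1)) := Nat.one_le_pow _ _ Fintype.card_pos
  have := Nat.dvd_sub h1 hi
  rw [show Fintype.card F ^ (2 * (i + 1)) - (Fintype.card F ^ (2 * (i + 1)) - 1) = 1 by omega] at this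
  exact (Fact.out : p.Prime).not_dvd_one this

theorem isPGroup_Usp {p : ℕ} [Fact p.Prime] [CharP F p] : IsPGroup p (Usp : Subgroup Sp) := by
  obtain ⟨f, -, hq⟩ := FiniteField.card F p
  exact IsPGroup.of_card (n := f * m ^ 2) (by rw [card_Usp, hq, ← pow_mul])

/-! ### Generation -/

omit [Fintype F] in
/-- An isometry fixing a nondegenerate subspace is a product of transvections centred in its perpendicular space. -/
theorem mem_tvClosure_perp {W : Type*} [AddCommGroup W] [Module F W] [FiniteDimensional F W]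
    {B : LinearMap.BilinForm F W} (hA : B.IsAlt) (hB : B.Nondegenerate) (U₀ : Submodule F W) :
    ∀ (g : W ≃ₗ[F] W), g ∈ isoGroup B → NondegOn B U₀ → (∀ x ∈ U₀, g x = x) → g ∈ tvClosure B hA (perp B U₀) := by
  suffices h : ∀ (k : ℕ) (g : W ≃ₗ[F] W) (U : Submodule F W), U₀ ≤ U → g ∈ isoGroup B → NondegOn B U →
      (∀ x ∈ U, g x = x) → Module.finrank F W ≤ Module.finrank F U + k → g ∈ tvClosure B hA (perp B U₀) from
    fun g hg hU hfix => h (Module.finrank F W) g U₀ le_rfl hg hU hfix (by omega)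
  intro k
  induction k with
  | zero =>
    intro g U _ _ _ hfix hd
    have hU : U = ⊤ := Submodule.eq_top_of_finrank_eq (le_antisymm U.finrank_le (by simpa using hd))
    have : g = 1 := LinearEquiv.ext fun x => hfix x (hU ▸ Submodule.mem_top)
    rw [this]
    exact one_mem _
  | succ k ih =>
    intro g U hU0 hg hU hfix hd
    by_cases htop : perp B U = ⊥
    · have hU' : U = ⊤ := by
        have := (hU.sup_perp hA).sup_eq_top
        rwa [htop, sup_bot_eq] at this
      have : g = 1 := LinearEquiv.ext fun x => hfix x (hU' ▸ Submodule.mem_top)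
      rw [this]
      exact one_mem _
    have hW := hU.perp hA hB
    obtain ⟨u, hu, hu0⟩ := (perp B U).exists_mem_ne_zero_of_ne_bot htop
    obtain ⟨z, hz, hzne⟩ := hW u hu hu0
    set v := (B u z)⁻¹ • z with hvdef
    have hv : v ∈ perp B U := Submodule.smul_mem _ _ hz
    have huv : B u v = 1 := by rw [hvdef, map_smul, smul_eq_mul, inv_mul_cancel₀ hzne]
    have hgP : ∀ x ∈ perp B U, g x ∈ perp B U := by
      intro x hx y hy
      rw [← hfix y hy, hg]
      exact hx y hy
    obtain ⟨h, hh, hhu, hhv⟩ := exists_move_pair B hA _ hW (hgP u hu) (hgP v hv) hu hv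
      (by rw [hg, huv]) huv
    have hhfix : ∀ y ∈ U, h y = y := fun y hy =>
      tvClosure_fix B hA _ hh fun w hw => hw y hy
    have hhT : h ∈ tvClosure B hA (perp B U₀) :=
      tvClosure_le B hA _ (fun v (hv : v ∈ perp B U) c => sTE_mem_tvClosure B hA (perp B U₀) (fun y hy => hv y (hU0 hy)) c) hh
    let U' : Submodule F W := U ⊔ Submodule.span F {u, v}
    have hU' : NondegOn B U' := by
      intro w hw hw0
      obtain ⟨a, ha, b, hb, rfl⟩ := Submodule.mem_sup.1 hw
      by_cases hb0 : b = 0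
      · subst hb0
        simp only [add_zero] at hw0 ⊢
        obtain ⟨z, hz, hne⟩ := hU a ha hw0
        exact ⟨z, Submodule.mem_sup_left hz, hne⟩
      · obtain ⟨c, d, rfl⟩ := Submodule.mem_span_pair.1 hb
        have hau : B a u = 0 := hu a ha
        have hav : B a v = 0 := hv a ha
        by_cases hd : d = 0
        · refine ⟨v, Submodule.mem_sup_right (Submodule.subset_span (by simp)), ?_⟩
          have hc : c ≠ 0 := fun hc => hb0 (by simp [hc, hd])
          simp [hav, hd, huv, hc]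
        · refine ⟨u, Submodule.mem_sup_right (Submodule.subset_span (by simp)), ?_⟩
          simp [hau, alt_self hA, alt_swap hA u v, huv, hd]
    have hlt : U < U' := by
      refine lt_of_le_of_ne le_sup_left fun he => hu0 ?_
      have hmem : u ∈ U := he ▸ Submodule.mem_sup_right (Submodule.subset_span (by simp))
      have := (hU.sup_perp hA).disjoint
      exact Submodule.disjoint_def.1 this u hmem hu
    have hfix' : ∀ x ∈ U', (h * g) x = x := by
      intro x hx
      obtain ⟨a, ha, b, hb, rfl⟩ := Submodule.mem_sup.1 hx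
      obtain ⟨c, d, rfl⟩ := Submodule.mem_span_pair.1 hb
      simp [LinearEquiv.mul_apply, hfix a ha, hhfix a ha, hhu, hhv]
    have := ih (h * g) U' (hU0.trans le_sup_left) (mul_mem (tvClosure_le_isoGroup B hA _ hh) hg) hU' hfix'
      (by have := Submodule.finrank_lt_finrank_of_lt hlt; omega)
    simpa using mul_mem (inv_mem hhT) this

omit [Fintype F] in
/-- The stabiliser of a vector is generated by the transvections fixing it. -/
theorem Stab_le {e : V} (he : e ≠ 0) {H : Subgroup Sp} (hH : ∀ v c, ω e v = 0 → tS v c ∈ H) : Stab e ≤ H := by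
  intro g hg
  obtain ⟨f, hf⟩ := PSpAut.exists_eq_one he
  have hef : ω e f = -1 := by rw [PSpAut.swap f e, hf]
  set w := g.1 *ᵥ f - f with hw
  have hwe : ω w e = 0 := by
    have h1 := PSpAut.iso g f e
    rw [show g.1 *ᵥ e = e from hg, hf] at h1
    simp [hw, h1, hf]
  have hew : ω e w = 0 := by rw [PSpAut.swap w e, hwe, neg_zero]
  set h := tS e (-ω f w) * uQ e w with hh
  have hhH : h ∈ H := by
    refine H.mul_mem (hH e _ (PSpAut.self e)) (H.mul_mem (hH _ _ ?_) (H.mul_mem (hH e _ (PSpAut.self e)) (hH w _ hew)))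
    rw [map_add, PSpAut.self, hew, add_zero]
  have hhe : h.1 *ᵥ e = e := by
    rw [hh, PSpAut.mul_mulVec, uQ_mulVec hwe, PSpAut.self, hew, zero_smul, zero_smul, add_zero, add_zero,
      tS_mulVec, PSpAut.self, mul_zero, zero_smul, add_zero]
  have hhf : h.1 *ᵥ f = g.1 *ᵥ f := by
    rw [hh, mul_mulVec, uQ_mulVec hwe, hf, one_smul, tS_mulVec, map_add, map_add, LinearMap.add_apply,
      LinearMap.add_apply, map_smul, LinearMap.smul_apply, PSpAut.self, smul_eq_mul, mul_zero, add_zero, hf, hwe,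
      add_zero, mul_one, hw]
    module
  set g' := h⁻¹ * g with hg'
  have hge : g'.1 *ᵥ e = e := by
    rw [hg', mul_mulVec, show g.1 *ᵥ e = e from hg]
    conv_lhs => rw [← hhe]
    exact PSpAut.inv_mulVec h e
  have hgf : g'.1 *ᵥ f = f := by rw [hg', mul_mulVec, ← hhf]; exact PSpAut.inv_mulVec h f
  let L := glEquiv (Fin m ⊕ Fin m) F
  have hLa : ∀ (a : Sp) (x : V), L (spToGL a) x = a.1 *ᵥ x := fun a x => by
    conv_rhs => rw [← coe_spToGL a, ← L.symm_apply_apply (spToGL a)]
    rw [glEquiv_symm_mulVec]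
  let U₀ : Submodule F V := Submodule.span F {e, f}
  have hiso : L (spToGL g') ∈ isoGroup (ω) := fun x y => by rw [hLa, hLa, PSpAut.iso]
  have hnd : NondegOn (ω) U₀ := by
    intro x hx hx0
    obtain ⟨a, b, rfl⟩ := Submodule.mem_span_pair.1 hx
    by_cases ha : a = 0
    · have hb : b ≠ 0 := fun hb => hx0 (by simp [ha, hb])
      exact ⟨e, Submodule.subset_span (by simp), by simp [ha, hf, hb]⟩
    · exact ⟨f, Submodule.subset_span (by simp), by simp [hef, ha]⟩
  have hfix : ∀ x ∈ U₀, L (spToGL g') x = x := by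
    intro x hx
    obtain ⟨a, b, rfl⟩ := Submodule.mem_span_pair.1 hx
    rw [hLa, mulVec_add, mulVec_smul, mulVec_smul, hge, hgf]
  have h1 := mem_tvClosure_perp (sympBilin_isAlt F m) (sympBilin_nondegenerate F m) U₀ _ hiso hnd hfix
  have h2 := tvClosure_le _ _ _ (H := H.map (L.toMonoidHom.comp spToGL)) (fun v (hv : v ∈ perp (ω) U₀) c => ⟨tS v c,
    hH v c (hv e (Submodule.subset_span (by simp))), LinearEquiv.ext fun x => by
      rw [sTE_apply, ← tS_mulVec v c x]; exact hLa _ x⟩) h1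
  obtain ⟨k, hk, hke⟩ := h2
  have hkg : k = g' := spToGL_injective (L.injective hke)
  have hgeq : g = h * g' := by rw [hg', mul_inv_cancel_left]
  rw [hgeq]
  exact H.mul_mem hhH (hkg ▸ hk)

/-! ### Root elements -/

omit [Fintype F] in
theorem omega_eB (x : V) (i : Fin m) : ω x (Pi.single (Sum.inl i) 1) = x (Sum.inr i) := by
  rw [sympBilin_apply, sympForm_eq_sum]; simp [Pi.single_apply]

omit [Fintype F] in
theorem omega_fB (x : V) (i : Fin m) : ω x (Pi.single (Sum.inr i) 1) = -x (Sum.inl i) := by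
  rw [sympBilin_apply, sympForm_eq_sum]; simp [Pi.single_apply]

omit [Fintype F] in
theorem single_symm (i : Fin m) (c : F) : (Matrix.single i i c : MM)ᵀ = Matrix.single i i c :=
  Matrix.transpose_single i i c

omit [Fintype F] in
theorem pair_symm (i j : Fin m) (b : F) :
    (Matrix.single i j b + Matrix.single j i b : MM)ᵀ = Matrix.single i j b + Matrix.single j i b := by
  rw [transpose_add, Matrix.transpose_single, Matrix.transpose_single, add_comm]

omit [Fintype F] in
theorem bet_mulVec {X : MM} (hX : Xᵀ = X) (x : V) :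
    (bet X hX).1 *ᵥ x = x + Sum.elim (X *ᵥ (x ∘ Sum.inr)) 0 := by
  rw [coe_bet, fromBlocks_mulVec]
  funext k
  rcases k with k | k <;> simp

omit [Fintype F] in
theorem bet_single (i : Fin m) (c : F) :
    bet (Matrix.single i i c) (single_symm i c) = tS (Pi.single (Sum.inl i) 1) c := by
  refine PSpAut.ext_sp fun x => ?_
  rw [bet_mulVec, tS_mulVec, omega_eB]
  funext k
  rcases k with k | k <;> simp [Matrix.single_mulVec, Pi.single_apply, Function.update_apply]

omit [Fintype F] in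
theorem bet_pair {i j : Fin m} (hij : i ≠ j) (b : F) :
    bet (Matrix.single i j b + Matrix.single j i b) (pair_symm i j b) =
      uQ (b • Pi.single (Sum.inl i) 1) (Pi.single (Sum.inl j) 1) := by
  refine PSpAut.ext_sp fun x => ?_
  rw [bet_mulVec, uQ_mulVec (by simp [omega_eB, Pi.single_apply]), map_smul, omega_eB, omega_eB]
  funext k
  rcases k with k | k
  · simp [add_mulVec, Matrix.single_mulVec, Pi.single_apply, Function.update_apply]
    split_ifs <;> ring
  · simp [Pi.single_apply]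

omit [Fintype F] in
theorem gam_xs {i j : Fin m} (hij : i ≠ j) (t : F) :
    gam (xs i j t) = uQ ((-t) • Pi.single (Sum.inl i) 1) (Pi.single (Sum.inr j) 1) := by
  have hinv : (xs i j t)⁻¹ = xs i j (-t) := inv_eq_of_mul_eq_one_right (by
    rw [← Cfsg.Lib.Classical.PSLAut.xs_add hij, add_neg_cancel, Cfsg.Lib.Classical.PSLAut.xs_zero hij])
  refine PSpAut.ext_sp fun x => ?_
  rw [uQ_mulVec (by simp [omega_eB, omega_fB, Pi.single_apply, hij, hij.symm]), map_smul, omega_eB, omega_fB,
    coe_gam, hinv, fromBlocks_mulVec]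
  funext k
  rcases k with k | k
  · simp only [Sum.elim_inl, zero_mulVec, add_zero, Pi.add_apply]
    rw [Cfsg.Lib.Classical.PSLAut.xs_mulVec hij]
    simp [Pi.single_apply, Cfsg.Lib.Classical.PSLAut.ev]
    split_ifs <;> ring
  · simp only [Sum.elim_inr, zero_mulVec, zero_add, Pi.add_apply]
    rw [mulVec_transpose, vecMul, dotProduct]
    simp [Cfsg.Lib.Classical.PSLAut.xs_apply hij, mul_add, Finset.sum_add_distrib, Pi.single_apply, ite_and]
    split_ifs <;> ring

end Cfsg.Lib.Fusion.SpRoot
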