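import Mathlib
import Cfsg.Prelude.Def_FusionSystem
import Cfsg.Agent.Lib.Fusion.SimpleLieCriterion
import Cfsg.Agent.Lib.Fusion.PSLDefining
import Cfsg.Agent.Lib.Fusion.SpRootGroups
import Cfsg.Agent.Lib.Transfer.PGroupNormal

/-!
The fusion system of `PSp_2m(q)`, `m ≥ 2`, `(m, q) ≠ (2, 2)`, in the defining characteristic is simple.
-/

set_option autoImplicit false

open scoped Classical Pointwise

namespace Cfsg.Lib.Fusion.SpDefining

open Cfsg Matrix Cfsg.Lib.Classical Cfsg.Lib.Classical.PSpAut Cfsg.Lib.Fusion.SpRoot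
open Cfsg.Lib.Classical.PSLAut (Usl xs)
open Cfsg.Lib.Fusion.PSLDefining (wEl hEl hEl_apply)

variable {F : Type*} [Field F] {m : ℕ}

set_option quotPrecheck false in
local notation "V" => (Fin m ⊕ Fin m → F)
set_option quotPrecheck false in
local notation "Sp" => (↥(Matrix.symplecticGroup (Fin m) F))
set_option quotPrecheck false in
local notation "PS" => (Cfsg.PSp m F)
set_option quotPrecheck false in
local notation "SLm" => (Matrix.SpecialLinearGroup (Fin m) F)
set_option quotPrecheck false in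
local notation "MM" => (Matrix (Fin m) (Fin m) F)
set_option quotPrecheck false in
local notation "ω" => sympBilin F m
set_option quotPrecheck false in
local notation "q" => (QuotientGroup.mk' (Subgroup.center Sp) : Sp →* PS)

/-- An element of `p`-power order normalizing `P ≥` is conjugate inside the normalizer to an element of the Sylow
subgroup. -/
theorem mem_closure_conj {G : Type*} [Group G] [Finite G] {p : ℕ} [Fact p.Prime] (S : Sylow p G) {P : Subgroup G}
    (hSP : (S : Subgroup G) ≤ Subgroup.normalizer (P : Set G)) {y : G} (hy : y ∈ Subgroup.normalizer (P : Set G))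
    {k : ℕ} (hyp : y ^ (p ^ k) = 1) :
    y ∈ Subgroup.closure {z | ∃ x ∈ Subgroup.normalizer (P : Set G), ∃ s ∈ (S : Subgroup G), z = x * s * x⁻¹} := by
  set N := Subgroup.normalizer (P : Set G)
  have hz : IsPGroup p (Subgroup.zpowers (⟨y, hy⟩ : N)) := by
    rintro ⟨_, i, rfl⟩
    refine ⟨k, Subtype.ext (Subtype.ext ?_)⟩
    show ((y ^ i) ^ (p ^ k) : G) = 1
    rw [← zpow_natCast, ← _root_.zpow_mul, mul_comm, _root_.zpow_mul, zpow_natCast, hyp, _root_.one_zpow]
  obtain ⟨Q, hQ⟩ := hz.exists_le_sylow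
  obtain ⟨x, hx⟩ := MulAction.exists_smul_eq N (S.subtype hSP) Q
  have hy' : (⟨y, hy⟩ : N) ∈ (Q : Subgroup N) := hQ (Subgroup.mem_zpowers _)
  rw [← hx, Sylow.coe_subgroup_smul, Subgroup.mem_pointwise_smul_iff_inv_smul_mem] at hy'
  refine Subgroup.subset_closure ⟨x, x.2, (x : G)⁻¹ * y * x, ?_, by group⟩
  have h1 := Subgroup.mem_subgroupOf.1 hy'
  simpa [MulAut.conj_symm_apply, MulDistribMulAction.toMulAut] using h1

/-! ### Linear algebra in the Levi subgroup -/

theorem congr_apply {i j : Fin m} (h : i ≠ j) (t : F) (X : MM) (k l : Fin m) :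
    ((xs i j t).1 * X * (xs i j t).1ᵀ) k l =
      X k l + (if i = k then t * X j l else 0) + (if i = l then t * X k j else 0) +
        (if i = k ∧ i = l then t * t * X j j else 0) := by
  rw [Cfsg.Lib.Classical.PSLAut.xs_eq_transvection h,
    show (Matrix.SpecialLinearGroup.transvection h t).1 = Matrix.transvection i j t from rfl,
    show (Matrix.transvection i j t)ᵀ = Matrix.transvection j i t by
      rw [Matrix.transvection, Matrix.transvection, transpose_add, transpose_one, transpose_single]]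
  by_cases hl : l = i
  · subst hl
    rw [Matrix.mul_transvection_apply_same]
    by_cases hk : k = l
    · subst hk
      rw [Matrix.transvection_mul_apply_same, Matrix.transvection_mul_apply_same]
      simp only [and_self, if_true]
      ring
    · rw [Matrix.transvection_mul_apply_of_ne _ _ _ _ hk, Matrix.transvection_mul_apply_of_ne _ _ _ _ hk,
        if_neg (Ne.symm hk), if_pos rfl, if_neg (fun e => hk e.1.symm)]
      ring
  · rw [Matrix.mul_transvection_apply_of_ne _ _ _ _ hl, if_neg (Ne.symm hl),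
      if_neg (c := i = k ∧ i = l) (fun e => hl e.2.symm)]
    by_cases hk : k = i
    · subst hk; rw [Matrix.transvection_mul_apply_same, if_pos rfl]; ring
    · rw [Matrix.transvection_mul_apply_of_ne _ _ _ _ hk, if_neg (Ne.symm hk)]; ring

theorem congr_swap {i j : Fin m} (hij : i ≠ j) (c : F) :
    (xs i j 1).1 * ((xs j i (-1)).1 * ((xs i j 1).1 * Matrix.single i i c * (xs i j 1).1ᵀ) * (xs j i (-1)).1ᵀ) *
      (xs i j 1).1ᵀ = Matrix.single j j c := by
  ext k l
  simp only [congr_apply hij, congr_apply hij.symm, Matrix.single_apply]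
  by_cases hki : i = k <;> by_cases hli : i = l <;> by_cases hkj : j = k <;> by_cases hlj : j = l <;> simp_all

theorem congr_long {a j : Fin m} (h : a ≠ j) (d : F) :
    (xs j a 1).1 * Matrix.single a a d * (xs j a 1).1ᵀ - Matrix.single a a d - Matrix.single j j d =
      Matrix.single a j d + Matrix.single j a d := by
  ext k l
  simp only [Matrix.sub_apply, congr_apply h.symm, Matrix.add_apply, Matrix.single_apply]
  by_cases hka : a = k <;> by_cases hla : a = l <;> by_cases hkj : j = k <;> by_cases hlj : j = l <;> simp_all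

theorem congr_torus {a j : Fin m} (h : a ≠ j) {d : F} (hd : d ≠ 0) (c b : F) :
    (hEl a j d).1 * (Matrix.single a a c + (Matrix.single a j b + Matrix.single j a b)) * (hEl a j d).1ᵀ -
      (Matrix.single a a c + (Matrix.single a j b + Matrix.single j a b)) = Matrix.single a a (c * (d * d - 1)) := by
  ext k l
  rw [Matrix.sub_apply, hEl_apply h hd, Matrix.diagonal_transpose, Matrix.mul_diagonal, Matrix.diagonal_mul]
  simp only [Matrix.add_apply, Matrix.single_apply]
  by_cases hka : a = k <;> by_cases hla : a = l <;> by_cases hkj : j = k <;> by_cases hlj : j = l <;> simp_all [Ne.symm] <;>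
    field_simp <;> ring

theorem congr_third {a j k₂ : Fin m} (h : a ≠ j) (h2 : a ≠ k₂) (h12 : j ≠ k₂) (c b : F) :
    (xs k₂ j 1).1 * (Matrix.single a a c + (Matrix.single a j b + Matrix.single j a b)) * (xs k₂ j 1).1ᵀ -
      (Matrix.single a a c + (Matrix.single a j b + Matrix.single j a b)) =
      Matrix.single a k₂ b + Matrix.single k₂ a b := by
  ext k l
  simp only [Matrix.sub_apply, congr_apply h12.symm, Matrix.add_apply, Matrix.single_apply]
  by_cases hka : a = k <;> by_cases hla : a = l <;> by_cases hkj : j = k <;> by_cases hlj : j = l <;> by_cases hk2 : k₂ = k <;> by_cases hl2 : k₂ = l <;> simp_all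

theorem congr_comm {a j : Fin m} (h : a ≠ j) (s : F) :
    (xs a j 1).1 * Matrix.single j j s * (xs a j 1).1ᵀ - Matrix.single j j s -
      (Matrix.single a j s + Matrix.single j a s) = Matrix.single a a s := by
  ext k l
  simp only [Matrix.sub_apply, congr_apply h, Matrix.add_apply, Matrix.single_apply]
  by_cases hka : a = k <;> by_cases hla : a = l <;> by_cases hkj : j = k <;> by_cases hlj : j = l <;> simp_all

theorem sym_eq_sum {X : MM} (hX : Xᵀ = X) :
    X = ∑ k, ∑ l, (if k < l then Matrix.single k l (X k l) + Matrix.single l k (X k l)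
      else if k = l then Matrix.single k k (X k k) else 0) := by
  ext i j
  have hsym : ∀ i j, X i j = X j i := fun i j => congrFun (congrFun hX j) i
  simp only [Matrix.sum_apply]
  rcases lt_trichotomy i j with h | h | h
  · rw [Finset.sum_eq_single i, Finset.sum_eq_single j]
    · simp [h, h.ne']
    · intro l _ hl; split_ifs <;> simp [Matrix.single_apply, hl, h.ne, h.ne']
    · simp
    · intro k _ hk
      refine Finset.sum_eq_zero fun l _ => ?_
      split_ifs with h1 h2
      · simp only [Matrix.add_apply, Matrix.single_apply]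
        rw [if_neg (fun e => hk e.1), if_neg, add_zero]
        rintro ⟨rfl, rfl⟩; exact lt_asymm h h1
      · simp [hk]
      · rfl
    · simp
  · subst h
    rw [Finset.sum_eq_single i, Finset.sum_eq_single i]
    · simp
    · intro l _ hl; split_ifs with h1 h2
      · simp [Ne.symm hl, hl]
      · exact absurd h2.symm hl
      · rfl
    · simp
    · intro k _ hk
      refine Finset.sum_eq_zero fun l _ => ?_
      split_ifs with h1 h2
      · simp [hk]
      · simp [hk]
      · rfl
    · simp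
  · rw [Finset.sum_eq_single j, Finset.sum_eq_single i]
    · simp [h, h.ne', hsym i j]
    · intro l _ hl; split_ifs <;> simp [Matrix.single_apply, hl, h.ne, h.ne']
    · simp
    · intro k _ hk
      refine Finset.sum_eq_zero fun l _ => ?_
      split_ifs with h1 h2
      · simp only [Matrix.add_apply, Matrix.single_apply]
        rw [if_neg, if_neg (fun e => hk e.2), add_zero]
        rintro ⟨rfl, rfl⟩; exact lt_asymm h h1
      · simp [hk]
      · rfl
    · simp

theorem hEl_inv {i j : Fin m} (h : i ≠ j) {c : F} (hc : c ≠ 0) : (hEl i j c)⁻¹ = hEl i j c⁻¹ := by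
  refine inv_eq_of_mul_eq_one_right (Subtype.ext ?_)
  rw [Matrix.SpecialLinearGroup.coe_mul, hEl_apply h hc, hEl_apply h (inv_ne_zero hc), diagonal_mul_diagonal,
    Matrix.SpecialLinearGroup.coe_one, ← Matrix.diagonal_one]
  congr 1
  funext k
  split_ifs <;> simp [hc]

theorem bet_inj {X Y : MM} {hX : Xᵀ = X} {hY : Yᵀ = Y} (h : bet X hX = bet Y hY) : X = Y :=
  ((fromBlocks_inj).1 (congrArg Subtype.val h)).2.1

theorem uQ_zero_left (w : V) : uQ (0 : V) w = 1 := ext_sp fun x => by
  rw [uQ_mulVec (by simp)]; simp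

/-- The scalar multiple of a symplectic matrix. -/
def smulSp (r : F) (hr : r * r = 1) (z : Sp) : Sp := ⟨r • z.1, by
  rw [SymplecticGroup.mem_iff, transpose_smul, smul_mul, smul_mul, Matrix.mul_smul, smul_smul, hr, one_smul]
  exact SymplecticGroup.mem_iff.1 z.2⟩

theorem mk_smulSp (hm : 1 ≤ m) (r : F) (hr : r * r = 1) (z : Sp) :
    (QuotientGroup.mk z : PS) = QuotientGroup.mk (smulSp r hr z) := (mk_eq_iff hm).2 ⟨r, hr, rfl⟩

/-- An element commuting with the radical of the Siegel parabolic is a scalar times an element of it. -/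
theorem centralizer_bet (hm : 1 ≤ m) {z : Sp} (hz : ∀ (X : MM) (h : Xᵀ = X), z * bet X h = bet X h * z) :
    ∃ (r : F) (X : MM) (h : Xᵀ = X), r * r = 1 ∧ z.1 = r • (bet X h).1 := by
  set A := z.1.toBlocks₁₁ with hA
  set B := z.1.toBlocks₁₂ with hB
  set C := z.1.toBlocks₂₁ with hC
  set D := z.1.toBlocks₂₂ with hD
  have key : ∀ X : MM, Xᵀ = X → C * X = 0 ∧ A * X + B = B + X * D := by
    intro X hX
    have e : z.1 * (bet X hX).1 = (bet X hX).1 * z.1 := congrArg Subtype.val (hz X hX)
    rw [← fromBlocks_toBlocks z.1, coe_bet, fromBlocks_multiply, fromBlocks_multiply, fromBlocks_inj] at e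
    simp only [mul_one, one_mul, mul_zero, zero_mul, add_zero, zero_add] at e
    obtain ⟨-, h2, -, h4⟩ := e
    exact ⟨add_eq_right.1 h4, h2⟩
  obtain ⟨hC0, hAD⟩ := key 1 transpose_one
  rw [mul_one] at hC0
  rw [mul_one, one_mul, add_comm A B] at hAD
  have hAD' : A = D := add_left_cancel hAD
  have hcomm : ∀ X : MM, Xᵀ = X → A * X = X * A := fun X hX => by
    have h := (key X hX).2
    rw [add_comm (A * X) B, ← hAD'] at h
    exact add_left_cancel h
  set a : Fin m := ⟨0, hm⟩
  have hdiag : ∀ k i : Fin m, k ≠ i → A k i = 0 := fun k i hki => by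
    have h := congrFun (congrFun (hcomm _ (single_symm i (1 : F))) k) i
    rwa [Matrix.mul_single_apply_same, Matrix.single_mul_apply_of_ne _ _ _ _ _ hki, mul_one] at h
  have heq : ∀ i, A i i = A a a := fun i => by
    by_cases hi : i = a
    · rw [hi]
    have h := congrFun (congrFun (hcomm _ (pair_symm i a (1 : F))) i) a
    rw [mul_add, add_mul, Matrix.add_apply, Matrix.add_apply, Matrix.mul_single_apply_same,
      Matrix.single_mul_apply_same, Matrix.mul_single_apply_of_ne _ _ _ _ _ (fun e => hi e.symm),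
      Matrix.single_mul_apply_of_ne _ _ _ _ _ hi, mul_one, one_mul, add_zero, add_zero] at h
    exact h
  have hAs : A = A a a • (1 : MM) := by
    ext k i
    rw [Matrix.smul_apply, Matrix.one_apply, smul_eq_mul, mul_ite, mul_one, mul_zero]
    by_cases h : k = i
    · subst h; rw [if_pos rfl, heq]
    · rw [if_neg h, hdiag k i h]
  have hrr : A a a * A a a = 1 := by
    have hg := z.2
    rw [← fromBlocks_toBlocks z.1, SymplecticGroup.fromBlocks_mem_iff] at hg
    have h3 := hg.2.2
    rw [← hA, ← hC, ← hD, hC0, ← hAD', hAs] at h3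
    simp only [transpose_zero, zero_mul, sub_zero, transpose_smul, transpose_one, smul_mul, one_mul,
      smul_smul] at h3
    simpa using congrFun (congrFun h3 a) a
  obtain ⟨X, hX, he⟩ := eq_smul_bet hC0 hAs hrr
  exact ⟨_, X, hX, hrr, he⟩

variable [Fintype F]

/-! ### The standard Sylow subgroup and its normalizer -/

theorem eq_of_unip_mk {p : ℕ} [Fact p.Prime] [CharP F p] (hm : 1 ≤ m) {x y : Sp} {k l : ℕ}
    (hx : x ^ (p ^ k) = 1) (hy : y ^ (p ^ l) = 1) (h : (QuotientGroup.mk x : PS) = QuotientGroup.mk y) : x = y := by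
  obtain ⟨r, -, hyx⟩ := (mk_eq_iff hm).1 h
  have hx' : x ^ (p ^ (k + l)) = 1 := by rw [pow_add, pow_mul, hx, one_pow]
  have hy' : y ^ (p ^ (k + l)) = 1 := by rw [pow_add, mul_comm, pow_mul, hy, one_pow]
  have e : (y ^ (p ^ (k + l))).1 = r ^ (p ^ (k + l)) • (x ^ (p ^ (k + l))).1 := by
    rw [SubmonoidClass.coe_pow, SubmonoidClass.coe_pow, hyx, smul_pow]
  rw [hx', hy'] at e
  have h1 : r ^ (p ^ (k + l)) = 1 := by
    simpa using (congrFun (congrFun e (Sum.inl ⟨0, hm⟩)) (Sum.inl ⟨0, hm⟩)).symm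
  have hr1 : r = 1 := by
    have h4 : (r - 1) ^ (p ^ (k + l)) = 0 := by rw [sub_pow_char_pow, h1, one_pow, sub_self]
    exact sub_eq_zero.1 (pow_eq_zero_iff (pow_ne_zero _ (Fact.out : p.Prime).ne_zero) |>.1 h4)
  rw [hr1, one_smul] at hyx
  exact (Subtype.ext hyx).symm

theorem exists_pow_Usp {p : ℕ} [Fact p.Prime] [CharP F p] {x : Sp} (hx : x ∈ (Usp : Subgroup Sp)) :
    ∃ k : ℕ, x ^ (p ^ k) = 1 := by
  obtain ⟨k, hk⟩ := (isPGroup_Usp (p := p)) ⟨x, hx⟩
  exact ⟨k, by simpa using congrArg Subtype.val hk⟩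

theorem conj_eq_of_mk {p : ℕ} [Fact p.Prime] [CharP F p] (hm : 1 ≤ m) {s u y : Sp} (hu : u ∈ (Usp : Subgroup Sp))
    (hy : y ∈ (Usp : Subgroup Sp)) (h : (QuotientGroup.mk y : PS) = QuotientGroup.mk (s * u * s⁻¹)) :
    s * u * s⁻¹ = y := by
  obtain ⟨k, hk⟩ := exists_pow_Usp (p := p) hu
  obtain ⟨l, hl⟩ := exists_pow_Usp (p := p) hy
  exact (eq_of_unip_mk (p := p) hm hl (k := l) (l := k) (by rw [conj_pow, hk, mul_one, mul_inv_cancel]) h).symm

theorem eB_fix {g : Sp} (hg : g ∈ (Usp : Subgroup Sp)) {a : Fin m} (ha : ∀ k, a ≤ k) :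
    g.1 *ᵥ Pi.single (Sum.inl a) 1 = Pi.single (Sum.inl a) (1 : F) := by
  funext k
  rw [mulVec_single_one, col_apply]
  rcases k with k | k
  · rw [show g.1 (Sum.inl k) (Sum.inl a) = g.1.toBlocks₁₁ k a from rfl, hg.2 k a (ha k)]
    simp [Pi.single_apply]
  · rw [show g.1 (Sum.inr k) (Sum.inl a) = g.1.toBlocks₂₁ k a from rfl, hg.1]
    simp

omit [Fintype F] in
theorem mk_map_mem_normalizer [Finite Sp] (H : Subgroup Sp) {h : Sp} (h1 : ∀ u ∈ H, h * u * h⁻¹ ∈ H) :
    (QuotientGroup.mk h : PS) ∈ Subgroup.normalizer ((H.map q : Subgroup PS) : Set PS) := by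
  have hle : (H.map q).map (MulAut.conj (QuotientGroup.mk h : PS)).toMonoidHom ≤ H.map q := by
    rintro _ ⟨_, ⟨u, hu, rfl⟩, rfl⟩
    exact ⟨h * u * h⁻¹, h1 u hu, rfl⟩
  have heq := Subgroup.eq_of_le_of_card_ge hle
    (Subgroup.card_map_of_injective (MulAut.conj (QuotientGroup.mk h : PS)).injective).ge
  refine Subgroup.mem_normalizer_iff.2 fun x => ⟨fun hx => hle ⟨x, hx, rfl⟩, fun hx => ?_⟩
  obtain ⟨z, hz, hze⟩ := heq.ge hx
  rwa [← (MulAut.conj (QuotientGroup.mk h : PS)).injective hze]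

theorem gam_hEl_normalizes {i j : Fin m} (hij : i ≠ j) {c : F} (hc : c ≠ 0) {u : Sp}
    (hu : u ∈ (Usp : Subgroup Sp)) : gam (hEl i j c) * u * (gam (hEl i j c))⁻¹ ∈ (Usp : Subgroup Sp) := by
  obtain ⟨A, hA, X, hX, rfl⟩ := exists_decomp hu
  have e : gam (hEl i j c) * (bet X hX * gam A) * (gam (hEl i j c))⁻¹ =
      (gam (hEl i j c) * bet X hX * (gam (hEl i j c))⁻¹) * gam (hEl i j c * A * (hEl i j c)⁻¹) := by
    rw [map_mul, map_mul, map_inv]; group
  rw [e]
  refine mul_mem (QL_le_Usp (gam_conj_QL _ (bet_mem_QL hX))) (gam_mem_Usp fun k l hkl => ?_)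
  rw [Matrix.SpecialLinearGroup.coe_mul, Matrix.SpecialLinearGroup.coe_mul, hEl_inv hij hc,
    hEl_apply hij hc, hEl_apply hij (inv_ne_zero hc), Matrix.mul_diagonal, Matrix.diagonal_mul, hA k l hkl]
  by_cases hkl' : k = l
  · subst hkl'; split_ifs <;> simp [hc]
  · simp [hkl']

theorem Qr_le_Usp {a : Fin m} (ha : ∀ k, a ≤ k) : (Qr (Pi.single (Sum.inl a) (1 : F)) : Subgroup Sp) ≤ Usp := by
  intro g hg
  have hcol : ∀ (i : Fin m ⊕ Fin m) (j : Fin m), j ≠ a → ∃ c : F,
      g.1 i (Sum.inl j) = (Pi.single (Sum.inl j) (1 : F) : V) i + c * (Pi.single (Sum.inl a) (1 : F) : V) i := by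
    intro i j _
    obtain ⟨c, hc⟩ := hg.2 (Pi.single (Sum.inl j) 1) (by rw [omega_eB]; simp)
    refine ⟨c, ?_⟩
    have := congrFun hc i
    rwa [mulVec_single_one, col_apply, Pi.add_apply, Pi.smul_apply, smul_eq_mul] at this
  have hcola : ∀ i : Fin m ⊕ Fin m, g.1 i (Sum.inl a) = (Pi.single (Sum.inl a) (1 : F) : V) i := by
    intro i
    have := congrFun hg.1 i
    rwa [mulVec_single_one, col_apply] at this
  refine ⟨?_, fun i j hji => ?_⟩
  · ext i j
    show g.1 (Sum.inr i) (Sum.inl j) = 0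
    by_cases hj : j = a
    · subst hj; rw [hcola]; simp
    · obtain ⟨c, hc⟩ := hcol (Sum.inr i) j hj
      rw [hc]; simp
  · show g.1 (Sum.inl i) (Sum.inl j) = _
    by_cases hj : j = a
    · subst hj; rw [hcola]; simp [Pi.single_apply]
    · obtain ⟨c, hc⟩ := hcol (Sum.inl i) j hj
      have hi : i ≠ a := fun e => hj (le_antisymm (e ▸ hji) (ha j))
      rw [hc]; simp [Pi.single_apply, hi]

omit [Fintype F] in
theorem conj_mem_Qr {e : V} {g u : Sp} (hg : g ∈ Stab e) (hu : u ∈ Qr e) : g * u * g⁻¹ ∈ Qr e :=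
  Subgroup.mem_subgroupOf.1 ((Qr_normal e).conj_mem ⟨u, hu.1⟩ (Subgroup.mem_subgroupOf.2 hu) ⟨g, hg⟩)

set_option maxHeartbeats 800000 in
/-- The fusion system of `PSp_2m(q)` in the defining characteristic is simple. -/
theorem isSimple {p : ℕ} [Fact p.Prime] [CharP F p] (hm : 2 ≤ m) (hex : m = 2 → 3 ≤ Fintype.card F)
    (S : Sylow p PS) : (groupFusionSystem (S : Subgroup PS)).IsSimple p := by
  have hm1 : 1 ≤ m := by omega
  set Ub : Subgroup PS := (Usp : Subgroup Sp).map q with hUbdef
  have hUb : IsPGroup p Ub := (isPGroup_Usp (p := p)).map _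
  have hUbi : ¬ p ∣ Ub.index := fun h =>
    not_dvd_index_Usp (p := p) (h.trans (Subgroup.index_map_dvd _ (QuotientGroup.mk'_surjective _)))
  let S₀ : Sylow p PS := hUb.toSylow hUbi
  have hS₀ : (S₀ : Subgroup PS) = Ub := rfl
  let a : Fin m := ⟨0, hm1⟩
  let j₁ : Fin m := ⟨1, hm⟩
  have ha : ∀ k, a ≤ k := fun k => Nat.zero_le _
  have haj : a ≠ j₁ := fun e => by have := congrArg Fin.val e; simp [a, j₁] at this
  have hlt : a < j₁ := lt_of_le_of_ne (ha _) haj
  set e₀ : V := Pi.single (Sum.inl a) 1 with he₀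
  have he0 : e₀ ≠ 0 := by simp [he₀]
  have hdesc : ∀ {s u y : Sp}, u ∈ (Usp : Subgroup Sp) → y ∈ (Usp : Subgroup Sp) →
      (QuotientGroup.mk y : PS) = QuotientGroup.mk (s * u * s⁻¹) → s * u * s⁻¹ = y :=
    fun hu hy h => conj_eq_of_mk (p := p) hm1 hu hy h
  refine isSimple_group_of_radicalGens S₀ ?_ ?_ ?_ S
  · rw [hS₀]
    intro e
    have h1 : P e₀ (1 : F) = 1 := by
      rw [← Subgroup.mem_bot, ← e]
      exact ⟨_, bet_single a (1 : F) ▸ QL_le_Usp (bet_mem_QL _), rfl⟩
    exact one_ne_zero (P_injective hm he0 (h1.trans (P_zero e₀).symm))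
  · -- no strongly closed subgroups
    intro T hT hclosed
    rw [hS₀] at hT
    rcases eq_or_ne T ⊥ with hT1 | hT1
    · exact Or.inl hT1
    refine Or.inr (le_antisymm (hS₀ ▸ hT) ?_)
    rw [hS₀]
    let T' : Subgroup Sp := T.comap q ⊓ Usp
    have hcl : ∀ {x : Sp}, x ∈ T' → ∀ g : Sp, g * x * g⁻¹ ∈ (Usp : Subgroup Sp) → g * x * g⁻¹ ∈ T' := by
      intro x hx g hg
      refine Subgroup.mem_inf.2 ⟨?_, hg⟩
      have h1 := hclosed _ (Subgroup.mem_inf.1 hx).1 (QuotientGroup.mk g) (by rw [hS₀]; exact ⟨_, hg, rfl⟩)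
      exact h1
    have hnorm : ∀ {x : Sp}, x ∈ T' → ∀ u ∈ (Usp : Subgroup Sp), u * x * u⁻¹ ∈ T' := fun hx u hu =>
      hcl hx u (mul_mem (mul_mem hu (Subgroup.mem_inf.1 hx).2) (inv_mem hu))
    let 𝒯 : MM → Prop := fun X => ∃ h : Xᵀ = X, bet X h ∈ T'
    have hadd : ∀ {X Y : MM}, 𝒯 X → 𝒯 Y → 𝒯 (X + Y) := by
      rintro X Y ⟨hX, h1⟩ ⟨hY, h2⟩
      exact ⟨_, bet_mul hX hY ▸ mul_mem h1 h2⟩
    have hneg : ∀ {X : MM}, 𝒯 X → 𝒯 (-X) := by
      rintro X ⟨hX, h1⟩
      refine ⟨by rw [transpose_neg, hX], ?_⟩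
      have : (bet X hX)⁻¹ = bet (-X) (by rw [transpose_neg, hX]) := inv_eq_of_mul_eq_one_right (by
        rw [bet_mul, ← bet_zero]; exact bet_congr (add_neg_cancel X))
      exact this ▸ inv_mem h1
    have hsub : ∀ {X Y : MM}, 𝒯 X → 𝒯 Y → 𝒯 (X - Y) := fun h1 h2 => by
      rw [sub_eq_add_neg]; exact hadd h1 (hneg h2)
    have hcongr : ∀ (A : SLm) {X : MM}, 𝒯 X → 𝒯 (A.1 * X * A.1ᵀ) := by
      rintro A X ⟨hX, h1⟩
      refine ⟨_, conj_bet A hX ▸ hcl h1 (gam A) ?_⟩
      exact QL_le_Usp (gam_conj_QL A (bet_mem_QL hX))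
    have hswap : ∀ {i j : Fin m}, i ≠ j → ∀ c : F, 𝒯 (Matrix.single i i c) → 𝒯 (Matrix.single j j c) := by
      intro i j hij c h
      have h1 := hcongr (xs i j 1) (hcongr (xs j i (-1)) (hcongr (xs i j 1) h))
      rwa [congr_swap hij c] at h1
    -- a nontrivial element of `T` central in the Sylow subgroup
    have hn' : (T.subgroupOf Ub).Normal := ⟨fun x hx g => Subgroup.mem_subgroupOf.2
      (hclosed x hx g (by rw [hS₀]; exact Ub.mul_mem (Ub.mul_mem g.2 x.2) (Ub.inv_mem g.2)))⟩
    have hne : T.subgroupOf Ub ≠ ⊥ := fun e => hT1 (by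
      rw [← Subgroup.map_subgroupOf_eq_of_le hT, e, Subgroup.map_bot])
    obtain ⟨z, hz1⟩ := Subgroup.ne_bot_iff_exists_ne_one.1
      (Cfsg.Lib.Transfer.inf_center_ne_bot hUb (T.subgroupOf Ub) hne)
    obtain ⟨y, hyU, hyz⟩ := z.1.2
    have hyT : y ∈ T' := Subgroup.mem_inf.2 ⟨by
      show q y ∈ T
      rw [hyz]; exact (Subgroup.mem_inf.1 z.2).1, hyU⟩
    have hy1 : y ≠ 1 := fun e => hz1 (Subtype.ext (Subtype.ext (by
      rw [← hyz, e, map_one]; rfl)))
    have hyc : ∀ u ∈ (Usp : Subgroup Sp), y * u = u * y := by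
      intro u hu
      refine mul_inv_eq_iff_eq_mul.1 (hdesc hu hu ?_)
      have h := congrArg Subtype.val (Subgroup.mem_center_iff.1 (Subgroup.mem_inf.1 z.2).2 ⟨q u, u, hu, rfl⟩)
      have h' : (q u : PS) * q y = q y * q u := by rw [hyz]; exact h
      show q u = q (y * u * y⁻¹)
      rw [map_mul, map_mul, map_inv, ← h', mul_inv_cancel_right]
    obtain ⟨r, B, hB, -, hyB⟩ := centralizer_bet hm1 fun X hX => hyc _ (QL_le_Usp (bet_mem_QL hX))
    have hr : r = 1 := by
      have h1 := hyU.2 a a le_rfl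
      rw [show y.1.toBlocks₁₁ a a = y.1 (Sum.inl a) (Sum.inl a) from rfl, hyB] at h1
      simpa [coe_bet] using h1
    have hyB' : y = bet B hB := Subtype.ext (by rw [hyB, hr, one_smul])
    have hB𝒯 : 𝒯 B := ⟨hB, hyB' ▸ hyT⟩
    have hBs : ∀ k l, B k l = B l k := fun k l => congrFun (congrFun hB l) k
    have hBeq : ∀ {i j : Fin m}, i < j → ∀ k l : Fin m,
        (if i = k then B j l else 0) + (if i = l then B k j else 0) + (if i = k ∧ i = l then B j j else 0) = 0 := by
      intro i j hij k l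
      have h1 : bet _ _ = bet B hB := (conj_bet (xs i j 1) hB).symm.trans (by
        rw [← hyB', mul_inv_eq_iff_eq_mul]
        exact (hyc _ (gam_mem_Usp (Cfsg.Lib.Classical.PSLAut.xs_mem_Usl hij 1))).symm)
      have h2 := congrFun (congrFun (bet_inj h1) k) l
      rw [congr_apply hij.ne] at h2
      simp only [one_mul] at h2
      linear_combination h2
    have hB0 : ∀ k j, k ≠ a → j ≠ a → B k j = 0 := fun k j hk hj => by
      have := hBeq (lt_of_le_of_ne (ha j) (Ne.symm hj)) k a
      simpa [Ne.symm hk] using this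
    have hB2 : ∀ j, j ≠ a → j ≠ j₁ → B a j = 0 := fun j hja hj => by
      have hlt' : j₁ < j := lt_of_le_of_ne (Fin.le_def.2 (Nat.one_le_iff_ne_zero.2 fun e => hja (Fin.ext e)))
        (Ne.symm hj)
      have := hBeq hlt' a j₁
      simpa [haj, haj.symm] using this
    set b := B a j₁ with hb
    set c := B a a with hc
    have hbb : b + b = 0 := by
      have := hBeq hlt a a
      simpa [hBs j₁ a, hB0 j₁ j₁ haj.symm haj.symm, ← hb] using this
    have hBform : B = Matrix.single a a c + (Matrix.single a j₁ b + Matrix.single j₁ a b) := by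
      ext k l
      simp only [Matrix.add_apply, Matrix.single_apply]
      by_cases hk : k = a <;> by_cases hl : l = a
      · subst hk hl; simp [haj, haj.symm, hc]
      · subst hk
        by_cases hl1 : l = j₁
        · subst hl1; simp [haj, hb, Ne.symm hl]
        · simp [Ne.symm hl, hB2 l hl hl1, Ne.symm hl1]
      · subst hl
        rw [hBs k a]
        by_cases hk1 : k = j₁
        · subst hk1; simp [Ne.symm hk, hb, haj]
        · simp [Ne.symm hk, hB2 k hk hk1, Ne.symm hk1]
      · simp [Ne.symm hk, Ne.symm hl, hB0 k l hk hl]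
    -- a short root element
    have hlong : ∀ d : F, d ≠ 0 → 𝒯 (Matrix.single a a d) → ∃ (i j : Fin m) (e : F),
        i ≠ j ∧ e ≠ 0 ∧ 𝒯 (Matrix.single i j e + Matrix.single j i e) := by
      intro d hd h
      refine ⟨a, j₁, d, haj, hd, ?_⟩
      have h1 := hsub (hsub (hcongr (xs j₁ a 1) h) h) (hswap haj d h)
      rwa [congr_long haj d] at h1
    obtain ⟨i₀, j₀, b₀, hij₀, hb₀, hshort⟩ : ∃ (i j : Fin m) (e : F),
        i ≠ j ∧ e ≠ 0 ∧ 𝒯 (Matrix.single i j e + Matrix.single j i e) := by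
      by_cases hb0 : b = 0
      · refine hlong c (fun hc0 => hy1 ?_) (by simpa [hBform, hb0] using hB𝒯)
        rw [hyB', ← bet_zero]
        exact bet_congr (by rw [hBform, hb0, hc0]; simp)
      by_cases hc0 : c = 0
      · exact ⟨a, j₁, b, haj, hb0, by simpa [hBform, hc0] using hB𝒯⟩
      by_cases hm2 : m = 2
      · -- separate with the torus
        haveI : CharP F 2 := by
          refine (CharTwo.of_one_ne_zero_of_two_eq_zero one_ne_zero ?_)
          have : (2 : F) * b = 0 := by linear_combination hbb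
          exact (mul_eq_zero.1 this).resolve_right hb0
        obtain ⟨d, hd0, hd1⟩ : ∃ d : F, d ≠ 0 ∧ d ≠ 1 := by
          by_contra hne
          push Not at hne
          have hle : Fintype.card F ≤ 2 := by
            have hsub : (Finset.univ : Finset F) ⊆ {0, 1} := fun x _ => by
              rcases eq_or_ne x 0 with h | h
              · simp [h]
              · simp [hne x h]
            exact (Finset.card_le_card hsub).trans Finset.card_le_two
          have := hex hm2
          omega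
        have hdd : c * (d * d - 1) ≠ 0 := by
          refine mul_ne_zero hc0 fun h => hd1 ?_
          have : (d - 1) * (d - 1) = 0 := by linear_combination h + (1 - d) * (CharTwo.two_eq_zero (R := F))
          exact sub_eq_zero.1 (mul_self_eq_zero.1 this)
        refine hlong _ hdd ?_
        have h1 := hsub (hcongr (hEl a j₁ d) hB𝒯) hB𝒯
        rwa [hBform, congr_torus haj hd0 c b] at h1
      · let j₂ : Fin m := ⟨2, by omega⟩
        have h2a : j₂ ≠ a := fun e => by have := congrArg Fin.val e; simp [a, j₂] at this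
        have h21 : j₂ ≠ j₁ := fun e => by have := congrArg Fin.val e; simp [j₁, j₂] at this
        refine ⟨a, j₂, b, h2a.symm, hb0, ?_⟩
        have h1 := hsub (hcongr (xs j₂ j₁ 1) hB𝒯) hB𝒯
        rwa [hBform, congr_third haj h2a.symm h21.symm c b] at h1
    -- all short root elements
    have hu₀ : uQ (b₀ • Pi.single (Sum.inl i₀) 1) (Pi.single (Sum.inl j₀) 1) ∈ T' := by
      obtain ⟨hs, h⟩ := hshort
      exact bet_pair hij₀ b₀ ▸ h
    have hmove : ∀ u w : V, u ≠ 0 → w ∉ Submodule.span F {u} → ω u w = 0 → uQ u w ∈ (Usp : Subgroup Sp) →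
        uQ u w ∈ T' := by
      intro u w hu hw huw hU
      obtain ⟨g, hg1, hg2⟩ := exists_move_pair (a := b₀ • (Pi.single (Sum.inl i₀) 1 : V))
        (b := Pi.single (Sum.inl j₀) 1) (by simp [hb₀]) (fun h => by
          obtain ⟨t, ht⟩ := Submodule.mem_span_singleton.1 h
          have := congrFun ht (Sum.inl j₀)
          simp [hij₀.symm] at this)
        (by simp [omega_eB]) hu hw huw
      have e : g * uQ (b₀ • Pi.single (Sum.inl i₀) 1) (Pi.single (Sum.inl j₀) 1) * g⁻¹ = uQ u w := by
        rw [conj_uQ, hg1, hg2]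
      exact e ▸ hcl hu₀ g (e.symm ▸ hU)
    have hpairs : ∀ {i j : Fin m}, i ≠ j → ∀ t : F, 𝒯 (Matrix.single i j t + Matrix.single j i t) := by
      intro i j hij t
      refine ⟨pair_symm i j t, ?_⟩
      rcases eq_or_ne t 0 with rfl | ht
      · rw [bet_pair hij, zero_smul, uQ_zero_left]; exact one_mem _
      rw [bet_pair hij]
      refine hmove _ _ (by simp [ht]) (fun h => ?_) (by simp [omega_eB])
        (bet_pair hij t ▸ QL_le_Usp (bet_mem_QL _))
      obtain ⟨r', hr'⟩ := Submodule.mem_span_singleton.1 h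
      have := congrFun hr' (Sum.inl j)
      simp [hij.symm] at this
    have hgam : ∀ {i j : Fin m}, i < j → ∀ t : F, gam (xs i j t) ∈ T' := by
      intro i j hij t
      rcases eq_or_ne t 0 with rfl | ht
      · rw [Cfsg.Lib.Classical.PSLAut.xs_zero hij.ne, map_one]; exact one_mem _
      have hU := gam_mem_Usp (Cfsg.Lib.Classical.PSLAut.xs_mem_Usl hij t)
      rw [gam_xs hij.ne] at hU ⊢
      refine hmove _ _ (by simp [ht]) (fun h => ?_) (by simp [omega_fB, hij.ne']) hU
      obtain ⟨r', hr'⟩ := Submodule.mem_span_singleton.1 h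
      have := congrFun hr' (Sum.inr j)
      simp at this
    have hdiag : ∀ (i : Fin m) (s : F), 𝒯 (Matrix.single i i s) := by
      intro i s
      have key : 𝒯 (Matrix.single a a s) := by
        have hx : bet (Matrix.single j₁ j₁ s) (single_symm j₁ s) ∈ (Usp : Subgroup Sp) := QL_le_Usp (bet_mem_QL _)
        have h1 : bet ((xs a j₁ (1 : F)).1 * Matrix.single j₁ j₁ s * (xs a j₁ (1 : F)).1ᵀ)
            (by rw [transpose_mul, transpose_mul, transpose_transpose, single_symm, mul_assoc]) *
            (bet (Matrix.single j₁ j₁ s) (single_symm j₁ s))⁻¹ ∈ T' := by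
          rw [← conj_bet (xs a j₁ 1) (single_symm j₁ s)]
          have h2 := mul_mem (hgam hlt 1) (hnorm (inv_mem (hgam hlt 1)) _ hx)
          convert h2 using 1
          group
        have hinv : (bet (Matrix.single j₁ j₁ s) (single_symm j₁ s))⁻¹ =
            bet (-Matrix.single j₁ j₁ s) (by rw [transpose_neg, single_symm]) := inv_eq_of_mul_eq_one_right (by
          rw [bet_mul, ← bet_zero]; exact bet_congr (add_neg_cancel _))
        rw [hinv, bet_mul] at h1
        have h3 := hsub ⟨_, h1⟩ (hpairs haj s)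
        rwa [← sub_eq_add_neg, congr_comm haj s] at h3
      by_cases hi : i = a
      · exact hi.symm ▸ key
      · exact hswap (Ne.symm hi) s key
    have hall : ∀ X : MM, Xᵀ = X → 𝒯 X := by
      intro X hX
      have hXe := sym_eq_sum hX
      have h0 : 𝒯 0 := ⟨transpose_zero, by rw [bet_zero]; exact one_mem _⟩
      rw [hXe]
      refine Finset.sum_induction _ 𝒯 (fun _ _ => hadd) h0 fun k _ => ?_
      refine Finset.sum_induction _ 𝒯 (fun _ _ => hadd) h0 fun l _ => ?_
      split_ifs with h1 h2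
      · exact hpairs h1.ne _
      · exact hdiag _ _
      · exact h0
    rintro _ ⟨u, hu, rfl⟩
    obtain ⟨A, hA, X, hX, rfl⟩ := exists_decomp hu
    obtain ⟨_, hXT⟩ := hall X hX
    exact (Subgroup.mem_inf.1 (mul_mem hXT (Cfsg.Lib.Fusion.PSLDefining.Usl_le (H := T'.comap gam)
      (fun i j t hij => hgam hij t) hA))).1
  · -- the normalizer
    intro g hg
    obtain ⟨s, rfl⟩ := QuotientGroup.mk_surjective g
    rw [hS₀] at hg
    have hnorm' : ∀ {g : PS}, g ∈ Subgroup.normalizer (Ub : Set PS) → ∀ s : Sp, (QuotientGroup.mk s : PS) = g →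
        ∀ u ∈ (Usp : Subgroup Sp), s * u * s⁻¹ ∈ (Usp : Subgroup Sp) := by
      intro g hg s hs u hu
      obtain ⟨y, hy, hye⟩ := (Subgroup.mem_normalizer_iff.1 hg (q u)).1 ⟨u, hu, rfl⟩
      rw [← hs] at hye
      rw [hdesc hu hy hye]
      exact hy
    -- `s` fixes the line of `e₀`
    obtain ⟨c, hc⟩ : ∃ c : F, s.1 *ᵥ e₀ = c • e₀ := by
      set w := s.1 *ᵥ e₀ with hw
      have hfix : ∀ u ∈ (Usp : Subgroup Sp), u.1 *ᵥ w = w := by
        intro u hu
        have hu' : s⁻¹ * u * s ∈ (Usp : Subgroup Sp) := by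
          have := hnorm' (inv_mem hg) s⁻¹ rfl u hu
          rwa [inv_inv] at this
        have h2 : (s⁻¹ * u * s).1 *ᵥ e₀ = e₀ := eB_fix hu' ha
        conv_rhs => rw [hw, ← h2, ← PSpAut.mul_mulVec,
          show s * (s⁻¹ * u * s) = u * s by group, PSpAut.mul_mulVec]
      have hinr : ∀ i, w (Sum.inr i) = 0 := fun i => by
        have h1 := congrFun (hfix _ (QL_le_Usp (bet_mem_QL (single_symm i (1 : F))))) (Sum.inl i)
        rw [bet_single, tS_mulVec, omega_eB] at h1
        simpa using h1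
      have hinl : ∀ j, j ≠ a → w (Sum.inl j) = 0 := fun j hj => by
        have hlt' : a < j := lt_of_le_of_ne (ha j) (Ne.symm hj)
        have h1 := congrFun (hfix _ (gam_mem_Usp (Cfsg.Lib.Classical.PSLAut.xs_mem_Usl hlt' (1 : F)))) (Sum.inl a)
        rw [gam_xs hlt'.ne, uQ_mulVec (by simp [omega_eB, omega_fB, hlt'.ne, hlt'.ne']), omega_fB] at h1
        simpa [hinr] using h1
      refine ⟨w (Sum.inl a), funext fun k => ?_⟩
      rcases k with k | k
      · by_cases hk : k = a
        · subst hk; simp [he₀]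
        · simp [he₀, hinl k hk, hk]
      · simp [he₀, hinr]
    have hc0 : c ≠ 0 := fun e => by
      rw [e, zero_smul] at hc
      exact PSpAut.mulVec_ne_zero s he0 hc
    set C := Subgroup.closure (((S₀ : Subgroup PS) : Set PS) ∪
      (Subgroup.centralizer ((S₀ : Subgroup PS) : Set PS) : Set PS) ∪ radicalGens (S₀ : Subgroup PS))
    set h' := gam (hEl a j₁ c) with hh'
    have hh'N : (QuotientGroup.mk h' : PS) ∈ Subgroup.normalizer (Ub : Set PS) :=
      mk_map_mem_normalizer _ fun u hu => gam_hEl_normalizes haj hc0 hu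
    -- the torus element
    have hh'C : (QuotientGroup.mk h' : PS) ∈ C := by
      refine Subgroup.subset_closure (Or.inr ⟨hS₀ ▸ hh'N, (QL : Subgroup Sp).map q, ?_, ?_, ?_, ?_⟩)
      · rw [hS₀]; exact Subgroup.map_mono QL_le_Usp
      · rw [hS₀]
        rintro _ ⟨u, hu, rfl⟩
        exact mk_map_mem_normalizer _ fun x hx => conj_bet_Usp hu hx
      · intro y hy
        obtain ⟨z, rfl⟩ := QuotientGroup.mk_surjective y
        have hcm : ∀ (X : MM) (h : Xᵀ = X), z * bet X h = bet X h * z := fun X h => by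
          refine mul_inv_eq_iff_eq_mul.1 (hdesc (QL_le_Usp (bet_mem_QL h)) (QL_le_Usp (bet_mem_QL h)) ?_)
          rw [QuotientGroup.mk_mul, QuotientGroup.mk_mul, QuotientGroup.mk_inv]
          exact eq_mul_inv_iff_mul_eq.2
            (Subgroup.mem_centralizer_iff.1 hy _ ⟨bet X h, bet_mem_QL h, rfl⟩)
        obtain ⟨r, X, hX, hr, he⟩ := centralizer_bet hm1 hcm
        exact ⟨bet X hX, bet_mem_QL hX, (mk_eq_iff hm1).2 ⟨r, hr, he⟩⟩
      · have hgN : ∀ A : SLm, (q (gam A) : PS) ∈
            Subgroup.normalizer (((QL : Subgroup Sp).map q : Subgroup PS) : Set PS) := fun A =>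
          mk_map_mem_normalizer _ fun x hx => gam_conj_QL A hx
        set K := Subgroup.closure {y | ∃ x ∈ Subgroup.normalizer (((QL : Subgroup Sp).map q : Subgroup PS) : Set PS),
          ∃ t ∈ (S₀ : Subgroup PS), y = x * t * x⁻¹}
        have hroot : ∀ {i j : Fin m}, i ≠ j → ∀ t : F, xs i j t ∈ K.comap ((q).comp gam) := by
          intro i j hij t
          rcases lt_or_gt_of_ne hij with h | h
          · refine Subgroup.subset_closure ⟨1, one_mem _, q (gam (xs i j t)), ?_, by simp⟩
            rw [hS₀]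
            exact ⟨_, gam_mem_Usp (Cfsg.Lib.Classical.PSLAut.xs_mem_Usl h t), rfl⟩
          · refine Subgroup.subset_closure ⟨_, hgN (wEl i j 1), q (gam (xs j i (-t))), hS₀ ▸ ⟨_, gam_mem_Usp
              (Cfsg.Lib.Classical.PSLAut.xs_mem_Usl h (-t)), rfl⟩, ?_⟩
            rw [MonoidHom.comp_apply, Cfsg.Lib.Fusion.PSLDefining.xs_lower hij t, map_mul, map_mul, map_inv,
              map_mul, map_mul, map_inv]
        show hEl a j₁ c ∈ K.comap ((q).comp gam)
        simp only [hEl, wEl]
        exact mul_mem (mul_mem (mul_mem (hroot haj _) (hroot haj.symm _)) (hroot haj _))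
          (inv_mem (mul_mem (mul_mem (hroot haj _) (hroot haj.symm _)) (hroot haj _)))
    -- the rest fixes `e₀`
    set s' := h'⁻¹ * s with hs'
    have hs'e : s' ∈ Stab e₀ := by
      have hhe : h'.1 *ᵥ e₀ = c • e₀ := by
        funext k
        rw [hh', he₀, mulVec_single_one, col_apply, coe_gam, hEl_apply haj hc0]
        rcases k with k | k
        · by_cases hk : k = a
          · subst hk; simp
          · simp [hk]
        · simp
      rw [mem_Stab, hs', PSpAut.mul_mulVec, hc, ← hhe, PSpAut.inv_mulVec]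
    have hs'N : (QuotientGroup.mk s' : PS) ∈ Subgroup.normalizer (Ub : Set PS) := by
      rw [hs', QuotientGroup.mk_mul, QuotientGroup.mk_inv]
      exact mul_mem (inv_mem hh'N) hg
    have hs'C : (QuotientGroup.mk s' : PS) ∈ C := by
      set N := Subgroup.normalizer (((Qr e₀ : Subgroup Sp).map q : Subgroup PS) : Set PS) with hNdef
      have hSN : (S₀ : Subgroup PS) ≤ N := by
        rw [hS₀]
        rintro _ ⟨u, hu, rfl⟩
        exact mk_map_mem_normalizer _ fun x hx => conj_mem_Qr (eB_fix hu ha) hx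
      refine Subgroup.subset_closure (Or.inr ⟨hS₀ ▸ hs'N, (Qr e₀ : Subgroup Sp).map q, ?_, hSN, ?_, ?_⟩)
      · rw [hS₀]; exact Subgroup.map_mono (Qr_le_Usp ha)
      · intro y hy
        obtain ⟨z, rfl⟩ := QuotientGroup.mk_surjective y
        have hcm : ∀ u ∈ Qr e₀, z * u = u * z := fun u hu => by
          refine mul_inv_eq_iff_eq_mul.1 (hdesc (Qr_le_Usp ha hu) (Qr_le_Usp ha hu) ?_)
          rw [QuotientGroup.mk_mul, QuotientGroup.mk_mul, QuotientGroup.mk_inv]
          exact eq_mul_inv_iff_mul_eq.2 (Subgroup.mem_centralizer_iff.1 hy _ ⟨u, hu, rfl⟩)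
        obtain ⟨r, d, k, hr, hk, -, hx⟩ := exists_of_comm he0 hcm
        have hx' : ∀ x, (smulSp r hr z).1 *ᵥ x = x + ω x e₀ • k + ω k x • e₀ + (d * ω x e₀) • e₀ := fun x => by
          rw [show (smulSp r hr z).1 = r • z.1 from rfl, smul_mulVec, hx]
        refine ⟨smulSp r hr z, ⟨?_, fun x hx0 => ⟨ω k x, ?_⟩⟩, (mk_smulSp hm1 r hr z).symm⟩
        · rw [hx', PSpAut.self, hk, mul_zero, zero_smul, zero_smul, add_zero, add_zero, add_zero]
        · rw [hx', hx0, mul_zero, zero_smul, zero_smul, add_zero, add_zero]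
      · set K := Subgroup.closure {y | ∃ x ∈ N, ∃ t ∈ (S₀ : Subgroup PS), y = x * t * x⁻¹}
        refine Stab_le he0 (H := K.comap q) (fun v d hv => ?_) hs'e
        refine mem_closure_conj S₀ hSN (mk_map_mem_normalizer _ fun x hx => conj_mem_Qr ?_ hx) (k := 1) ?_
        · exact tS_fix hv d
        · rw [pow_one]
          show q (tS v d) ^ p = 1
          rw [← map_pow]
          suffices h : ∀ n : ℕ, tS v d ^ n = tS v ((n : F) * d) by
            rw [h, CharP.cast_eq_zero, zero_mul, tS_zero, map_one]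
          intro n
          induction n with
          | zero => simp [tS_zero]
          | succ n ih => rw [pow_succ, ih, tS_add, Nat.cast_succ, add_mul, one_mul]
    have e : (QuotientGroup.mk s : PS) = QuotientGroup.mk h' * QuotientGroup.mk s' := by
      rw [hs', ← QuotientGroup.mk_mul, mul_inv_cancel_left]
    rw [e]
    exact C.mul_mem hh'C hs'C

end Cfsg.Lib.Fusion.SpDefining
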