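import Mathlib
import Cfsg.Agent.Lib.Classical.PSUAut.Image
import Cfsg.Agent.Lib.Classical.UnitaryOrders
import Cfsg.Agent.Lib.Classical.UnitaryTransvSU

/-!
`SU_n`: lifting `p`-elements, the radical of the stabiliser of a totally isotropic line pair, and the generation of
a vector stabiliser by its `p`-elements.
-/

set_option autoImplicit false

open scoped Classical

namespace Cfsg.Lib.Fusion.UnitaryRad

open Matrix Cfsg.Lib.Classical Cfsg.Lib.Classical.PSUAut
open Cfsg.Lib.Classical.UTransv (suToGL)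

variable {F : Type*} [Field F] {n q : ℕ} {σ : F ≃+* F}

set_option quotPrecheck false in
local notation "V" => (Fin n → F)
set_option quotPrecheck false in
local notation "hh" => (Cfsg.hermForm n F q)
set_option quotPrecheck false in
local notation "SUn" => (↥(Cfsg.SU n F q))
set_option quotPrecheck false in
local notation "PU" => (Cfsg.PSU n F q)

variable (q) in
/-- The elements fixing a subspace pointwise. -/
def fixS (U : Submodule F V) : Subgroup SUn where
  carrier := {A | ∀ x ∈ U, act A x = x}
  one_mem' := fun x _ => act_one x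
  mul_mem' {a b} ha hb := fun x hx => by rw [act_mul, hb x hx, ha x hx]
  inv_mem' {a} ha := fun x hx => by conv_lhs => rw [← ha x hx, act_inv]

theorem mem_fixS_span {s : Set V} {A : SUn} (h : ∀ x ∈ s, act A x = x) : A ∈ fixS q (Submodule.span F s) := by
  intro x hx
  induction hx using Submodule.span_induction with
  | mem x hx => exact h x hx
  | zero => exact act_zero A
  | add x y _ _ hx hy => rw [act_add, hx, hy]
  | smul c x _ hx => rw [act_smul, hx]

variable (q) in
/-- The stabiliser of a subspace. -/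
def stabS (W : Submodule F V) : Subgroup SUn where
  carrier := {A | ∀ x, x ∈ W ↔ act A x ∈ W}
  one_mem' := fun x => by rw [act_one]
  mul_mem' {a b} ha hb := fun x => by rw [act_mul, ← ha, ← hb]
  inv_mem' {a} ha := fun x => by
    have h := ha (act a⁻¹ x)
    rw [act_inv'] at h
    exact h.symm

theorem mem_stabS_of [Finite F] {W : Submodule F V} {A : SUn} (h : ∀ x ∈ W, act A x ∈ W) : A ∈ stabS q W := by
  intro x
  refine ⟨h x, fun hx => ?_⟩
  have hinj : Function.Injective fun w : W => (⟨act A w.1, h _ w.2⟩ : W) := fun w w' e => by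
    have e' := congrArg (fun u : W => act A⁻¹ u.1) e
    simp only [act_inv] at e'
    exact Subtype.ext e'
  obtain ⟨⟨w, hw⟩, hwe⟩ := (Finite.injective_iff_surjective.1 hinj) ⟨_, hx⟩
  have e' := congrArg (fun u : W => act A⁻¹ u.1) hwe
  simp only [act_inv] at e'
  exact e' ▸ hw

theorem mem_stabS_span [Finite F] {s : Set V} {A : SUn} (h : ∀ x ∈ s, act A x ∈ Submodule.span F s) :
    A ∈ stabS q (Submodule.span F s) := by
  refine mem_stabS_of fun x hx => ?_
  induction hx using Submodule.span_induction with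
  | mem x hx => exact h x hx
  | zero => rw [act_zero]; exact zero_mem _
  | add x y _ _ hx hy => rw [act_add]; exact add_mem hx hy
  | smul c x _ hx => rw [act_smul]; exact Submodule.smul_mem _ c hx

variable (q) in
/-- The radical of the stabiliser of a subspace. -/
def Pw (W : Submodule F V) : Subgroup SUn where
  carrier := {A | (∀ x ∈ W, act A x = x) ∧ ∀ x, (∀ w ∈ W, hh x w = 0) → act A x - x ∈ W}
  one_mem' := ⟨fun x _ => act_one x, fun x _ => by rw [act_one, sub_self]; exact zero_mem _⟩
  mul_mem' {a b} ha hb := by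
    refine ⟨fun x hx => by rw [act_mul, hb.1 x hx, ha.1 x hx], fun x hx => ?_⟩
    have e : act (a * b) x - x = act a (act b x - x) + (act a x - x) := by
      rw [act_mul, sub_eq_add_neg (act b x), act_add, ← neg_one_smul F x, act_smul]
      module
    rw [e, ha.1 _ (hb.2 x hx)]
    exact add_mem (hb.2 x hx) (ha.2 x hx)
  inv_mem' {a} ha := by
    have hf : ∀ x ∈ W, act a⁻¹ x = x := fun x hx => by conv_lhs => rw [← ha.1 x hx, act_inv]
    refine ⟨hf, fun x hx => ?_⟩
    have h := hf _ (ha.2 x hx)
    rw [sub_eq_add_neg, act_add, ← neg_one_smul F x, act_smul, act_inv] at h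
    have e : act a⁻¹ x - x = -(act a x - x) := by linear_combination (norm := module) -h
    rw [e]
    exact neg_mem (ha.2 x hx)

theorem Pw_conj {W : Submodule F V} {g A : SUn} (hg : g ∈ stabS q W) (hA : A ∈ Pw q W) : g * A * g⁻¹ ∈ Pw q W := by
  have hg' : ∀ x ∈ W, act g⁻¹ x ∈ W := fun x hx => ((inv_mem hg) x).1 hx
  refine ⟨fun x hx => by rw [act_mul, act_mul, hA.1 _ (hg' x hx), act_inv'], fun x hx => ?_⟩
  have h := hA.2 (act g⁻¹ x) fun w hw => by
    rw [← iso g, act_inv']
    exact hx _ ((hg w).1 hw)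
  have h2 := (hg _).1 h
  rw [sub_eq_add_neg, act_add, ← neg_one_smul F (act g⁻¹ x), act_smul, act_inv', neg_one_smul,
    ← sub_eq_add_neg] at h2
  rwa [act_mul, act_mul]

theorem Pw_nilpotent {W : Submodule F V} {A : SUn} (hA : A ∈ Pw q W) (hc : Ctx n q σ) :
    (sMat A - 1) ^ 3 = (0 : Matrix (Fin n) (Fin n) F) := by
  refine ext_mulVec fun x => ?_
  rw [zero_mulVec, pow_succ, pow_two, ← mulVec_mulVec, ← mulVec_mulVec]
  have e : ∀ y, (sMat A - 1) *ᵥ y = act A y - y := fun y => by rw [sub_mulVec, one_mulVec]; rfl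
  rw [e x, e (act A x - x)]
  have h1 : ∀ w ∈ W, hh (act A x - x) w = 0 := fun w hw => by
    rw [herm_sub_left hc.form]
    conv_lhs => enter [1, 5]; rw [← hA.1 w hw]
    rw [iso, sub_self]
  rw [e, hA.1 _ (hA.2 _ h1), sub_self]

variable (hc : Ctx n q σ)
include hc

theorem pow_eq_one_of_nilpotent {p : ℕ} [Fact p.Prime] [CharP F p] {A : SUn}
    (h3 : (sMat A - 1) ^ 3 = (0 : Matrix (Fin n) (Fin n) F)) (hn : 0 < n) : A ^ (p ^ 2) = 1 := by
  haveI : Nonempty (Fin n) := ⟨⟨0, hn⟩⟩
  have hp : 3 ≤ p ^ 2 := le_trans (by norm_num) (Nat.pow_le_pow_left (Fact.out : p.Prime).two_le 2)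
  have key : sMat A ^ (p ^ 2) = 1 := by
    rw [show sMat A = (sMat A - 1) + 1 by rw [sub_add_cancel],
      add_pow_expChar_pow_of_commute (p := p) _ (Commute.one_right _), one_pow, pow_eq_zero_of_le hp h3, zero_add]
  refine Subtype.ext (Subtype.ext ?_)
  rw [SubmonoidClass.coe_pow, Matrix.SpecialLinearGroup.coe_pow]
  exact key

theorem eq_of_unip_mk [Fintype F] {p : ℕ} [Fact p.Prime] [CharP F p] (hn : 3 ≤ n) {a b : SUn} {k l : ℕ}
    (ha : a ^ (p ^ k) = 1) (hb : b ^ (p ^ l) = 1) (h : (QuotientGroup.mk a : PU) = QuotientGroup.mk b) : a = b := by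
  obtain ⟨r, hr⟩ := (mk_eq_iff hc hn).1 h
  have hM : sMat b = r • sMat a := ext_mulVec fun x => by rw [smul_mulVec]; exact hr x
  have ha' : a ^ (p ^ (k + l)) = 1 := by rw [pow_add, pow_mul, ha, one_pow]
  have hb' : b ^ (p ^ (k + l)) = 1 := by rw [pow_add, mul_comm, pow_mul, hb, one_pow]
  have e : sMat (b ^ (p ^ (k + l))) = r ^ (p ^ (k + l)) • sMat (a ^ (p ^ (k + l))) := by
    simp only [sMat, SubmonoidClass.coe_pow, Matrix.SpecialLinearGroup.coe_pow] at hM ⊢
    rw [hM, smul_pow]
  rw [ha', hb'] at e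
  have h1 : r ^ (p ^ (k + l)) = 1 := by
    simpa [sMat] using (congrFun (congrFun e ⟨0, by omega⟩) ⟨0, by omega⟩).symm
  have hr1 : r = 1 := by
    have h4 : (r - 1) ^ (p ^ (k + l)) = 0 := by rw [sub_pow_char_pow, h1, one_pow, sub_self]
    exact sub_eq_zero.1 (pow_eq_zero_iff (pow_ne_zero _ (Fact.out : p.Prime).ne_zero) |>.1 h4)
  exact (ext_su fun x => by rw [hr x, hr1, one_smul]).symm

/-- An element centralizing the radical of `⟨e, v⟩` is a scalar times an element of it. -/
theorem centralizer_Pw [Fintype F] {p : ℕ} [Fact p.Prime] [CharP F p] (hn : 3 ≤ n) {e v f f₂ : V} (he : hh e e = 0)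
    (hv : hh v v = 0) (hve : hh v e = 0) (hfe : hh f e = 1) (hfv : hh f v = 0) (hf₂v : hh f₂ v = 1)
    (hf₂e : hh f₂ e = 0) {z : SUn}
    (hz : ∀ A ∈ Pw q (Submodule.span F {e, v}), z * A = A * z) :
    ∃ A ∈ Pw q (Submodule.span F {e, v}), (QuotientGroup.mk z : PU) = QuotientGroup.mk A := by
  set W : Submodule F V := Submodule.span F {e, v} with hW
  have heW : e ∈ W := Submodule.subset_span (by simp)
  have hvW : v ∈ W := Submodule.subset_span (by simp)
  have hev := herm_eq_zero_symm hc.form hve
  have hind : ∀ a b : F, a • e + b • v = 0 → a = 0 ∧ b = 0 := fun a b h => by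
    have h1 := congrArg (fun u => hh u f) h
    have h2 := congrArg (fun u => hh u f₂) h
    simp [hc.form.add_left, hc.form.smul_left, herm_eq_one_symm hc.form hfe, herm_eq_zero_symm hc.form hfv,
      herm_eq_one_symm hc.form hf₂v, herm_eq_zero_symm hc.form hf₂e, herm_zero_left hc.form] at h1 h2
    exact ⟨h1, h2⟩
  have he0 : e ≠ 0 := fun h => by rw [h, herm_zero_right hc.form] at hfe; exact zero_ne_one hfe
  have hv0 : v ≠ 0 := fun h => by rw [h, herm_zero_right hc.form] at hf₂v; exact zero_ne_one hf₂v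
  have hWW : ∀ w ∈ W, ∀ w' ∈ W, hh w w' = 0 := by
    intro w hw w' hw'
    obtain ⟨a, b, rfl⟩ := Submodule.mem_span_pair.1 hw
    obtain ⟨a', b', rfl⟩ := Submodule.mem_span_pair.1 hw'
    simp [hc.form.add_left, hc.form.smul_left, herm_add_right hc.form, herm_smul_right hc.form, he, hv, hve, hev]
  obtain ⟨δ, hδ0, hδ⟩ := exists_skew hc.form.ne_refl hc.form.involutive
  have hδs : δ + σ δ = 0 := by rw [hδ, add_neg_cancel]
  have hline : ∀ w ∈ W, w ≠ 0 → ∃ r : F, r * σ r = 1 ∧ act z w = r • w := by
    intro w hw hw0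
    have hww := hWW w hw w hw
    have hT : TU w δ ∈ Pw q W :=
      ⟨fun x hx => by rw [TU_act hc hww hδs, hWW x hx w hw, mul_zero, zero_smul, add_zero],
        fun x hx => by rw [TU_act hc hww hδs, hx w hw, mul_zero, zero_smul, add_zero, sub_self]; exact zero_mem _⟩
    have h1 : z * TU w δ * z⁻¹ = TU w δ := by rw [mul_inv_eq_iff_eq_mul, hz _ hT]
    rw [conj_TU hc z hww hδs] at h1
    obtain ⟨r, hr, hrr⟩ := TU_eq_param hc (iso_self hc z hww) hww hδs hδs hδ0 (act_ne_zero z hw0) h1
    exact ⟨r, mul_right_cancel₀ hδ0 (by rw [← hrr, one_mul]), hr⟩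
  obtain ⟨r, hrn, hre⟩ := hline e heW he0
  obtain ⟨r₂, -, hrv⟩ := hline v hvW hv0
  have hr2 : r₂ = r := by
    obtain ⟨s, -, hs⟩ := hline (e + v) (add_mem heW hvW) fun h => by
      have := (hind 1 1 (by simpa using h)).1
      exact one_ne_zero this
    rw [act_add, hre, hrv, smul_add] at hs
    obtain ⟨h1, h2⟩ := hind (r - s) (r₂ - s) (by linear_combination (norm := module) hs)
    rw [sub_eq_zero.1 h2, sub_eq_zero.1 h1]
  subst hr2
  have hr0 : r₂ ≠ 0 := fun h => by rw [h, zero_mul] at hrn; exact zero_ne_one hrn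
  have hperp : ∀ x, (∀ w ∈ W, hh x w = 0) → act z x = r₂ • x := by
    intro x hx
    obtain ⟨z', hz'⟩ := exists_trace_eq hc.form.ne_refl hc.form.involutive (a := -hh x x)
      (by rw [map_neg, herm_self_fixed hc.form])
    have hz'' : z' + σ z' + hh x x = 0 := by linear_combination hz'
    have key : ∀ (d g : V), d ∈ W → hh d d = 0 → hh g d = 1 → act z d = r₂ • d → ∃ k : F, act z x = r₂ • x + k • d := by
      intro d g hdW hdd hgd hrd
      have hxd := hx d hdW
      have hE : EU d x z' ∈ Pw q W := by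
        refine ⟨fun y hy => ?_, fun y hy => ?_⟩
        · rw [EU_act hc hdd hxd hz'', hWW y hy d hdW, herm_eq_zero_symm hc.form (hx y hy)]
          module
        · rw [EU_act hc hdd hxd hz'', hy d hdW]
          have e : y + (0 : F) • (x + z' • d) - hh y x • d - y = (-hh y x) • d := by module
          rw [e]
          exact W.smul_mem _ hdW
      have h1 := congrArg (fun B : SUn => act B g) (hz _ hE)
      simp only [act_mul, EU_act hc hdd hxd hz'', hgd, one_smul, sub_eq_add_neg, ← neg_smul, act_add, act_smul,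
        hrd] at h1
      have hzd : hh (act z g) d = r₂ := by
        have h2 := iso z g d
        rw [hrd, herm_smul_right hc.form, hgd] at h2
        linear_combination r₂ * h2 - hh (act z g) d * hrn
      rw [hzd] at h1
      exact ⟨hh g x * r₂ - hh (act z g) x, by linear_combination (norm := module) h1⟩
    obtain ⟨k, hk⟩ := key e f heW he hfe hre
    obtain ⟨k', hk'⟩ := key v f₂ hvW hv hf₂v hrv
    have hk0 : k = 0 := (hind k (-k') (by linear_combination (norm := module) hk' - hk)).1
    rw [hk, hk0, zero_smul, add_zero]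
  have hdp : ∀ u, (∀ x, (∀ w ∈ W, hh x w = 0) → hh u x = 0) → u ∈ W := by
    intro u hu
    have hue : hh u e = 0 := hu e fun w hw => hWW e heW w hw
    have huv : hh u v = 0 := hu v fun w hw => hWW v hvW w hw
    set u' := u - hh u f • e - hh u f₂ • v with hu'
    suffices h0 : u' = 0 by
      have e' : u = hh u f • e + hh u f₂ • v := by rw [hu'] at h0; linear_combination (norm := module) h0
      rw [e']
      exact add_mem (W.smul_mem _ heW) (W.smul_mem _ hvW)
    by_contra h0
    obtain ⟨y, hy⟩ := (hc.form.nondegenerate u' h0).2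
    obtain ⟨y', hy'⟩ : ∃ y', y' = y - hh y e • f - hh y v • f₂ := ⟨_, rfl⟩
    have hy'W : ∀ w ∈ W, hh y' w = 0 := by
      intro w hw
      obtain ⟨a, b, rfl⟩ := Submodule.mem_span_pair.1 hw
      simp [hy', herm_sub_left hc.form, hc.form.smul_left, herm_add_right hc.form, herm_smul_right hc.form, hfe, hfv,
        hf₂v, hf₂e]
      ring
    apply hy
    have h1 : hh u' y' = 0 := by
      rw [hu', herm_sub_left hc.form, herm_sub_left hc.form, hc.form.smul_left, hc.form.smul_left, hu y' hy'W,
        herm_eq_zero_symm hc.form (hy'W e heW), herm_eq_zero_symm hc.form (hy'W v hvW)]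
      ring
    have h2 : hh u' f = 0 := by
      simp [hu', herm_sub_left hc.form, hc.form.smul_left, herm_eq_one_symm hc.form hfe,
        herm_eq_zero_symm hc.form hfv]
    have h3 : hh u' f₂ = 0 := by
      simp [hu', herm_sub_left hc.form, hc.form.smul_left, herm_eq_one_symm hc.form hf₂v,
        herm_eq_zero_symm hc.form hf₂e]
    rw [show y = y' + hh y e • f + hh y v • f₂ by rw [hy']; abel, herm_add_right hc.form, herm_add_right hc.form,
      herm_smul_right hc.form, herm_smul_right hc.form, h1, h2, h3]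
    ring
  set M : Matrix (Fin n) (Fin n) F := r₂⁻¹ • sMat z with hM
  have hact : ∀ x, M *ᵥ x = r₂⁻¹ • act z x := fun x => by rw [hM, smul_mulVec]; rfl
  have hiso : ∀ x y, hh (M *ᵥ x) (M *ᵥ y) = hh x y := fun x y => by
    have hn1 : r₂⁻¹ * σ r₂⁻¹ = 1 := by rw [map_inv₀, ← mul_inv, hrn, inv_one]
    rw [hact, hact, hc.form.smul_left, herm_smul_right hc.form, iso, ← mul_assoc, hn1, one_mul]
  have hfixP : ∀ x, (∀ w ∈ W, hh x w = 0) → M *ᵥ x = x := fun x hx => by
    rw [hact, hperp x hx, smul_smul, inv_mul_cancel₀ hr0, one_smul]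
  have hdiff : ∀ y, M *ᵥ y - y ∈ W := fun y => hdp _ fun x hx => by
    rw [herm_sub_left hc.form]
    conv_lhs => enter [1, 5]; rw [← hfixP x hx]
    rw [hiso, sub_self]
  have hnil : (M - 1) ^ 2 = (0 : Matrix (Fin n) (Fin n) F) := ext_mulVec fun y => by
    rw [zero_mulVec, pow_two, ← mulVec_mulVec, sub_mulVec M 1 y, one_mulVec, sub_mulVec, one_mulVec,
      hfixP _ fun w hw => hWW _ (hdiff y) w hw, sub_self]
  have hdet : M.det = 1 := by
    haveI : Nonempty (Fin n) := ⟨⟨0, by omega⟩⟩
    have h1 : M ^ p = 1 := by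
      have h2 := add_pow_expChar_pow_of_commute (p := p) (n := 1) (x := M - 1) (Commute.one_right (M - 1))
      rwa [sub_add_cancel, pow_one, one_pow, pow_eq_zero_of_le (Fact.out : p.Prime).two_le hnil, zero_add] at h2
    have h3 := congrArg Matrix.det h1
    rw [det_pow, det_one] at h3
    have h4 : (M.det - 1) ^ p = 0 := by rw [sub_pow_char, h3, one_pow, sub_self]
    exact sub_eq_zero.1 (pow_eq_zero_iff (Fact.out : p.Prime).ne_zero |>.1 h4)
  refine ⟨mkSU M hdet hiso, ⟨fun x hx => ?_, fun x _ => ?_⟩, (mk_eq_iff hc hn).2 ⟨r₂⁻¹, fun x => ?_⟩⟩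
  · rw [act_mkSU]; exact hfixP x fun w hw => hWW x hx w hw
  · rw [act_mkSU]; exact hdiff x
  · rw [act_mkSU, hact]

/-- Moving the partner of `v` by an Eichler element. -/
theorem exists_EU_move {v f : V} (hv : hh v v = 0) (hff : hh f f = 0) (hfv : hh f v = 1) {A : SUn}
    (hA : act A v = v) :
    ∃ w z, hh w v = 0 ∧ z + σ z + hh w w = 0 ∧ w = act A f - f - z • v ∧ z = hh (act A f) f ∧
      act (EU (q := q) v w z) f = act A f := by
  have hvf := herm_eq_one_symm hc.form hfv
  have h1 : hh (act A f) v = 1 := by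
    conv_lhs => arg 5; rw [← hA]
    rw [iso, hfv]
  obtain ⟨z, hzdef⟩ : ∃ z, z = hh (act A f) f := ⟨_, rfl⟩
  obtain ⟨w, hwdef⟩ : ∃ w, w = act A f - f - z • v := ⟨_, rfl⟩
  have hwe : hh w v = 0 := by simp [hwdef, herm_sub_left hc.form, hc.form.smul_left, h1, hfv, hv]
  have hwf : hh w f = 0 := by simp [hwdef, herm_sub_left hc.form, hc.form.smul_left, hff, hvf, ← hzdef]
  have hAf : act A f = f + w + z • v := by rw [hwdef]; abel
  have hz : z + σ z + hh w w = 0 := by
    have h := iso A f f
    rw [hff, hAf] at h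
    simp only [hc.form.add_left, hc.form.smul_left, herm_add_right hc.form, herm_smul_right hc.form, hff, hv, hfv,
      hvf, hwe, hwf, herm_eq_zero_symm hc.form hwe, herm_eq_zero_symm hc.form hwf] at h
    linear_combination h
  exact ⟨w, z, hwe, hz, hwdef, hzdef, by rw [EU_apply_f hc hv hfv hwe hwf hz, hAf]⟩

theorem nondeg_pair {e f : V} (he : hh e e = 0) (hff : hh f f = 0) (hfe : hh f e = 1) :
    NondegOnH hh (Submodule.span F {e, f}) := by
  intro x hx hx0
  obtain ⟨a, b, rfl⟩ := Submodule.mem_span_pair.1 hx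
  by_cases ha : a = 0
  · have hb : b ≠ 0 := fun hb => hx0 (by simp [ha, hb])
    exact ⟨e, Submodule.subset_span (by simp), by simp [hc.form.add_left, hc.form.smul_left, he, hfe, ha, hb]⟩
  · exact ⟨f, Submodule.subset_span (by simp),
      by simp [hc.form.add_left, hc.form.smul_left, hff, herm_eq_one_symm hc.form hfe, ha]⟩

/-- The stabiliser of an isotropic vector is generated by its `p`-elements. -/
theorem fix_le [Finite F] {p : ℕ} [Fact p.Prime] [CharP F p] {e : V} (he0 : e ≠ 0) (he : hh e e = 0)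
    {H : Subgroup SUn} (hH : ∀ A : SUn, act A e = e → ∀ k : ℕ, A ^ (p ^ k) = 1 → A ∈ H) {g : SUn}
    (hg : act g e = e) : g ∈ H := by
  obtain ⟨f, hff, hfe⟩ := exists_partner hc he0 he
  obtain ⟨w, z, hwe, hz, -, -, hwz⟩ := exists_EU_move hc he hff hfe hg
  have hE := EU_mem hc he hwe hz
  have hEH : EU e w z ∈ H := hH _ hE.1 2 (Qr_pow hc he0 he hE)
  suffices key : ∀ (m : ℕ) (W : Submodule F V) (g : SUn), NondegOnH hh W → Module.finrank F W = m →
      W ≤ hperp hc.form (Submodule.span F {e, f}) → g ∈ fixS q (hperp hc.form W) → g ∈ H by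
    have h0 : (EU e w z)⁻¹ * g ∈ fixS q (hperp hc.form (hperp hc.form (Submodule.span F {e, f}))) := by
      rw [(nondeg_pair hc he hff hfe).hperp_hperp hc.form]
      refine mem_fixS_span ?_
      rintro x (h | h)
      · rw [h, act_mul, hg]; exact ((inv_mem hE : _ ∈ Qr q e)).1
      · rw [Set.mem_singleton_iff.1 h, act_mul, ← hwz, act_inv]
    have := key _ _ _ ((nondeg_pair hc he hff hfe).hperp hc.form) rfl le_rfl h0
    simpa using mul_mem hEH this
  intro m
  induction m with
  | zero =>
    intro W g _ hm _ hfix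
    have : g = 1 := ext_su fun x => by
      rw [hfix x (fun w hw => ?_), act_one]
      rw [Submodule.finrank_eq_zero.1 hm, Submodule.mem_bot] at hw
      rw [hw, herm_zero_right hc.form]
    rw [this]
    exact one_mem _
  | succ m ih =>
    intro W g hW hm hWM hfix
    obtain ⟨r, hr, hrr⟩ := hW.exists_aniso hc.form (by omega)
    obtain ⟨d, hd, hdd⟩ := exists_unit_of_aniso hc.form hr hrr
    have hmap : act g d ∈ W := by
      rw [← hW.hperp_hperp hc.form]
      intro b hb
      rw [← hfix b hb, iso]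
      exact herm_eq_zero_symm hc.form (hb d hd)
    have hW' := hW.inf_unit hc.form hd hdd
    have hfr := finrank_inf_unit hc.form hd hdd
    have hperpW : ∀ w ∈ W, ∀ b, b ∈ hperp hc.form W → hh b w = 0 := fun w hw b hb => hb w hw
    by_cases hm0 : m = 0
    · subst hm0
      have hd0 : d ≠ 0 := fun h => by simp [h, herm_zero_left hc.form] at hdd
      have hspan : Submodule.span F {d} = W := Submodule.eq_of_le_of_finrank_eq (by simpa using hd)
        (by rw [finrank_span_singleton hd0, hm])
      obtain ⟨k, hk⟩ := Submodule.mem_span_singleton.1 (hspan.symm ▸ hmap : act g d ∈ Submodule.span F {d})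
      have htv : sMat g = tv d ((k - 1) • hvec hh d) := by
        refine ext_mulVec fun x => ?_
        obtain ⟨a, ha, b, hb, rfl⟩ := hW.exists_decomp hc.form x
        obtain ⟨s, rfl⟩ := Submodule.mem_span_singleton.1 (hspan.symm ▸ ha : a ∈ Submodule.span F {d})
        show act g _ = _
        rw [act_add, act_smul, ← hk, hfix b hb, tv_mulVec, smul_dotProduct, hvec_dot hc.form, hc.form.add_left,
          hc.form.smul_left, hdd, hb d hd, smul_eq_mul]
        module
      have hk1 : k = 1 := by
        have h1 : (sMat g).det = 1 := (g : Matrix.SpecialLinearGroup (Fin n) F).2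
        rw [htv, det_tv, smul_dotProduct, hvec_dot hc.form, hdd, smul_eq_mul, mul_one, add_sub_cancel] at h1
        exact h1
      have : g = 1 := ext_su fun x => by
        show sMat g *ᵥ x = _
        rw [htv, hk1, sub_self, zero_smul, tv_zero_right, one_mulVec, act_one]
      rw [this]
      exact one_mem _
    -- a product of `p`-elements moving `d` to `g d`
    have hfixe : ∀ A : SUn, A ∈ fixS q (hperp hc.form W) → act A e = e := fun A hA => hA e fun w hw =>
      herm_eq_zero_symm hc.form ((hWM hw) e (Submodule.subset_span (by simp)))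
    set H' := H ⊓ fixS q (hperp hc.form W) with hH'
    have hpel : ∀ A : SUn, A ∈ fixS q (hperp hc.form W) → ∀ k : ℕ, A ^ (p ^ k) = 1 → A ∈ H' := fun A hA k hk =>
      Subgroup.mem_inf.2 ⟨hH A (hfixe A hA) k hk, hA⟩
    have huG : uGen hc.form W ≤ H'.map suToGL := by
      refine uGen_le fun v hvW hv c hcs => ⟨TU v c, ?_, Units.ext (ext_mulVec fun x => ?_)⟩
      · refine hpel _ (fun x hx => by rw [TU_act hc hv hcs, hperpW v hvW x hx]; simp) 2 ?_
        rcases eq_or_ne v 0 with rfl | hv0
        · rw [show TU (0 : V) c = (1 : SUn) from ext_su fun x => by rw [TU_act hc hv hcs]; simp, one_pow]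
        · exact Qr_pow hc hv0 hv (TU_mem hc hv hcs)
      · rw [utv_mulVec]; exact TU_act hc hv hcs x
    have plane : ∀ (w : V) (a b : F), w ∈ W → hh w w = 1 → hh d w = 0 →
        hh (a • d + b • w) (a • d + b • w) = 1 → ∃ A ∈ H', act A d = a • d + b • w := by
      intro w a b hw hww hdw hab
      obtain ⟨G, hG, hGd⟩ := exists_move_plane hc.form hd hw hdd hww hdw hab
      obtain ⟨A, hA, rfl⟩ := huG hG
      exact ⟨A, hA, hGd⟩
    obtain ⟨A, hA, hAd⟩ : ∃ A ∈ H', act A d = act g d := by
      set d' := act g d with hd'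
      have hd'd : hh d' d' = 1 := by rw [hd', iso, hdd]
      set a := hh d' d with ha
      by_cases hN : a * σ a = 1
      · obtain ⟨r, hr, hrr⟩ := hW'.exists_aniso hc.form (by omega)
        obtain ⟨w, hw, hww⟩ := exists_unit_of_aniso hc.form hr hrr
        rw [mem_inf_unit] at hw
        obtain ⟨A₁, hA₁, hA₁d⟩ := plane w a 0 hw.1 hww (herm_eq_zero_symm hc.form hw.2) (by
          rw [zero_smul, add_zero, hc.form.smul_left, herm_smul_right hc.form, hdd, mul_one, hN])
        rw [zero_smul, add_zero] at hA₁d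
        rcases eq_or_ne (d' - a • d) 0 with hy0 | hy0
        · exact ⟨A₁, hA₁, by rw [hA₁d, sub_eq_zero.1 hy0]⟩
        set y := d' - a • d with hy
        have hyW : y ∈ W := W.sub_mem hmap (W.smul_mem _ hd)
        have hdd' : hh d d' = σ a := by rw [hc.form.herm, ← ha]
        have hyy : hh y y = 0 := by
          simp only [hy, herm_sub_left hc.form, herm_sub_right hc.form, hc.form.smul_left, herm_smul_right hc.form,
            hdd, hd'd, hdd', ← ha]
          linear_combination -hN
        have hyd : hh (-(a • d)) y = 0 := by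
          simp only [hy, herm_neg_left hc.form, herm_sub_right hc.form, hc.form.smul_left, herm_smul_right hc.form,
            hdd, hdd']
          ring
        obtain ⟨z', hz'⟩ := exists_trace_eq hc.form.ne_refl hc.form.involutive (a := (-1 : F)) (by simp)
        have hz'' : z' + σ z' + hh (-(a • d)) (-(a • d)) = 0 := by
          rw [herm_neg_left hc.form, herm_neg_right hc.form, neg_neg, hc.form.smul_left, herm_smul_right hc.form, hdd]
          linear_combination hz' + hN
        have hEfix : EU y (-(a • d)) z' ∈ fixS q (hperp hc.form W) := fun x hx => by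
          rw [EU_act hc hyy hyd hz'', hperpW y hyW x hx, hperpW _ (W.neg_mem (W.smul_mem _ hd)) x hx]
          module
        refine ⟨EU y (-(a • d)) z' * A₁,
          mul_mem (hpel _ hEfix 2 (Qr_pow hc hy0 hyy (EU_mem hc hyy hyd hz''))) hA₁, ?_⟩
        rw [act_mul, hA₁d, EU_act hc hyy hyd hz'']
        have hyd2 : hh (a • d) y = 0 := by rw [herm_neg_left hc.form, neg_eq_zero] at hyd; exact hyd
        rw [hyd2, herm_neg_right hc.form, hc.form.smul_left, herm_smul_right hc.form, hdd]
        rw [hy]
        linear_combination (norm := module) hN • (d' - a • d)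
      · set y := d' - a • d with hy
        have hyy : hh y y ≠ 0 := by
          simp only [hy, herm_sub_left hc.form, herm_sub_right hc.form, hc.form.smul_left, herm_smul_right hc.form,
            hdd, hd'd, ← ha, show hh d d' = σ a by rw [hc.form.herm, ← ha]]
          intro h
          exact hN (by linear_combination -h)
        obtain ⟨s, hs⟩ := exists_scale hc.form hyy (map_one σ)
        have hs0 : s ≠ 0 := fun h => by simp [h, herm_zero_left hc.form] at hs
        have hdy : hh d y = 0 := by
          rw [hy, herm_sub_right hc.form, herm_smul_right hc.form, hdd, hc.form.herm d d', ← ha, mul_one, sub_self]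
        have he' : d' = a • d + s⁻¹ • s • y := by
          rw [smul_smul, inv_mul_cancel₀ hs0, one_smul, hy]; abel
        obtain ⟨A, hA, hAd⟩ := plane (s • y) a s⁻¹ (W.smul_mem _ (W.sub_mem hmap (W.smul_mem _ hd))) hs
          (by rw [herm_smul_right hc.form, hdy, mul_zero]) (by rw [← he', hd'd])
        exact ⟨A, hA, by rw [hAd, ← he']⟩
    have key : A⁻¹ * g ∈ H := ih _ (A⁻¹ * g) hW' (by omega) (inf_le_left.trans hWM) fun x hx => by
      obtain ⟨a, ha, b, hb, rfl⟩ := hW.exists_decomp hc.form x
      have hae : a = hh a d • d := by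
        by_contra h0
        obtain ⟨u, hu, hne⟩ := hW' (a - hh a d • d) ((mem_inf_unit hc.form).2
          ⟨W.sub_mem ha (W.smul_mem _ hd), by
            rw [herm_sub_left hc.form, hc.form.smul_left, hdd, mul_one, sub_self]⟩) (sub_ne_zero.2 h0)
        have hu' := (mem_inf_unit hc.form).1 hu
        apply hne
        rw [herm_sub_left hc.form, hc.form.smul_left, herm_eq_zero_symm hc.form hu'.2, mul_zero, sub_zero]
        have := hx u hu
        rwa [hc.form.add_left, hb u hu'.1, add_zero] at this
      rw [act_add, hae, act_smul, act_mul A⁻¹ g d, ← hAd, act_inv, act_mul, hfix b hb,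
        (inv_mem (Subgroup.mem_inf.1 hA).2 : A⁻¹ ∈ fixS q (hperp hc.form W)) b hb]
    simpa using mul_mem (Subgroup.mem_inf.1 hA).1 key

end Cfsg.Lib.Fusion.UnitaryRad
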