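import Mathlib
import Cfsg.Prelude.Def_FusionSystem
import Cfsg.Agent.Lib.Fusion.SimpleLieCriterion
import Cfsg.Agent.Lib.Fusion.SpDefining
import Cfsg.Agent.Lib.Fusion.UnitaryRadicals
import Cfsg.Agent.Lib.Classical.UnitaryTransvClass
import Cfsg.Agent.Lib.Transfer.PGroupNormal

/-!
The fusion system of `PSU_n(q)`, `n ≥ 4`, in the defining characteristic is simple.
-/

set_option autoImplicit false

open scoped Classical Pointwise

namespace Cfsg.Lib.Fusion.PSUDefining

open Cfsg Matrix Cfsg.Lib.Classical Cfsg.Lib.Classical.PSUAut Cfsg.Lib.Fusion.UnitaryRad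
open Cfsg.Lib.Classical.UnitaryOrders (num num_formula)

variable {F : Type*} [Field F] {n q : ℕ} {σ : F ≃+* F}

set_option quotPrecheck false in
local notation "V" => (Fin n → F)
set_option quotPrecheck false in
local notation "hh" => (Cfsg.hermForm n F q)
set_option quotPrecheck false in
local notation "SUn" => (↥(Cfsg.SU n F q))
set_option quotPrecheck false in
local notation "PU" => (Cfsg.PSU n F q)
set_option quotPrecheck false in
local notation "π" => (QuotientGroup.mk' (Subgroup.center SUn) : SUn →* PU)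

/-- Frattini: an element normalizing `K ≥ S` can be corrected by `K` to normalize `S`. -/
theorem exists_normalizing {G : Type*} [Group G] [Finite G] {p : ℕ} [Fact p.Prime] (S : Sylow p G) {K : Subgroup G}
    (hSK : (S : Subgroup G) ≤ K) {b : G} (hb : ∀ k ∈ K, b * k * b⁻¹ ∈ K) :
    ∃ k ∈ K, ∀ s ∈ (S : Subgroup G), k * b * s * (k * b)⁻¹ ∈ (S : Subgroup G) := by
  let S₂ : Sylow p G := b • S
  have hmem : ∀ s ∈ (S : Subgroup G), b * s * b⁻¹ ∈ (S₂ : Subgroup G) := fun s hs => by
    rw [Sylow.coe_subgroup_smul, Subgroup.mem_pointwise_smul_iff_inv_smul_mem]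
    simpa [MulAut.conj_symm_apply, MulDistribMulAction.toMulAut, mul_assoc] using hs
  have hS₂K : (S₂ : Subgroup G) ≤ K := by
    intro y hy
    rw [Sylow.coe_subgroup_smul, Subgroup.mem_pointwise_smul_iff_inv_smul_mem] at hy
    have h1 := hb _ (hSK hy)
    simpa [MulAut.conj_symm_apply, MulDistribMulAction.toMulAut, mul_assoc] using h1
  obtain ⟨x, hx⟩ := MulAction.exists_smul_eq K (S₂.subtype hS₂K) (S.subtype hSK)
  refine ⟨x, x.2, fun s hs => ?_⟩
  have h1 : x * ⟨b * s * b⁻¹, hS₂K (hmem s hs)⟩ * x⁻¹ ∈ (S.subtype hSK : Subgroup K) := by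
    rw [← hx, Sylow.coe_subgroup_smul, Subgroup.mem_pointwise_smul_iff_inv_smul_mem]
    simpa [MulAut.conj_symm_apply, MulDistribMulAction.toMulAut, mul_assoc, Subgroup.mem_subgroupOf] using hmem s hs
  have h2 : (x : G) * (b * s * b⁻¹) * (x : G)⁻¹ ∈ (S : Subgroup G) := Subgroup.mem_subgroupOf.1 h1
  convert h2 using 1
  group

theorem mk_map_normalizer [Finite SUn] (H : Subgroup SUn) {h : SUn} (h1 : ∀ u ∈ H, h * u * h⁻¹ ∈ H) :
    (QuotientGroup.mk h : PU) ∈ Subgroup.normalizer ((H.map π : Subgroup PU) : Set PU) := by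
  have hle : (H.map π).map (MulAut.conj (QuotientGroup.mk h : PU)).toMonoidHom ≤ H.map π := by
    rintro _ ⟨_, ⟨u, hu, rfl⟩, rfl⟩
    exact ⟨h * u * h⁻¹, h1 u hu, rfl⟩
  have heq := Subgroup.eq_of_le_of_card_ge hle
    (Subgroup.card_map_of_injective (MulAut.conj (QuotientGroup.mk h : PU)).injective).ge
  refine Subgroup.mem_normalizer_iff.2 fun x => ⟨fun hx => hle ⟨x, hx, rfl⟩, fun hx => ?_⟩
  obtain ⟨z, hz, hze⟩ := heq.ge hx
  rwa [← (MulAut.conj (QuotientGroup.mk h : PU)).injective hze]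

/-- A `p`-group normalized by a Sylow subgroup lies in it. -/
theorem le_sylow_of_normalized {G : Type*} [Group G] {p : ℕ} (S : Sylow p G) {P : Subgroup G}
    (hP : IsPGroup p P) (h : ∀ s ∈ (S : Subgroup G), ∀ x ∈ P, s * x * s⁻¹ ∈ P) : P ≤ S := by
  have hN : (S : Subgroup G) ≤ Subgroup.normalizer (P : Set G) := fun s hs =>
    Subgroup.mem_normalizer_iff.2 fun x => ⟨h s hs x, fun hx => by
      have h1 := h s⁻¹ (inv_mem hs) _ hx
      simpa [mul_assoc] using h1⟩
  exact le_sup_right.trans (S.is_maximal' (S.isPGroup'.to_sup_of_normal_right' hP hN) le_sup_left).le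

variable (hc : Ctx n q σ)
include hc

theorem exists_root [Finite F] (hn : 3 ≤ n) : ∃ e f : V, hh e e = 0 ∧ hh f f = 0 ∧ hh f e = 1 ∧ e ≠ 0 := by
  have hq : (0 : F) ^ q = 0 := by rw [← hc.pow, map_zero]
  obtain ⟨a, ha⟩ := exists_norm_eq hc.form.ne_refl hc.form.involutive (a := (-1 : F)) (by simp)
  let e : V := Pi.single ⟨0, by omega⟩ 1 + a • Pi.single ⟨1, by omega⟩ 1
  have he : hh e e = 0 := by
    show ∑ i, _ * _ ^ q = (0 : F)
    rw [Finset.sum_eq_add (a := (⟨0, by omega⟩ : Fin n)) (b := ⟨1, by omega⟩) (by simp)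
      (fun i _ hi => by simp [e, hi.1, hi.2, hq]) (by simp) (by simp)]
    simp [e, ← hc.pow, ha]
  have he0 : e ≠ 0 := fun h => by
    have := congrFun h ⟨0, by omega⟩
    simp [e] at this
  obtain ⟨f, hff, hfe⟩ := exists_partner hc he0 he
  exact ⟨e, f, he, hff, hfe, he0⟩

theorem prime_dvd_num [Fintype F] {p : ℕ} [Fact p.Prime] [CharP F p] {W : Submodule F V} (hW : NondegOnH hh W)
    (hd : 2 ≤ Module.finrank F W) : p ∣ num hh W 0 := by
  have hF : Fintype.card F = q ^ 2 := Nat.card_eq_fintype_card.symm.trans hc.card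
  have hp : Prime (p : ℤ) := Nat.prime_iff_prime_int.1 Fact.out
  have hpq : p ∣ q := by
    obtain ⟨f, -, hf⟩ := FiniteField.card F p
    exact (Fact.out : p.Prime).dvd_of_dvd_pow (n := 2) (hF ▸ hf ▸ dvd_pow_self p f.ne_zero)
  have hq0 : (q : ℤ) ≠ 0 := by
    intro h
    have h0 : q = 0 := by exact_mod_cast h
    rw [h0] at hF
    simp at hF
  obtain ⟨h, -⟩ := num_formula hc.form hF _ W hW rfl
  obtain ⟨d, hd'⟩ : ∃ d, Module.finrank F W = d + 2 := ⟨_, (Nat.sub_add_cancel hd).symm⟩
  rw [hd'] at h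
  have h1 : (num hh W 0 : ℤ) =
      (q : ℤ) * ((q : ℤ) ^ (2 * d + 2) + (-1) ^ (d + 2) * (q : ℤ) ^ d * ((q : ℤ) - 1)) := by
    refine mul_left_cancel₀ hq0 ?_
    linear_combination h
  have h2 : (p : ℤ) ∣ (num hh W 0 : ℤ) := h1 ▸ dvd_mul_of_dvd_left (by exact_mod_cast hpq) _
  exact_mod_cast h2

theorem exists_iso_perp [Fintype F] {p : ℕ} [Fact p.Prime] [CharP F p] {W : Submodule F V} (hW : NondegOnH hh W)
    (hd : 2 ≤ Module.finrank F W) (act' : SUn → V → V) (R : Subgroup SUn) (hR : IsPGroup p R)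
    (hone : ∀ x ∈ W, act' 1 x = x) (hzero : ∀ s ∈ R, act' s 0 = 0)
    (hmem : ∀ s ∈ R, ∀ x ∈ W, act' s x ∈ W) (hiso : ∀ s ∈ R, ∀ x ∈ W, hh x x = 0 → hh (act' s x) (act' s x) = 0)
    (hmul : ∀ s ∈ R, ∀ t ∈ R, ∀ x ∈ W, act' (s * t) x = act' s (act' t x)) :
    ∃ v ∈ W, hh v v = 0 ∧ v ≠ 0 ∧ ∀ s ∈ R, act' s v = v := by
  let Wt := {x : V // x ∈ W ∧ hh x x = 0}
  letI : MulAction R Wt :=
    { smul := fun s x => ⟨act' s.1 x.1, hmem _ s.2 _ x.2.1, hiso _ s.2 _ x.2.1 x.2.2⟩
      one_smul := fun x => Subtype.ext (hone _ x.2.1)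
      mul_smul := fun s t x => Subtype.ext (hmul _ s.2 _ t.2 _ x.2.1) }
  obtain ⟨⟨v, hvW, hvv⟩, hfix, hne⟩ := hR.exists_fixed_point_of_prime_dvd_card_of_fixed_point Wt
    (prime_dvd_num hc hW hd) (a := (⟨0, W.zero_mem, herm_zero_left hc.form _⟩ : Wt))
    (fun s => Subtype.ext (hzero _ s.2))
  exact ⟨v, hvW, hvv, fun h => hne (Subtype.ext h.symm), fun s hs => congrArg Subtype.val (hfix ⟨s, hs⟩)⟩

theorem exists_scalar [Finite F] (hn : 3 ≤ n) {e f : V} (he : hh e e = 0) (hff : hh f f = 0) (hfe : hh f e = 1)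
    {r : F} (hr : r ≠ 0) : ∃ t : SUn, act t e = r • e := by
  obtain ⟨m, d, hb, hnm⟩ := exists_frame hc hn he hff hfe
  have hσr : σ r ≠ 0 := (map_ne_zero σ).2 hr
  let α : Fin m → F := fun i => if i = ⟨0, by omega⟩ then σ r * r⁻¹ else 1
  obtain ⟨t, ht, -, -⟩ := exists_diag hc hb hr (α := α) (fun i => by
      simp only [α]
      split_ifs
      · rw [map_mul, map_inv₀, hc.form.involutive]; field_simp
      · simp) (by
      rw [Finset.prod_ite_eq' Finset.univ _ (fun _ => σ r * r⁻¹), if_pos (Finset.mem_univ _)]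
      field_simp)
  exact ⟨t, ht⟩

/-- Isotropic vectors are conjugate. -/
theorem exists_move [Finite F] (hn : 3 ≤ n) {u v : V} (hu0 : u ≠ 0) (hu : hh u u = 0) (hv0 : v ≠ 0)
    (hv : hh v v = 0) : ∃ g : SUn, act g u = v := by
  have : Fintype F := Fintype.ofFinite F
  obtain ⟨G, hG, he⟩ := Cfsg.Lib.Classical.UTransv.move_iso hc.form (by rwa [Fintype.card_fin]) hu0 hu hv0 hv
  obtain ⟨g, -, rfl⟩ := uGen_le (H := (⊤ : Subgroup SUn).map Cfsg.Lib.Classical.UTransv.suToGL)
    (fun w _ hw c hcs => ⟨TU w c, trivial, Units.ext (ext_mulVec fun x => by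
      rw [utv_mulVec]; exact TU_act hc hw hcs x)⟩) hG
  exact ⟨g, he⟩

/-- A strongly closed subgroup containing the radical contains the Sylow subgroup. -/
theorem le_of_radical [Fintype F] {p : ℕ} [Fact p.Prime] [CharP F p] (hn : 3 ≤ n) {e : V} (he0 : e ≠ 0)
    (he : hh e e = 0) (S' : Sylow p SUn) {T : Subgroup SUn} (hQS : Qr q e ≤ S') (hQT : Qr q e ≤ T)
    (hcl : ∀ x ∈ T, ∀ g : SUn, g * x * g⁻¹ ∈ (S' : Subgroup SUn) → g * x * g⁻¹ ∈ T) :
    (S' : Subgroup SUn) ≤ T := by
  suffices key : ∀ (k : ℕ) (U : Submodule F V) (R : Subgroup SUn), NondegOnH hh U → n ≤ Module.finrank F U + k →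
      R ≤ S' → R ≤ fixS q U → (∀ P : Subgroup SUn, IsPGroup p P → P ≤ fixS q U → R ≤ P → P ≤ R) → R ≤ T by
    refine key n ⊥ S' (fun w hw hw0 => absurd ((Submodule.mem_bot F).1 hw) hw0) (by omega) le_rfl
      (fun A _ x hx => by rw [(Submodule.mem_bot F).1 hx, act_zero])
      fun P hP _ hle => (S'.is_maximal' hP hle).le
  intro k
  induction k with
  | zero =>
    intro U R _ hk _ hRU _ x hx
    have hU : U = ⊤ := Submodule.eq_top_of_finrank_eq (le_antisymm U.finrank_le (by
      rw [Module.finrank_fintype_fun_eq_card, Fintype.card_fin]; omega))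
    have : x = 1 := ext_su fun y => by rw [hRU hx y (hU ▸ Submodule.mem_top), act_one]
    rw [this]
    exact one_mem _
  | succ k ih =>
    intro U R hU hk hRS hRU hmax
    set W := hperp hc.form U with hW
    have hWn : NondegOnH hh W := hU.hperp hc.form
    have hrank := hU.finrank_add hc.form
    rw [Fintype.card_fin] at hrank
    have hmapW : ∀ A : SUn, A ∈ fixS q U → ∀ x ∈ W, act A x ∈ W := fun A hA x hx u hu => by
      rw [← hA u hu, iso]; exact hx u hu
    by_cases hd : 2 ≤ Module.finrank F W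
    swap
    · intro x hx
      have hfix := hRU hx
      have : x = 1 := by
        rcases Nat.eq_zero_or_pos (Module.finrank F W) with h0 | h0
        · refine ext_su fun y => ?_
          obtain ⟨a, ha, b, hb, rfl⟩ := hU.exists_decomp hc.form y
          rw [show b = 0 from (Submodule.mem_bot F).1 (Submodule.finrank_eq_zero.1 h0 ▸ hb), add_zero, act_one,
            hfix a ha]
        obtain ⟨r, hr, hrr⟩ := hWn.exists_aniso hc.form h0
        obtain ⟨d, hd', hdd⟩ := exists_unit_of_aniso hc.form hr hrr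
        have hd0 : d ≠ 0 := fun h => by simp [h, herm_zero_left hc.form] at hdd
        have hspan : Submodule.span F {d} = W := Submodule.eq_of_le_of_finrank_eq (by simpa using hd')
          (by rw [finrank_span_singleton hd0]; omega)
        obtain ⟨l, hl⟩ := Submodule.mem_span_singleton.1 (hspan.symm ▸ hmapW x hfix d hd' :
          act x d ∈ Submodule.span F {d})
        have htv : sMat x = tv d ((l - 1) • hvec hh d) := by
          refine ext_mulVec fun y => ?_
          obtain ⟨a, ha, b, hb, rfl⟩ := hU.exists_decomp hc.form y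
          obtain ⟨s, rfl⟩ := Submodule.mem_span_singleton.1 (hspan.symm ▸ hb : b ∈ Submodule.span F {d})
          show act x _ = _
          rw [act_add, act_smul, ← hl, hfix a ha, tv_mulVec, smul_dotProduct, hvec_dot hc.form, hc.form.add_left,
            hc.form.smul_left, hdd, herm_eq_zero_symm hc.form (hd' a ha), smul_eq_mul]
          module
        have hl1 : l = 1 := by
          have h1 : (sMat x).det = 1 := (x : Matrix.SpecialLinearGroup (Fin n) F).2
          rw [htv, det_tv, smul_dotProduct, hvec_dot hc.form, hdd, smul_eq_mul, mul_one, add_sub_cancel] at h1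
          exact h1
        exact ext_su fun y => by
          show sMat x *ᵥ y = _
          rw [htv, hl1, sub_self, zero_smul, tv_zero_right, one_mulVec, act_one]
      rw [this]
      exact one_mem _
    obtain ⟨v, hvW, hvv, hv0, hvfix⟩ := exists_iso_perp hc hWn hd (fun s x => act s x) R (S'.isPGroup'.to_le hRS)
      (fun x _ => act_one x) (fun s _ => act_zero s) (fun s hs x hx => hmapW s (hRU hs) x hx)
      (fun s _ x _ hx => iso_self hc s hx) (fun s _ t _ x _ => act_mul s t x)
    obtain ⟨f, hfW, hff, hfv⟩ : ∃ f ∈ W, hh f f = 0 ∧ hh f v = 1 := by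
      obtain ⟨z, hz, hne⟩ := hWn v hvW hv0
      have hzv : hh z v ≠ 0 := fun h => hne (herm_eq_zero_symm hc.form h)
      obtain ⟨x, hxW, hxv⟩ : ∃ x ∈ W, hh x v = 1 :=
        ⟨(hh z v)⁻¹ • z, W.smul_mem _ hz, by rw [hc.form.smul_left, inv_mul_cancel₀ hzv]⟩
      obtain ⟨a, ha⟩ := exists_trace_eq hc.form.ne_refl hc.form.involutive (a := -hh x x)
        (by rw [map_neg, herm_self_fixed hc.form])
      refine ⟨x + a • v, W.add_mem hxW (W.smul_mem _ hvW), ?_, ?_⟩
      · simp only [hc.form.add_left, hc.form.smul_left, herm_add_right hc.form, herm_smul_right hc.form, hvv, hxv,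
          herm_eq_one_symm hc.form hxv]
        linear_combination ha
      · rw [hc.form.add_left, hc.form.smul_left, hvv, hxv, mul_zero, add_zero]
    -- the part of the radical of `v` fixing `U`
    set Q := Qr q v ⊓ fixS q U with hQdef
    have hQp : IsPGroup p Q := fun A => ⟨2, Subtype.ext (by
      rw [SubmonoidClass.coe_pow]; exact Qr_pow hc hv0 hvv (Subgroup.mem_inf.1 A.2).1)⟩
    have hQnorm : ∀ A ∈ fixS q U, act A v = v → A ∈ Subgroup.normalizer (Q : Set SUn) := by
      intro A hA hAv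
      have h1 : ∀ B : SUn, B ∈ fixS q U → act B v = v → ∀ x ∈ Q, B * x * B⁻¹ ∈ Q := fun B hB hBv x hx =>
        Subgroup.mem_inf.2 ⟨Qr_conj hc ⟨1, one_ne_zero, by rw [hBv, one_smul]⟩ (Subgroup.mem_inf.1 hx).1,
          mul_mem (mul_mem hB (Subgroup.mem_inf.1 hx).2) (inv_mem hB)⟩
      refine Subgroup.mem_normalizer_iff.2 fun x => ⟨h1 A hA hAv x, fun hx => ?_⟩
      have h2 := h1 A⁻¹ (inv_mem hA) (by conv_lhs => rw [← hAv, act_inv]) _ hx
      simpa [mul_assoc] using h2
    have hQR : Q ≤ R := le_sup_right.trans (hmax (R ⊔ Q)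
      ((S'.isPGroup'.to_le hRS).to_sup_of_normal_right' hQp fun A hA => hQnorm A (hRU hA) (hvfix A hA))
      (sup_le hRU inf_le_right) le_sup_left)
    set U' : Submodule F V := U ⊔ Submodule.span F {v, f} with hU'
    have hU'n : NondegOnH hh U' := by
      intro w hw hw0
      obtain ⟨a, ha, b, hb, rfl⟩ := Submodule.mem_sup.1 hw
      have hperp : ∀ y ∈ Submodule.span F {v, f}, ∀ u ∈ U, hh y u = 0 := fun y hy u hu => by
        obtain ⟨c, d, rfl⟩ := Submodule.mem_span_pair.1 hy
        simp [hc.form.add_left, hc.form.smul_left, hvW u hu, hfW u hu]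
      by_cases hb0 : b = 0
      · subst hb0
        rw [add_zero] at hw0 ⊢
        obtain ⟨z, hz, hne⟩ := hU a ha hw0
        exact ⟨z, Submodule.mem_sup_left hz, hne⟩
      · obtain ⟨z, hz, hne⟩ := nondeg_pair hc hvv hff hfv b hb hb0
        refine ⟨z, Submodule.mem_sup_right hz, ?_⟩
        rwa [hc.form.add_left, herm_eq_zero_symm hc.form (hperp z hz a ha), zero_add]
    have hlt : U < U' := by
      refine lt_of_le_of_ne le_sup_left fun he' => hv0 ?_
      have hmem : v ∈ U := he'.symm ▸ Submodule.mem_sup_right (Submodule.subset_span (by simp))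
      by_contra h0
      obtain ⟨z, hz, hne⟩ := hU v hmem h0
      exact hne (hvW z hz)
    set R' := R ⊓ fixS q U' with hR'
    have hstep : ∀ r ∈ R, ∃ u ∈ Q, u⁻¹ * r ∈ R' := by
      intro r hr
      obtain ⟨w, z, hwv, hz, hwdef, -, hwz⟩ := exists_EU_move hc hvv hff hfv (hvfix r hr)
      have hwW : w ∈ W := hwdef ▸ W.sub_mem (W.sub_mem (hmapW r (hRU hr) f hfW) hfW) (W.smul_mem _ hvW)
      have hE : EU v w z ∈ Q := Subgroup.mem_inf.2 ⟨EU_mem hc hvv hwv hz, fun x hx => by
        rw [EU_act hc hvv hwv hz, herm_eq_zero_symm hc.form (hvW x hx), herm_eq_zero_symm hc.form (hwW x hx)]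
        module⟩
      refine ⟨_, hE, Subgroup.mem_inf.2 ⟨mul_mem (inv_mem (hQR hE)) hr, ?_⟩⟩
      intro x hx
      obtain ⟨a, ha, b, hb, rfl⟩ := Submodule.mem_sup.1 hx
      obtain ⟨c, d, rfl⟩ := Submodule.mem_span_pair.1 hb
      have ea : act ((EU v w z)⁻¹ * r) a = a :=
        (mul_mem (inv_mem (Subgroup.mem_inf.1 hE).2) (hRU hr) : _ ∈ fixS q U) a ha
      have ev : act ((EU v w z)⁻¹ * r) v = v := by
        rw [act_mul, hvfix r hr]
        exact (inv_mem (Subgroup.mem_inf.1 hE).1 : _ ∈ Qr q v).1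
      have ef : act ((EU v w z)⁻¹ * r) f = f := by rw [act_mul, ← hwz, act_inv]
      rw [act_add, act_add, act_smul, act_smul, ea, ev, ef]
    have hR'T : R' ≤ T := by
      refine ih U' R' hU'n (by have := Submodule.finrank_lt_finrank_of_lt hlt; omega) (inf_le_left.trans hRS)
        inf_le_right fun P hP hPU hRP => ?_
      have hPN : P ≤ Subgroup.normalizer (Q : Set SUn) := fun A hA =>
        hQnorm A (fun x hx => hPU hA x (Submodule.mem_sup_left hx))
          (hPU hA v (Submodule.mem_sup_right (Submodule.subset_span (by simp))))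
      have hPR : P ≤ R := le_sup_left.trans (hmax (P ⊔ Q) (hP.to_sup_of_normal_right' hQp hPN)
        (sup_le (fun A hA x hx => hPU hA x (Submodule.mem_sup_left hx)) inf_le_right) fun r hr => by
          obtain ⟨u, hu, hur⟩ := hstep r hr
          have := mul_mem (Subgroup.mem_sup_right hu : u ∈ P ⊔ Q) (Subgroup.mem_sup_left (hRP hur))
          rwa [mul_inv_cancel_left] at this)
      exact le_inf hPR hPU
    intro r hr
    obtain ⟨u, hu, hur⟩ := hstep r hr
    have huT : u ∈ T := by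
      obtain ⟨g, hg⟩ := exists_move hc hn hv0 hvv he0 he
      have hinv : act g⁻¹ e = v := by rw [← hg, act_inv]
      have h1 : g * u * g⁻¹ ∈ Qr q e := by
        have huQ := (Subgroup.mem_inf.1 hu).1
        refine ⟨by rw [act_mul, act_mul, hinv, huQ.1, hg], fun x hx => ?_⟩
        obtain ⟨a, ha⟩ := huQ.2 (act g⁻¹ x) (by rw [← hinv, iso, hx])
        exact ⟨a, by rw [act_mul, act_mul, ha, act_add, act_smul, act_inv', hg]⟩
      have e' : g⁻¹ * (g * u * g⁻¹) * g⁻¹⁻¹ = u := by group
      exact e' ▸ hcl _ (hQT h1) g⁻¹ (e'.symm ▸ hRS (hQR hu))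
    have := mul_mem huT (hR'T hur)
    rwa [mul_inv_cancel_left] at this

set_option maxHeartbeats 800000 in
/-- The fusion system of `PSU_n(q)`, `n ≥ 4`, in the defining characteristic is simple. -/
theorem isSimple [Fintype F] {p : ℕ} [Fact p.Prime] [CharP F p] (hn : 4 ≤ n) (S : Sylow p PU) :
    (groupFusionSystem (S : Subgroup PU)).IsSimple p := by
  have hn3 : 3 ≤ n := by omega
  obtain ⟨e, f, he, hff, hfe, he0⟩ := exists_root hc hn3
  have hef := herm_eq_one_symm hc.form hfe
  have hQp : IsPGroup p (Qr q e : Subgroup SUn) := fun A => ⟨2, Subtype.ext (by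
    rw [SubmonoidClass.coe_pow]; exact Qr_pow hc he0 he A.2)⟩
  obtain ⟨S', hQS⟩ := hQp.exists_le_sylow
  -- `S'` fixes `e`
  have hline : ∀ u : V, (∀ A ∈ Qr q e, act A u = u) → ∃ r : F, u = r • e := by
    intro u hu
    obtain ⟨δ, hδ0, hδ⟩ := exists_skew hc.form.ne_refl hc.form.involutive
    have hδs : δ + σ δ = 0 := by rw [hδ, add_neg_cancel]
    have h1 := hu _ (TU_mem hc he hδs)
    rw [TU_act hc he hδs, add_eq_left] at h1
    have hue : hh u e = 0 := (mul_eq_zero.1 ((smul_eq_zero.1 h1).resolve_right he0)).resolve_left hδ0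
    have hw : ∀ w, hh w e = 0 → hh u w = 0 := by
      intro w hwe
      obtain ⟨z, hz⟩ := exists_trace_eq hc.form.ne_refl hc.form.involutive (a := -hh w w)
        (by rw [map_neg, herm_self_fixed hc.form])
      have hz' : z + σ z + hh w w = 0 := by linear_combination hz
      have h2 := hu _ (EU_mem hc he hwe hz')
      rw [EU_act hc he hwe hz', hue, zero_smul, add_zero, sub_eq_self] at h2
      exact (smul_eq_zero.1 h2).resolve_right he0
    refine ⟨hh u f, ?_⟩
    by_contra hne
    obtain ⟨y, hy⟩ := (hc.form.nondegenerate (u - hh u f • e) (sub_ne_zero.2 hne)).2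
    apply hy
    have h3 := hw (y - hh y e • f) (by rw [herm_sub_left hc.form, hc.form.smul_left, hfe, mul_one, sub_self])
    rw [herm_sub_right hc.form, herm_smul_right hc.form] at h3
    rw [herm_sub_left hc.form, hc.form.smul_left, hc.form.herm e y]
    linear_combination h3
  have hunip : ∀ {A : SUn}, (∃ k : ℕ, A ^ (p ^ k) = 1) → ∀ r : F, act A e = r • e → act A e = e := by
    rintro A ⟨k, hk⟩ r hr
    have hpow : ∀ j : ℕ, act (A ^ j) e = r ^ j • e := fun j => by
      induction j with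
      | zero => rw [pow_zero, pow_zero, act_one, one_smul]
      | succ j ih => rw [pow_succ, act_mul, hr, act_smul, ih, smul_smul, pow_succ']
    have h1 := hpow (p ^ k)
    rw [hk, act_one] at h1
    have h2 : r ^ (p ^ k) = 1 := (smul_left_injective F he0 (show r ^ (p ^ k) • e = (1 : F) • e by
      rw [one_smul, ← h1]))
    have hr1 : r = 1 := by
      have h4 : (r - 1) ^ (p ^ k) = 0 := by rw [sub_pow_char_pow, h2, one_pow, sub_self]
      exact sub_eq_zero.1 (pow_eq_zero_iff (pow_ne_zero _ (Fact.out : p.Prime).ne_zero) |>.1 h4)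
    rw [hr, hr1, one_smul]
  have hord : ∀ {A : SUn}, A ∈ (S' : Subgroup SUn) → ∃ k : ℕ, A ^ (p ^ k) = 1 := fun {A} hA => by
    obtain ⟨k, hk⟩ := S'.isPGroup' ⟨A, hA⟩
    exact ⟨k, by simpa using congrArg Subtype.val hk⟩
  have hSe : ∀ A ∈ (S' : Subgroup SUn), act A e = e := by
    by_contra hno
    push Not at hno
    obtain ⟨A₀, hA₀, hne₀⟩ := hno
    set R : Subgroup SUn := (S' : Subgroup SUn) ⊓ fixS q (Submodule.span F {e}) with hR
    haveI := S'.isPGroup'.isNilpotent
    have hlt : R.subgroupOf S' < ⊤ := lt_top_iff_ne_top.2 fun h => hne₀ (by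
      have h1 : (⟨A₀, hA₀⟩ : (S' : Subgroup SUn)) ∈ R.subgroupOf S' := h ▸ Subgroup.mem_top _
      exact (Subgroup.mem_inf.1 (Subgroup.mem_subgroupOf.1 h1)).2 e (Submodule.mem_span_singleton_self e))
    obtain ⟨y, hy, hyR⟩ := SetLike.exists_of_lt (Group.normalizerCondition_of_isNilpotent _ hlt)
    obtain ⟨r, hr⟩ := hline (act (y : SUn) e) fun A hA => by
      have hAR : A ∈ R := Subgroup.mem_inf.2 ⟨hQS hA, mem_fixS_span fun x hx => by
        rw [Set.mem_singleton_iff.1 hx]; exact hA.1⟩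
      have h1 : (y⁻¹ : (S' : Subgroup SUn)) * ⟨A, hQS hA⟩ * y⁻¹⁻¹ ∈ R.subgroupOf S' :=
        (Subgroup.mem_normalizer_iff.1 (inv_mem hy) _).1 (Subgroup.mem_subgroupOf.2 hAR)
      have h2 := (Subgroup.mem_inf.1 (Subgroup.mem_subgroupOf.1 h1)).2 e (Submodule.mem_span_singleton_self e)
      simp only [Subgroup.coe_mul, Subgroup.coe_inv, inv_inv, act_mul] at h2
      have h3 := congrArg (act (y : SUn)) h2
      rwa [act_inv'] at h3
    exact hyR (Subgroup.mem_subgroupOf.2 (Subgroup.mem_inf.2 ⟨y.2, mem_fixS_span fun x hx => by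
      rw [Set.mem_singleton_iff.1 hx]; exact hunip (hord y.2) r hr⟩))
  -- a totally isotropic line pair stable under `S'`
  set M := hperp hc.form (Submodule.span F {e, f}) with hM
  have hMn : NondegOnH hh M := (nondeg_pair hc he hff hfe).hperp hc.form
  have hMd : 2 ≤ Module.finrank F M := by
    have h1 := (nondeg_pair hc he hff hfe).finrank_add hc.form
    rw [Fintype.card_fin] at h1
    have h2 : Module.finrank F (Submodule.span F {e, f}) ≤ 2 := by
      have h3 := finrank_span_le_card (R := F) ({e, f} : Set V)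
      refine h3.trans ?_
      rw [Set.toFinset_insert, Set.toFinset_singleton]
      exact Finset.card_le_two
    rw [← hM] at h1
    omega
  have hMmem : ∀ x, x ∈ M ↔ hh x e = 0 ∧ hh x f = 0 := fun x => by
    refine ⟨fun h => ⟨h e (Submodule.subset_span (by simp)), h f (Submodule.subset_span (by simp))⟩,
      fun h w hw => ?_⟩
    obtain ⟨a, b, rfl⟩ := Submodule.mem_span_pair.1 hw
    rw [herm_add_right hc.form, herm_smul_right hc.form, herm_smul_right hc.form, h.1, h.2]
    ring
  have hSperp : ∀ A ∈ (S' : Subgroup SUn), ∀ x ∈ M, hh (act A x) e = 0 := fun A hA x hx => by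
    conv_lhs => arg 5; rw [← hSe A hA]
    rw [iso]; exact ((hMmem x).1 hx).1
  obtain ⟨v, hvM, hvv, hv0, hvfix⟩ := exists_iso_perp hc hMn hMd (fun s x => act s x - hh (act s x) f • e)
    (S' : Subgroup SUn) S'.isPGroup'
    (fun x hx => by simp only [act_one, ((hMmem x).1 hx).2, zero_smul, sub_zero])
    (fun s _ => by simp only [act_zero, herm_zero_left hc.form, zero_smul, sub_zero])
    (fun s hs x hx => (hMmem _).2 ⟨by rw [herm_sub_left hc.form, hc.form.smul_left, he, mul_zero, sub_zero,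
      hSperp s hs x hx], by rw [herm_sub_left hc.form, hc.form.smul_left, hef, mul_one, sub_self]⟩)
    (fun s hs x hx hxx => by
      simp only [herm_sub_left hc.form, herm_sub_right hc.form, hc.form.smul_left, herm_smul_right hc.form, he,
        hSperp s hs x hx, herm_eq_zero_symm hc.form (hSperp s hs x hx), iso, hxx]
      ring)
    (fun s hs t _ x _ => by
      rw [act_mul, sub_eq_add_neg (act t x), act_add, ← neg_smul, act_smul, hSe s hs, hc.form.add_left,
        hc.form.smul_left, hef]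
      module)
  obtain ⟨hve, hvf⟩ := (hMmem v).1 hvM
  have hev := herm_eq_zero_symm hc.form hve
  obtain ⟨f₂, hf₂v, hf₂e⟩ : ∃ f₂, hh f₂ v = 1 ∧ hh f₂ e = 0 := by
    obtain ⟨z, hz, hne⟩ := hMn v hvM hv0
    have hzv : hh z v ≠ 0 := fun h => hne (herm_eq_zero_symm hc.form h)
    exact ⟨(hh z v)⁻¹ • z, by rw [hc.form.smul_left, inv_mul_cancel₀ hzv],
      by rw [hc.form.smul_left, ((hMmem z).1 hz).1, mul_zero]⟩
  set W : Submodule F V := Submodule.span F {e, v} with hW
  have heW : e ∈ W := Submodule.subset_span (by simp)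
  have hvW : v ∈ W := Submodule.subset_span (by simp)
  have hWW : ∀ w ∈ W, ∀ w' ∈ W, hh w w' = 0 := by
    intro w hw w' hw'
    obtain ⟨a, b, rfl⟩ := Submodule.mem_span_pair.1 hw
    obtain ⟨a', b', rfl⟩ := Submodule.mem_span_pair.1 hw'
    simp [hc.form.add_left, hc.form.smul_left, herm_add_right hc.form, herm_smul_right hc.form, he, hvv, hve, hev]
  have hSW : ∀ A ∈ (S' : Subgroup SUn), A ∈ stabS q W := fun A hA => mem_stabS_span (by
    rintro x (hx | hx)
    · rw [hx, hSe A hA]; exact heW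
    · rw [Set.mem_singleton_iff.1 hx]
      have h1 : act A v - hh (act A v) f • e = v := hvfix A hA
      rw [sub_eq_iff_eq_add.1 h1]
      exact W.add_mem hvW (W.smul_mem _ heW))
  have hPp : ∀ A ∈ Pw q W, A ^ (p ^ 2) = 1 := fun A hA =>
    pow_eq_one_of_nilpotent hc (Pw_nilpotent hA hc) (by omega)
  have hPS : Pw q W ≤ (S' : Subgroup SUn) := le_sylow_of_normalized S'
    (fun A => ⟨2, Subtype.ext (by rw [SubmonoidClass.coe_pow]; exact hPp _ A.2)⟩)
    fun s hs x hx => Pw_conj (hSW s hs) hx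
  -- passing to `PSU`
  let S₀ : Sylow p PU := S'.mapSurjective (f := π) (QuotientGroup.mk'_surjective _)
  have hS₀ : (S₀ : Subgroup PU) = (S' : Subgroup SUn).map π := rfl
  have hdesc : ∀ {s u y : SUn}, u ∈ (S' : Subgroup SUn) → y ∈ (S' : Subgroup SUn) →
      (QuotientGroup.mk y : PU) = QuotientGroup.mk (s * u * s⁻¹) → s * u * s⁻¹ = y := by
    intro s u y hu hy h
    obtain ⟨k, hk⟩ := hord hu
    obtain ⟨l, hl⟩ := hord hy
    exact (eq_of_unip_mk hc hn3 hl (k := l) (l := k) (by rw [conj_pow, hk, mul_one, mul_inv_cancel]) h).symm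
  obtain ⟨δ, hδ0, hδ⟩ := exists_skew hc.form.ne_refl hc.form.involutive
  have hδs : δ + σ δ = 0 := by rw [hδ, add_neg_cancel]
  have hTS : ∀ {c : F}, c + σ c = 0 → TU e c ∈ (S' : Subgroup SUn) := fun hcs => hQS (TU_mem hc he hcs)
  refine isSimple_group_of_radicalGens S₀ ?_ ?_ ?_ S
  · rw [hS₀]
    intro h
    refine PT_ne_one hc hn3 he0 he hδs hδ0 ?_
    rw [← Subgroup.mem_bot, ← h]
    exact ⟨_, hTS hδs, rfl⟩
  · -- no strongly closed subgroups
    intro T hT hclosed
    rw [hS₀] at hT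
    rcases eq_or_ne T ⊥ with hT1 | hT1
    · exact Or.inl hT1
    refine Or.inr (le_antisymm (hS₀ ▸ hT) ?_)
    rw [hS₀]
    let T' : Subgroup SUn := T.comap π ⊓ S'
    have hcl : ∀ x ∈ T', ∀ g : SUn, g * x * g⁻¹ ∈ (S' : Subgroup SUn) → g * x * g⁻¹ ∈ T' := by
      intro x hx g hg
      refine Subgroup.mem_inf.2 ⟨?_, hg⟩
      exact hclosed _ (Subgroup.mem_inf.1 hx).1 (QuotientGroup.mk g) (by rw [hS₀]; exact ⟨_, hg, rfl⟩)
    set Sb : Subgroup PU := (S' : Subgroup SUn).map π with hSb
    have hn' : (T.subgroupOf Sb).Normal := ⟨fun x hx g => Subgroup.mem_subgroupOf.2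
      (hclosed x hx g (by rw [hS₀]; exact Sb.mul_mem (Sb.mul_mem g.2 x.2) (Sb.inv_mem g.2)))⟩
    have hne : T.subgroupOf Sb ≠ ⊥ := fun h => hT1 (by
      rw [← Subgroup.map_subgroupOf_eq_of_le hT, h, Subgroup.map_bot])
    obtain ⟨z, hz1⟩ := Subgroup.ne_bot_iff_exists_ne_one.1
      (Cfsg.Lib.Transfer.inf_center_ne_bot (S'.isPGroup'.map π) (T.subgroupOf Sb) hne)
    obtain ⟨c, hcs, hzc⟩ := eq_PT_of_comm hc hn3 he0 he (y := ((z.1 : Sb) : PU)) fun u hu => by
      obtain ⟨A, hA, rfl⟩ := hu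
      exact (congrArg Subtype.val
        (Subgroup.mem_center_iff.1 (Subgroup.mem_inf.1 z.2).2 ⟨π A, A, hQS hA, rfl⟩)).symm
    have hc0 : c ≠ 0 := fun h => hz1 (Subtype.ext (Subtype.ext (by rw [hzc, h, PT_zero hc he]; rfl)))
    have hTc : TU e c ∈ T' := Subgroup.mem_inf.2 ⟨by
      show π (TU e c) ∈ T
      have h1 := (Subgroup.mem_inf.1 z.2).1
      rw [Subgroup.mem_subgroupOf, hzc] at h1
      exact h1, hTS hcs⟩
    -- all transvections of `S'`
    have hTU : ∀ u : V, u ≠ 0 → hh u u = 0 → ∀ d : F, d + σ d = 0 → TU u d ∈ (S' : Subgroup SUn) → TU u d ∈ T' := by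
      intro u hu0 hu d hd hdS
      rcases eq_or_ne d 0 with rfl | hd0
      · rw [TU_zero hc hu]; exact one_mem _
      have hσc : σ c = -c := eq_neg_of_add_eq_zero_right hcs
      have hσd : σ d = -d := eq_neg_of_add_eq_zero_right hd
      obtain ⟨r, hr⟩ := exists_norm_eq hc.form.ne_refl hc.form.involutive (a := d / c)
        (by rw [map_div₀, hσc, hσd, neg_div_neg_eq])
      have hr0 : r ≠ 0 := fun h => by rw [h, zero_mul] at hr; exact div_ne_zero hd0 hc0 hr.symm
      obtain ⟨g, hg⟩ := exists_move hc hn3 he0 he (v := r • u) (smul_ne_zero hr0 hu0)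
        (by rw [hc.form.smul_left, herm_smul_right hc.form, hu]; ring)
      have e' : g * TU e c * g⁻¹ = TU u d := by
        rw [conj_TU hc g he hcs, hg, TU_smul hc hu r hcs, hr, div_mul_cancel₀ _ hc0]
      exact e' ▸ hcl _ hTc g (e'.symm ▸ hdS)
    have hTe : ∀ d : F, d + σ d = 0 → TU e d ∈ T' := fun d hd => hTU e he0 he d hd (hTS hd)
    have hTW : ∀ w ∈ W, ∀ d : F, d + σ d = 0 → TU w d ∈ T' := by
      intro w hw d hd
      have hww := hWW w hw w hw
      rcases eq_or_ne w 0 with rfl | hw0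
      · rw [show TU (0 : V) d = (1 : SUn) from ext_su fun x => by rw [TU_act hc hww hd]; simp]
        exact one_mem _
      exact hTU w hw0 hww d hd (hPS ⟨fun x hx => by rw [TU_act hc hww hd, hWW x hx w hw, mul_zero, zero_smul, add_zero],
        fun x hx => by rw [TU_act hc hww hd, hx w hw, mul_zero, zero_smul, add_zero, sub_self]; exact zero_mem _⟩)
    -- the directions of the radical contained in `T'`
    let 𝒰 : V → Prop := fun w => hh w e = 0 ∧ ∃ z, z + σ z + hh w w = 0 ∧ EU e w z ∈ T'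
    have hadd : ∀ {w w' : V}, 𝒰 w → 𝒰 w' → 𝒰 (w + w') := by
      rintro w w' ⟨hw, z, hz, hm⟩ ⟨hw', z', hz', hm'⟩
      refine ⟨by rw [hc.form.add_left, hw, hw', add_zero], z + z' - hh w' w, ?_, ?_⟩
      · simp only [map_sub, map_add, hc.form.add_left, herm_add_right hc.form]
        rw [← hc.form.herm w w']
        linear_combination hz + hz'
      · exact EU_mul hc he hw hz hw' hz' ▸ mul_mem hm hm'
    have hneg : ∀ {w : V}, 𝒰 w → 𝒰 (-w) := by
      rintro w ⟨hw, z, hz, hm⟩
      have hz0 : (-z - hh w w) + σ (-z - hh w w) + hh (-w) (-w) = 0 := by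
        rw [herm_neg_left hc.form, herm_neg_right hc.form, neg_neg, map_sub, map_neg, herm_self_fixed hc.form]
        linear_combination -hz
      have hnw : hh (-w) e = 0 := by rw [herm_neg_left hc.form, hw, neg_zero]
      refine ⟨hnw, -z - hh w w, hz0, ?_⟩
      have h1 := EU_mul hc he hw hz hnw hz0
      rw [add_neg_cancel, show z + (-z - hh w w) - hh (-w) w = 0 by rw [herm_neg_left hc.form]; ring,
        EU_zero hc he (by simp), TU_zero hc he] at h1
      exact eq_inv_of_mul_eq_one_right h1 ▸ inv_mem hm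
    have hscal : ∀ a : F, 𝒰 (a • v) := by
      intro a
      refine ⟨by rw [hc.form.smul_left, hve, mul_zero], 0, ?_, ?_⟩
      · rw [map_zero, hc.form.smul_left, herm_smul_right hc.form, hvv]; ring
      rcases eq_or_ne a 0 with rfl | ha
      · rw [zero_smul, EU_zero hc he (by simp), TU_zero hc he]; exact one_mem _
      have hzW : (a / δ) • v ∈ W := W.smul_mem _ hvW
      have hav : hh (a • v) e = 0 := by rw [hc.form.smul_left, hve, mul_zero]
      have hδs' : -δ + σ (-δ) = 0 := by rw [map_neg]; linear_combination -hδs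
      have e' : (EU e (a • v) 0 : SUn) = TU (e + (a / δ) • v) δ * (TU e (-δ) * TU ((a / δ) • v) (-δ)) := by
        refine ext_su fun x => ?_
        rw [EU_act hc he hav (by rw [map_zero, hc.form.smul_left, herm_smul_right hc.form, hvv]; ring), act_mul, act_mul,
          TU_act hc (hWW _ hzW _ hzW) hδs', TU_act hc he hδs',
          TU_act hc (hWW _ (W.add_mem heW hzW) _ (W.add_mem heW hzW)) hδs]
        simp only [hc.form.add_left, hc.form.smul_left, herm_add_right hc.form, herm_smul_right hc.form, he, hve,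
          hvv, hev, map_div₀, hδ]
        match_scalars
        all_goals field_simp
        all_goals ring
      rw [e']
      exact mul_mem (hTW _ (W.add_mem heW hzW) _ hδs) (mul_mem (hTW _ heW _ hδs') (hTW _ hzW _ hδs'))
    have hstab : ∀ g : SUn, act g e = e → ∀ {w : V}, 𝒰 w → 𝒰 (act g w) := by
      rintro g hg w ⟨hw, z, hz, hm⟩
      have hgw : hh (act g w) e = 0 := by
        conv_lhs => arg 5; rw [← hg]
        rw [iso, hw]
      refine ⟨hgw, z, by rw [iso, hz], ?_⟩
      have e' : g * EU e w z * g⁻¹ = EU e (act g w) z := by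
        rw [mul_inv_eq_iff_eq_mul]
        refine ext_su fun x => ?_
        rw [act_mul, act_mul, EU_act hc he hw hz, EU_act hc he hgw (by rw [iso, hz]), iso]
        conv_rhs => rw [← hg, iso, hg]
        simp only [sub_eq_add_neg, ← neg_smul, act_add, act_smul, hg]
      exact e' ▸ hcl _ hm g (e'.symm ▸ hQS (EU_mem hc he hgw (by rw [iso, hz])))
    have hmove : ∀ a b : V, (∀ t : F, 𝒰 (t • a)) → b ∈ M → hh b b = 0 → hh a b ≠ 0 → ∀ t : F, 𝒰 (t • b) := by
      intro a b ha hb hbb hab t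
      set k := t / (δ * hh a b) with hk
      have hfixe : act (TU b δ : SUn) e = e := by
        rw [TU_act hc hbb hδs, herm_eq_zero_symm hc.form ((hMmem b).1 hb).1, mul_zero, zero_smul, add_zero]
      have h1 := hadd (hstab _ hfixe (ha k)) (hneg (ha k))
      rw [TU_act hc hbb hδs, hc.form.smul_left, add_neg_cancel_comm] at h1
      convert h1 using 2
      rw [hk]
      field_simp
    obtain ⟨v₁, hv₁M, hv₁v, hv₁⟩ : ∃ v₁ ∈ M, hh v₁ v = 1 ∧ ∀ t : F, 𝒰 (t • v₁) := by
      obtain ⟨z, hz, hne⟩ := hMn v hvM hv0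
      have hzv : hh z v ≠ 0 := fun h => hne (herm_eq_zero_symm hc.form h)
      obtain ⟨x, hxW, hxv⟩ : ∃ x ∈ M, hh x v = 1 :=
        ⟨(hh z v)⁻¹ • z, M.smul_mem _ hz, by rw [hc.form.smul_left, inv_mul_cancel₀ hzv]⟩
      obtain ⟨a, ha⟩ := exists_trace_eq hc.form.ne_refl hc.form.involutive (a := -hh x x)
        (by rw [map_neg, herm_self_fixed hc.form])
      have h1 : hh (x + a • v) v = 1 := by rw [hc.form.add_left, hc.form.smul_left, hvv, hxv, mul_zero, add_zero]
      refine ⟨x + a • v, M.add_mem hxW (M.smul_mem _ hvM), h1, hmove v _ hscal (M.add_mem hxW (M.smul_mem _ hvM)) ?_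
        (by rw [herm_eq_one_symm hc.form h1]; exact one_ne_zero)⟩
      simp only [hc.form.add_left, hc.form.smul_left, herm_add_right hc.form, herm_smul_right hc.form, hvv, hxv,
        herm_eq_one_symm hc.form hxv]
      linear_combination ha
    have hvv₁ : hh v v₁ = 1 := herm_eq_one_symm hc.form hv₁v
    have hall : ∀ w ∈ M, 𝒰 w := by
      intro w hw
      set u := w - hh w v • v₁ - (hh w v₁ - hh w v * hh v₁ v₁) • v with hu
      have huM : u ∈ M := M.sub_mem (M.sub_mem hw (M.smul_mem _ hv₁M)) (M.smul_mem _ hvM)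
      have huv : hh u v = 0 := by
        simp [hu, herm_sub_left hc.form, hc.form.smul_left, hvv, hv₁v]
      have huv₁ : hh u v₁ = 0 := by
        simp only [hu, herm_sub_left hc.form, hc.form.smul_left, hvv₁]
        ring
      obtain ⟨a, ha⟩ := exists_trace_eq hc.form.ne_refl hc.form.involutive (a := -(hh v₁ v₁ + hh u u))
        (by rw [map_neg, map_add, herm_self_fixed hc.form, herm_self_fixed hc.form])
      set b := v₁ + u + a • v with hb
      have hbM : b ∈ M := M.add_mem (M.add_mem hv₁M huM) (M.smul_mem _ hvM)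
      have hbb : hh b b = 0 := by
        simp only [hb, hc.form.add_left, hc.form.smul_left, herm_add_right hc.form, herm_smul_right hc.form, hvv,
          hv₁v, hvv₁, huv, huv₁, herm_eq_zero_symm hc.form huv, herm_eq_zero_symm hc.form huv₁]
        linear_combination ha
      have hbv : hh b v = 1 := by simp [hb, hc.form.add_left, hc.form.smul_left, hvv, hv₁v, huv]
      have h1 := hmove v b hscal hbM hbb (by rw [herm_eq_one_symm hc.form hbv]; exact one_ne_zero) 1
      rw [one_smul] at h1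
      have h2 := hadd (hadd h1 (hscal ((hh w v₁ - hh w v * hh v₁ v₁) - a))) (hv₁ (hh w v - 1))
      convert h2 using 2
      rw [hb, hu]
      module
    have hQT : Qr q e ≤ T' := by
      intro A hA
      obtain ⟨w, z, hwe, hwf, hz, rfl⟩ := EU_param hc he hff hfe hA
      obtain ⟨-, z', hz', hm⟩ := hall w ((hMmem w).2 ⟨hwe, hwf⟩)
      have hd : (z - z') + σ (z - z') = 0 := by rw [map_sub]; linear_combination hz - hz'
      have h0 : z - z' + σ (z - z') + hh (0 : V) 0 = 0 := by rw [herm_zero_left hc.form, add_zero, hd]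
      have e' : (EU e w z : SUn) = EU e w z' * TU e (z - z') := by
        rw [← EU_zero hc he hd, EU_mul hc he hwe hz' (herm_zero_left hc.form e) h0, add_zero,
          herm_zero_left hc.form, sub_zero, add_sub_cancel]
      exact e' ▸ mul_mem hm (hTe _ hd)
    rintro _ ⟨A, hA, rfl⟩
    exact (Subgroup.mem_inf.1 (le_of_radical hc hn3 he0 he S' hQS hQT hcl hA)).1
  · -- the normalizer
    intro g hg
    obtain ⟨s, rfl⟩ := QuotientGroup.mk_surjective g
    rw [hS₀] at hg
    have hnorm' : ∀ t : SUn, (QuotientGroup.mk t : PU) ∈ Subgroup.normalizer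
        (((S' : Subgroup SUn).map π : Subgroup PU) : Set PU) →
        ∀ u ∈ (S' : Subgroup SUn), t * u * t⁻¹ ∈ (S' : Subgroup SUn) := by
      intro t ht u hu
      obtain ⟨y, hy, hye⟩ := (Subgroup.mem_normalizer_iff.1 ht (π u)).1 ⟨u, hu, rfl⟩
      rw [hdesc hu hy hye]
      exact hy
    obtain ⟨c, hcs⟩ := hline (act s e) fun A hA => by
      have h1 := hnorm' s⁻¹ (by rw [QuotientGroup.mk_inv]; exact inv_mem hg) A (hQS hA)
      rw [inv_inv] at h1
      have h2 := congrArg (act s) (hSe _ h1)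
      rwa [act_mul, act_mul, act_inv'] at h2
    have hc0 : c ≠ 0 := fun h => by rw [h, zero_smul] at hcs; exact act_ne_zero s he0 hcs
    set C := Subgroup.closure (((S₀ : Subgroup PU) : Set PU) ∪
      (Subgroup.centralizer ((S₀ : Subgroup PU) : Set PU) : Set PU) ∪ radicalGens (S₀ : Subgroup PU))
    -- an element with the same character on `e`, from the Levi complement of the line pair
    set NW := Subgroup.normalizer (((Pw q W).map π : Subgroup PU) : Set PU) with hNW
    have hSNW : (S₀ : Subgroup PU) ≤ NW := by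
      rw [hS₀]
      rintro _ ⟨u, hu, rfl⟩
      exact mk_map_normalizer _ fun x hx => Pw_conj (hSW u hu) hx
    set K := Subgroup.closure {y | ∃ x ∈ NW, ∃ t ∈ (S₀ : Subgroup PU), y = x * t * x⁻¹} with hK
    obtain ⟨h, hhe, hhK, hhN⟩ : ∃ h : SUn, act h e = c • e ∧ π h ∈ K ∧
        ∀ u ∈ (S' : Subgroup SUn), h * u * h⁻¹ ∈ (S' : Subgroup SUn) := by
      set B := K.comap π ⊓ Pst q e with hB
      set K₀ := K.comap π ⊓ fixS q (Submodule.span F {e}) with hK₀
      have hSK : (S' : Subgroup SUn) ≤ K₀ := fun u hu => Subgroup.mem_inf.2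
        ⟨Subgroup.subset_closure ⟨1, one_mem _, π u, by rw [hS₀]; exact ⟨u, hu, rfl⟩, by simp⟩,
          mem_fixS_span fun x hx => by rw [Set.mem_singleton_iff.1 hx]; exact hSe u hu⟩
      -- a product of root elements with the character `c`
      have hroot : ∀ (t : F) (a b : V) (g₂ : V), a ∈ W → b ∈ W → W ≤ Submodule.span F {a, b} → hh g₂ b = 1 →
          hh g₂ a = 0 → hh g₂ g₂ = 0 → a ≠ 0 →
          ∃ X ∈ K.comap π, act X a = a ∧ act X b = b + t • a := by
        intro t a b g₂ haW hbW hWab hgb hga hgg ha0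
        have haa := hWW a haW a haW
        have hwa : hh ((-σ t) • g₂) a = 0 := by rw [hc.form.smul_left, hga, mul_zero]
        have hz0 : (0 : F) + σ 0 + hh ((-σ t) • g₂) ((-σ t) • g₂) = 0 := by
          rw [map_zero, hc.form.smul_left, herm_smul_right hc.form, hgg]; ring
        have ea : act (EU a ((-σ t) • g₂) 0 : SUn) a = a := (EU_mem hc haa hwa hz0).1
        have eb : act (EU a ((-σ t) • g₂) 0 : SUn) b = b + t • a := by
          rw [EU_act hc haa hwa hz0, hWW b hbW a haW, herm_smul_right hc.form, map_neg, hc.form.involutive,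
            herm_eq_one_symm hc.form hgb]
          module
        refine ⟨_, ?_, ea, eb⟩
        refine Cfsg.Lib.Fusion.SpDefining.mem_closure_conj S₀ hSNW (mk_map_normalizer _ fun x hx => Pw_conj
          (mem_stabS_of fun y hy => ?_) hx) (k := 2) ?_
        · obtain ⟨a', b', rfl⟩ := Submodule.mem_span_pair.1 (hWab hy)
          rw [act_add, act_smul, act_smul, ea, eb]
          exact W.add_mem (W.smul_mem _ haW) (W.smul_mem _ (W.add_mem hbW (W.smul_mem _ haW)))
        · show π _ ^ (p ^ 2) = 1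
          rw [← map_pow, Qr_pow hc ha0 haa (EU_mem hc haa hwa hz0), map_one]
      obtain ⟨f₃, hf₃v, hf₃e, hf₃⟩ : ∃ f₃, hh f₃ v = 1 ∧ hh f₃ e = 0 ∧ hh f₃ f₃ = 0 := by
        obtain ⟨a, ha⟩ := exists_trace_eq hc.form.ne_refl hc.form.involutive (a := -hh f₂ f₂)
          (by rw [map_neg, herm_self_fixed hc.form])
        refine ⟨f₂ + a • v, by rw [hc.form.add_left, hc.form.smul_left, hvv, hf₂v, mul_zero, add_zero],
          by rw [hc.form.add_left, hc.form.smul_left, hve, hf₂e, mul_zero, add_zero], ?_⟩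
        simp only [hc.form.add_left, hc.form.smul_left, herm_add_right hc.form, herm_smul_right hc.form, hvv, hf₂v,
          herm_eq_one_symm hc.form hf₂v]
        linear_combination ha
      have hX : ∀ t : F, ∃ X ∈ K.comap π, act X e = e ∧ act X v = v + t • e := fun t =>
        hroot t e v f₃ heW hvW le_rfl hf₃v hf₃e hf₃ he0
      have hY : ∀ t : F, ∃ X ∈ K.comap π, act X v = v ∧ act X e = e + t • v := fun t =>
        hroot t v e f hvW heW (by rw [hW, Set.pair_comm]) hfe (herm_eq_zero_symm hc.form hvf) hff hv0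
      have hWel : ∀ t : F, t ≠ 0 → ∃ X ∈ K.comap π, act X e = (-t⁻¹) • v ∧ act X v = t • e := by
        intro t ht
        obtain ⟨X, hX1, hX2, hX3⟩ := hX t
        obtain ⟨Y, hY1, hY2, hY3⟩ := hY (-t⁻¹)
        refine ⟨X * Y * X, mul_mem (mul_mem hX1 hY1) hX1, ?_, ?_⟩
        · rw [act_mul, act_mul, hX2, hY3, act_add, act_smul, hX2, hX3]
          match_scalars <;> field_simp <;> ring
        · rw [act_mul, act_mul, hX3, act_add, act_smul, hY2, hY3, act_add, act_smul, act_add, act_smul, hX2, hX3]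
          match_scalars <;> field_simp <;> ring
      obtain ⟨X₁, hX₁, hX₁e, -⟩ := hWel (-1) (by simp)
      obtain ⟨X₂, hX₂, -, hX₂v⟩ := hWel c hc0
      set h₀ := X₂ * X₁ with hh₀
      have hh₀e : act h₀ e = c • e := by
        rw [hh₀, act_mul, hX₁e, act_smul, hX₂v]
        simp
      have hh₀K : h₀ ∈ K.comap π := mul_mem hX₂ hX₁
      obtain ⟨k, hk, hkN⟩ := exists_normalizing S' hSK (b := h₀) fun x hx => Subgroup.mem_inf.2
        ⟨mul_mem (mul_mem hh₀K (Subgroup.mem_inf.1 hx).1) (inv_mem hh₀K), mem_fixS_span fun y hy => by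
          have hinv : act h₀⁻¹ e = c⁻¹ • e := by
            have h1 := congrArg (act h₀⁻¹) hh₀e
            rw [act_inv, act_smul] at h1
            conv_rhs => rw [h1, smul_smul, inv_mul_cancel₀ hc0, one_smul]
          rw [Set.mem_singleton_iff.1 hy, act_mul, act_mul, hinv, act_smul,
            (Subgroup.mem_inf.1 hx).2 e (Submodule.mem_span_singleton_self e), act_smul, hh₀e, smul_smul,
            inv_mul_cancel₀ hc0, one_smul]⟩
      refine ⟨k * h₀, ?_, mul_mem (Subgroup.mem_inf.1 hk).1 hh₀K, hkN⟩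
      rw [act_mul, hh₀e, act_smul, (Subgroup.mem_inf.1 hk).2 e (Submodule.mem_span_singleton_self e)]
    have hhS₀ : (π h : PU) ∈ Subgroup.normalizer ((S₀ : Subgroup PU) : Set PU) := by
      rw [hS₀]; exact mk_map_normalizer _ hhN
    have hhC : (π h : PU) ∈ C := by
      refine Subgroup.subset_closure (Or.inr ⟨hhS₀, (Pw q W).map π, ?_, hSNW, ?_, hhK⟩)
      · rw [hS₀]; exact Subgroup.map_mono hPS
      · intro y hy
        obtain ⟨z, rfl⟩ := QuotientGroup.mk_surjective y
        have hcm : ∀ A ∈ Pw q W, z * A = A * z := fun A hA => by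
          refine mul_inv_eq_iff_eq_mul.1 (hdesc (hPS hA) (hPS hA) ?_)
          rw [QuotientGroup.mk_mul, QuotientGroup.mk_mul, QuotientGroup.mk_inv]
          exact eq_mul_inv_iff_mul_eq.2 (Subgroup.mem_centralizer_iff.1 hy _ ⟨A, hA, rfl⟩)
        obtain ⟨A, hA, hAe⟩ := centralizer_Pw (p := p) hc hn3 he hvv hve hfe (herm_eq_zero_symm hc.form hvf)
          hf₂v hf₂e hcm
        exact ⟨A, hA, hAe.symm⟩
    -- the rest fixes `e`
    set s' := h⁻¹ * s with hs'
    have hs'e : act s' e = e := by rw [hs', act_mul, hcs, ← hhe, act_inv]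
    have hs'N : (QuotientGroup.mk s' : PU) ∈ Subgroup.normalizer ((S₀ : Subgroup PU) : Set PU) := by
      rw [hs', QuotientGroup.mk_mul, QuotientGroup.mk_inv]
      exact mul_mem (inv_mem hhS₀) (hS₀ ▸ hg)
    have hs'C : (QuotientGroup.mk s' : PU) ∈ C := by
      have hSN : (S₀ : Subgroup PU) ≤ Subgroup.normalizer (((Qr q e).map π : Subgroup PU) : Set PU) := by
        rw [hS₀]
        rintro _ ⟨u, hu, rfl⟩
        exact mk_map_normalizer _ fun x hx => Qr_conj hc ⟨1, one_ne_zero, by rw [hSe u hu, one_smul]⟩ hx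
      refine Subgroup.subset_closure (Or.inr ⟨hs'N, (Qr q e).map π, ?_, hSN, ?_, ?_⟩)
      · rw [hS₀]; exact Subgroup.map_mono hQS
      · intro y hy
        obtain ⟨d, hd, rfl⟩ := eq_PT_of_comm hc hn3 he0 he (y := y) fun u hu =>
          (Subgroup.mem_centralizer_iff.1 hy u hu).symm
        exact ⟨_, TU_mem hc he hd, rfl⟩
      · set K' := Subgroup.closure {y | ∃ x ∈ Subgroup.normalizer (((Qr q e).map π : Subgroup PU) : Set PU),
          ∃ t ∈ (S₀ : Subgroup PU), y = x * t * x⁻¹}
        refine fix_le (p := p) hc he0 he (H := K'.comap π) (fun A hA k hk => ?_) hs'e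
        refine Cfsg.Lib.Fusion.SpDefining.mem_closure_conj S₀ hSN (mk_map_normalizer _ fun x hx =>
          Qr_conj hc ⟨1, one_ne_zero, by rw [hA, one_smul]⟩ hx) (k := k) ?_
        show π A ^ (p ^ k) = 1
        rw [← map_pow, hk, map_one]
    have e' : (QuotientGroup.mk s : PU) = π h * QuotientGroup.mk s' := by
      rw [hs', show (π h : PU) = QuotientGroup.mk h from rfl, ← QuotientGroup.mk_mul, mul_inv_cancel_left]
    rw [e']
    exact C.mul_mem hhC hs'C

end Cfsg.Lib.Fusion.PSUDefining
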