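import Mathlib
import Cfsg.Prelude.Def_FusionSystem
import Cfsg.Agent.Lib.Fusion.Alperin

/-!
Subsystems containing the automorphisms of `p`-power order of the centric subgroups.
-/

set_option autoImplicit false

open scoped Classical

namespace Cfsg.Lib.Fusion

open Cfsg Cfsg.FusionSystem

variable {Ω : Type*} [Group Ω] {S : Subgroup Ω} {E F : FusionSystem S} {P Q : Subgroup Ω}
  {f : Ω → Ω} {p : ℕ}

/-- All conjugates of `f` by `Aut_F(S)` are maps of `E`. -/
def InvMor (E F : FusionSystem S) (P : Subgroup Ω) (f : Ω → Ω) : Prop :=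
  P ≤ S ∧ (∀ x ∈ P, f x ∈ S) ∧ ∀ α ∈ F.autGroup S,
    Mor E (img P (autFun α)) (fun y => autFun α (f (autFun α⁻¹ y)))

theorem autFun_inv_apply (α : MulAut S) {x : Ω} (hx : x ∈ S) :
    autFun α⁻¹ (autFun α x) = x := by
  rw [← autFun_mul _ _ hx, inv_mul_cancel, autFun_apply (1 : MulAut S) hx]
  rfl

theorem autFun_apply_inv (α : MulAut S) {x : Ω} (hx : x ∈ S) :
    autFun α (autFun α⁻¹ x) = x := by
  rw [← autFun_mul _ _ hx, mul_inv_cancel, autFun_apply (1 : MulAut S) hx]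
  rfl

theorem autFun_one' {x : Ω} (hx : x ∈ S) : autFun (1 : MulAut S) x = x := by
  rw [autFun_apply _ hx]
  rfl

theorem aut_mor {α : MulAut S} (hα : α ∈ F.autGroup S) (hP : P ≤ S) : Mor F P (autFun α) :=
  ((mem_autGroup_iff le_rfl).1 hα).restrict hP

theorem map_img_le (hP : P ≤ S) (α β : MulAut S) {y : Ω} (hy : y ∈ img P (autFun β)) :
    autFun α y ∈ img P (autFun (α * β)) := by
  have h : img P (autFun β) ≤ ((img P (autFun (α * β))).subgroupOf S |>.comap α.toMonoidHom).map S.subtype := by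
    refine img_le fun x hx => ⟨⟨autFun β x, autFun_mem β (hP hx)⟩, ?_, rfl⟩
    show (α ⟨autFun β x, autFun_mem β (hP hx)⟩ : Ω) ∈ img P (autFun (α * β))
    rw [← autFun_apply α (autFun_mem β (hP hx)), ← autFun_mul _ _ (hP hx)]
    exact mem_img_of_mem hx
  obtain ⟨z, hz, rfl⟩ := h hy
  rw [Subgroup.coe_subtype, autFun_coe]
  exact hz

theorem img_mul (hP : P ≤ S) (α β : MulAut S) :
    img (img P (autFun β)) (autFun α) = img P (autFun (α * β)) := by
  refine le_antisymm (img_le fun y hy => ?_) (img_le fun x hx => ?_)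
  · exact map_img_le hP α β hy
  · rw [autFun_mul _ _ (hP hx)]
    exact mem_img_of_mem (mem_img_of_mem hx)

theorem img_one' (hP : P ≤ S) : img P (autFun (1 : MulAut S)) = P :=
  (img_congr fun x hx => autFun_one' (hP hx)).trans (img_id P)

theorem InvMor.mor (h : InvMor E F P f) : Mor E P f := by
  have h1 := h.2.2 1 (F.autGroup S).one_mem
  rw [img_one' h.1] at h1
  exact h1.congr fun x hx => by
    rw [inv_one, autFun_one' (h.1 hx), autFun_one' (h.2.1 x hx)]

theorem mem_img_inv (hP : P ≤ S) (α : MulAut S) {y : Ω} (hy : y ∈ img P (autFun α)) :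
    autFun α⁻¹ y ∈ P ∧ y ∈ S := by
  have h1 := map_img_le hP α⁻¹ α hy
  rw [inv_mul_cancel, img_one' hP] at h1
  exact ⟨h1, (img_le fun x hx => autFun_mem α (hP hx) : img P (autFun α) ≤ S) hy⟩

theorem InvMor.congr {g : Ω → Ω} (h : InvMor E F P f) (e : ∀ x ∈ P, f x = g x) :
    InvMor E F P g := by
  refine ⟨h.1, fun x hx => e x hx ▸ h.2.1 x hx, fun α hα => (h.2.2 α hα).congr fun y hy => ?_⟩
  rw [e _ (mem_img_inv h.1 α hy).1]

theorem InvMor.conj_aut (h : InvMor E F P f) {β : MulAut S} (hβ : β ∈ F.autGroup S) :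
    InvMor E F (img P (autFun β)) (fun y => autFun β (f (autFun β⁻¹ y))) := by
  refine ⟨img_le fun x hx => autFun_mem β (h.1 hx),
    fun x hx => autFun_mem β (h.2.1 _ (mem_img_inv h.1 β hx).1), fun α hα => ?_⟩
  rw [img_mul h.1]
  refine (h.2.2 (α * β) ((F.autGroup S).mul_mem hα hβ)).congr fun y hy => ?_
  obtain ⟨h1, h2⟩ := mem_img_inv h.1 _ hy
  rw [autFun_mul _ _ (h.2.1 _ h1)]
  have e : autFun (α * β)⁻¹ y = autFun β⁻¹ (autFun α⁻¹ y) := by
    rw [mul_inv_rev, autFun_mul _ _ h2]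
  rw [e]

theorem invMor_conj (hP : P ≤ S) {c : Ω} (hc : c ∈ S) :
    InvMor E F P (fun x => c * x * c⁻¹) := by
  refine ⟨hP, fun x hx => S.mul_mem (S.mul_mem hc (hP hx)) (S.inv_mem hc), fun α hα => ?_⟩
  refine (mor_conj (F := E) (img_le fun x hx => autFun_mem α (hP hx)) (autFun_mem α hc)).congr
    fun y hy => ?_
  obtain ⟨h1, h2⟩ := mem_img_inv hP α hy
  rw [((mem_autGroup_iff le_rfl).1 hα).map_conj hc (hP h1), autFun_apply_inv α h2]

theorem InvMor.comp {g : Ω → Ω} (hg : InvMor E F Q g) (hf : InvMor E F P f)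
    (h : ∀ x ∈ P, f x ∈ Q) : InvMor E F P (fun x => g (f x)) := by
  refine ⟨hf.1, fun x hx => hg.2.1 _ (h x hx), fun α hα => ?_⟩
  refine ((hg.2.2 α hα).comp (hf.2.2 α hα) fun y hy => mem_img_of_mem
    (h _ (mem_img_inv hf.1 α hy).1)).congr fun y hy => ?_
  rw [autFun_inv_apply α (hf.2.1 _ (mem_img_inv hf.1 α hy).1)]

theorem InvMor.inv {j : Ω → Ω} (hf : InvMor E F P f) (hj1 : ∀ x ∈ P, j (f x) = x) :
    InvMor E F (img P f) j := by
  obtain ⟨j', hj', hj'1, hj'2, -⟩ := hf.mor.exists_inv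
  have hje : ∀ y ∈ img P f, j y = j' y := fun y hy => by
    obtain ⟨x, hx, rfl⟩ := hf.mor.mem_img.1 hy
    rw [hj1 x hx, hj'1 x hx]
  refine ⟨hf.mor.img_le_top, fun y hy => (hje y hy).symm ▸ hj'.mem hy, fun α hα => ?_⟩
  obtain ⟨k, hk, hk1, -, -⟩ := (hf.2.2 α hα).exists_inv
  have hsrc : img (img P (autFun α)) (fun y => autFun α (f (autFun α⁻¹ y))) =
      img (img P f) (autFun α) := by
    refine le_antisymm (img_le fun y hy => mem_img_of_mem (mem_img_of_mem (mem_img_inv hf.1 α hy).1))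
      (img_le fun z hz => ?_)
    obtain ⟨x, hx, rfl⟩ := hf.mor.mem_img.1 hz
    have := mem_img_of_mem (f := fun y => autFun α (f (autFun α⁻¹ y)))
      (mem_img_of_mem (f := autFun α) hx)
    simpa [autFun_inv_apply α (hf.1 hx)] using this
  rw [hsrc] at hk
  refine hk.congr fun z hz => ?_
  obtain ⟨w, hw, hwe⟩ := (aut_mor hα hf.mor.img_le_top).mem_img.1 hz
  obtain ⟨x, hx, rfl⟩ := hf.mor.mem_img.1 hw
  subst hwe
  rw [autFun_inv_apply α (hf.2.1 x hx), hj1 x hx]
  have h1 := hk1 _ (mem_img_of_mem (f := autFun α) hx)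
  rwa [autFun_inv_apply α (hf.1 hx)] at h1

/-- `f` is an automorphism of `S` following an invariant map of `E`. -/
def Split (E F : FusionSystem S) (P : Subgroup Ω) (f : Ω → Ω) : Prop :=
  ∃ α ∈ F.autGroup S, ∃ e, InvMor E F P e ∧ ∀ x ∈ P, f x = autFun α (e x)

/-- The maps splitting in this way form a system. -/
def splitSys (hEF : E.IsSubsystemOf F) : FusionSystem S where
  Hom P := {φ | φ ∈ F.Hom P ∧ Split E F P (extFun φ)}
  le_of_mem h := F.le_of_mem h.1
  injective_of_mem h := F.injective_of_mem h.1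
  conj_mem := by
    intro P g hP hg
    refine ⟨F.conj_mem hP hg, 1, (F.autGroup S).one_mem, _, invMor_conj hP hg, fun x hx => ?_⟩
    rw [extFun_apply _ hx, autFun_one' (S.mul_mem (S.mul_mem hg (hP hx)) (S.inv_mem hg))]
    rfl
  comp_mem := by
    rintro P Q φ ψ ⟨hφ, α, hα, e, he, hfe⟩ ⟨hψ, β, hβ, d, hd, hgd⟩ h
    refine ⟨F.comp_mem hφ hψ h, β * α, (F.autGroup S).mul_mem hβ hα,
      fun x => autFun α⁻¹ (d (autFun α (e x))), ?_, fun x hx => ?_⟩
    · have h1 := hd.conj_aut ((F.autGroup S).inv_mem hα)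
      rw [inv_inv] at h1
      refine h1.comp he fun x hx => ?_
      have h2 : extFun φ x ∈ Q := by rw [extFun_apply φ hx]; exact h _
      rw [hfe x hx] at h2
      have h3 := mem_img_of_mem (f := autFun α⁻¹) h2
      rwa [autFun_inv_apply α (he.2.1 x hx)] at h3
    · have h2 : extFun φ x ∈ Q := by rw [extFun_apply φ hx]; exact h _
      have h1 : extFun (ψ.comp (φ.codRestrict Q h)) x = extFun ψ (extFun φ x) := by
        rw [extFun_apply _ hx, extFun_apply φ hx, extFun_apply ψ (h _)]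
        rfl
      rw [hfe x hx] at h2
      rw [h1, hfe x hx, hgd _ h2, autFun_mul _ _ (autFun_mem _ (hd.2.1 _ h2)),
        autFun_apply_inv α (hd.2.1 _ h2)]
  inv_mem := by
    rintro P φ ⟨hφ, α, hα, e, he, hfe⟩
    obtain ⟨ψ, hψ, hψe⟩ := F.inv_mem hφ
    obtain ⟨j, hj, hj1, -, -⟩ := he.mor.exists_inv
    refine ⟨ψ, ⟨hψ, α⁻¹, (F.autGroup S).inv_mem hα, fun y => autFun α (j (autFun α⁻¹ y)), ?_,
      fun y hy => ?_⟩, hψe⟩
    · have h1 := (he.inv hj1).conj_aut hα
      have hr : φ.range = img (img P e) (autFun α) := by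
        rw [range_eq_img hφ, img_congr hfe, he.mor.img_comp]
      rw [hr]
      exact h1
    · obtain ⟨x, rfl⟩ := hy
      have h1 : φ x = autFun α (e x) := by rw [← extFun_coe φ x]; exact hfe x x.2
      rw [extFun_apply ψ ⟨x, rfl⟩, hψe x, h1]
      dsimp only
      rw [autFun_inv_apply α (he.2.1 x x.2), hj1 x x.2,
        autFun_inv_apply α (he.1 x.2)]

theorem mor_splitSys_iff {hEF : E.IsSubsystemOf F} :
    Mor (splitSys hEF) P f ↔ Mor F P f ∧ Split E F P f := by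
  constructor
  · rintro ⟨φ, ⟨hφ, α, hα, e, he, hfe⟩, hφe⟩
    exact ⟨⟨φ, hφ, hφe⟩, α, hα, e, he, fun x hx => by rw [← hfe x hx, extFun_apply φ hx, hφe ⟨x, hx⟩]⟩
  · rintro ⟨hf, α, hα, e, he, hfe⟩
    obtain ⟨φ, hφ, hφe⟩ := hf.exists_hom
    exact ⟨φ, ⟨hφ, α, hα, e, he, fun x hx => by rw [extFun_apply φ hx, hφe ⟨x, hx⟩, hfe x hx]⟩, hφe⟩

/-- The `p`-elements of `Aut_F(P)`. -/
def pElts (p : ℕ) (F : FusionSystem S) (P : Subgroup Ω) : Subgroup (F.autGroup P) :=
  Subgroup.closure {α : F.autGroup P | ∃ k : ℕ, orderOf α = p ^ k}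

theorem pElts_conj {P : Subgroup Ω} (γ : F.autGroup P) {a : F.autGroup P} (ha : a ∈ pElts p F P) :
    γ * a * γ⁻¹ ∈ pElts p F P := by
  have h : pElts p F P ≤ (pElts p F P).comap (MulAut.conj γ).toMonoidHom := by
    refine (Subgroup.closure_le _).2 fun b hb => ?_
    obtain ⟨k, hk⟩ := hb
    refine Subgroup.subset_closure ⟨k, ?_⟩
    show orderOf (MulAut.conj γ b) = _
    rw [MulEquiv.orderOf_eq, hk]
  exact h ha

instance pElts_normal {P : Subgroup Ω} : (pElts p F P).Normal :=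
  ⟨fun _ ha γ => pElts_conj γ ha⟩

/-- The transported `p`-automorphisms of a centric subgroup lie in `E`. -/
theorem invMor_of_pElts [Finite S] (h : ∀ P : Subgroup Ω, F.IsCentric P →
      (pElts p F P).map (F.autGroup P).subtype ≤ E.autGroup P)
    (hP : F.IsCentric P) {γ : F.autGroup P} (hγ : γ ∈ pElts p F P) :
    InvMor E F P (autFun (γ : MulAut P)) := by
  refine ⟨hP.1, fun x hx => hP.1 (autFun_mem _ hx), fun α hα => ?_⟩
  have hm := aut_mor hα hP.1
  obtain ⟨e, he⟩ := hm.exists_equiv (Q := img P (autFun α)) rfl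
  let r : F.autGroup P →* F.autGroup (img P (autFun α)) :=
    ((MulAut.congr e).toMonoidHom.comp (F.autGroup P).subtype).codRestrict _ fun a =>
      hm.map_autGroup_le e he ⟨a, a.2, rfl⟩
  have hr : r γ ∈ pElts p F (img P (autFun α)) := by
    have hle : pElts p F P ≤ (pElts p F (img P (autFun α))).comap r := by
      refine (Subgroup.closure_le _).2 fun b hb => ?_
      obtain ⟨k, hk⟩ := hb
      refine Subgroup.subset_closure ⟨k, ?_⟩
      rw [orderOf_injective r (fun a b hab => Subtype.ext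
        ((MulAut.congr e).injective (congrArg Subtype.val hab))), hk]
    exact hle hγ
  have hE := (mem_autGroup_iff hm.img_le_top).1
    (h _ (centric_of_isConj hP hm.isConj) ⟨_, hr, rfl⟩)
  refine hE.congr fun y hy => ?_
  obtain ⟨x, hx, rfl⟩ := hm.mem_img.1 hy
  rw [← he ⟨x, hx⟩, autFun_coe]
  show ((MulAut.congr e (γ : MulAut P)) (e ⟨x, hx⟩) : Ω) = _
  rw [show (MulAut.congr e (γ : MulAut P)) (e ⟨x, hx⟩) = e ((γ : MulAut P) ⟨x, hx⟩) by
    simp [MulAut.congr], he, he]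
  rw [autFun_inv_apply α (hP.1 hx), autFun_apply _ hx]

/-- Every map is an automorphism of `S` following an invariant map of `E`. -/
theorem split_of_mor [Finite S] [Fact p.Prime] (hS : IsPGroup p S) (hF : F.IsSaturated p)
    (hEF : E.IsSubsystemOf F)
    (h : ∀ P : Subgroup Ω, F.IsCentric P → (pElts p F P).map (F.autGroup P).subtype ≤ E.autGroup P) :
    ∀ P f, Mor F P f → Split E F P f := by
  suffices key : ∀ P f, Mor F P f → Mor (splitSys hEF) P f from
    fun P f hf => (mor_splitSys_iff.1 (key P f hf)).2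
  refine mor_le_of_centric_radical_ih hS hF fun P hP hPc _ ih α hα => ?_
  have hαm := (mem_autGroup_iff hP.1).1 hα
  by_cases hPS : P = S
  · subst hPS
    refine mor_splitSys_iff.2 ⟨hαm, α, hα, fun x => x,
      (invMor_conj (E := E) (F := F) le_rfl P.one_mem).congr fun x _ => by simp, fun x _ => rfl⟩
  have := finite_mulAut_of_le hP.1
  obtain ⟨hc, ha⟩ := fullyNormalized_axiom hS hF hP
  obtain ⟨-, R, hR⟩ := ha
  set K := pElts p F P with hK
  have hRK : (R : Subgroup (F.autGroup P)) ≤ K := fun r hr => by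
    refine Subgroup.subset_closure ?_
    obtain ⟨k, hk⟩ := IsPGroup.iff_orderOf.1 R.2 ⟨r, hr⟩
    exact ⟨k, by rwa [Subgroup.orderOf_mk] at hk⟩
  have htop := R.normalizer_sup_eq_top' hRK
  have hmem : (⟨α, hα⟩ : F.autGroup P) ∈ K ⊔ Subgroup.normalizer ((R : Subgroup (F.autGroup P)) : Set (F.autGroup P)) := by
    rw [sup_comm]; exact htop.ge (Subgroup.mem_top _)
  rw [← SetLike.mem_coe, Subgroup.normal_mul] at hmem
  obtain ⟨κ, hκ, η, hη, hκη⟩ := hmem
  have hlt : P < extN S P (autFun (η : MulAut P)) := by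
    refine lt_of_le_of_ne ((mem_autGroup_iff hP.1).1 η.2).le_extN fun e => ?_
    obtain ⟨-, c, hc', hcP⟩ := SetLike.lt_iff_le_and_exists.1
      (normalizer_growth hS le_rfl (lt_of_le_of_ne hP.1 hPS))
    refine hcP ?_
    rw [e]
    have hcG : conjAut S P ⟨c, hc'⟩ ∈ F.autGroup P :=
      autInducedBy_le_autGroup hP.1 (range_conjAut S P ▸ ⟨_, rfl⟩)
    have hcR : (⟨_, hcG⟩ : F.autGroup P) ∈ (R : Subgroup (F.autGroup P)) := by
      rw [hR, Subgroup.mem_subgroupOf]
      exact range_conjAut S P ▸ ⟨_, rfl⟩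
    have h2 : η * ⟨_, hcG⟩ * η⁻¹ ∈ (autInducedBy S P).subgroupOf (F.autGroup P) :=
      hR ▸ (Subgroup.mem_normalizer_iff.1 hη _).1 hcR
    exact mem_extN_of_conj_mem hc' h2
  have hηmor := mor_autFun_of_extN (fullyCentralized_axiom hS hF hc) η.2 hlt ih
  have hκmor : Mor (splitSys hEF) P (autFun (κ : MulAut P)) := mor_splitSys_iff.2
    ⟨(mem_autGroup_iff hP.1).1 κ.2, 1, (F.autGroup S).one_mem, _, invMor_of_pElts h hPc hκ,
      fun x hx => (autFun_one' (hP.1 (autFun_mem _ hx))).symm⟩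
  refine (hκmor.comp hηmor fun x hx => autFun_mem _ hx).congr fun x hx => ?_
  rw [← autFun_mul _ _ hx, ← Subgroup.coe_mul, show κ * η = ⟨α, hα⟩ from hκη]

/-- The consequences: index prime to `p`, and the same centric subgroups. -/
theorem primeIndex_of_centrics [Finite S] [Fact p.Prime] (hS : IsPGroup p S) (hF : F.IsSaturated p)
    (hEF : E.IsSubsystemOf F)
    (h : ∀ P : Subgroup Ω, F.IsCentric P → (pElts p F P).map (F.autGroup P).subtype ≤ E.autGroup P) :
    E.HasPrimeToPIndexIn F p ∧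
    (∀ (P : Subgroup Ω) (φ : P →* Ω), φ ∈ F.Hom P → ∃ α ∈ F.autGroup S, ∃ φ₀ ∈ E.Hom P,
      ∀ (x : P) (hx : φ₀ x ∈ S), φ x = ((α ⟨φ₀ x, hx⟩ : S) : Ω)) ∧
    ∀ P : Subgroup Ω, E.IsCentric P ↔ F.IsCentric P := by
  have hsplit := split_of_mor hS hF hEF h
  refine ⟨⟨hEF, fun P hP => ?_⟩, fun P φ hφ => ?_, fun P => ⟨fun hE => ⟨hE.1, fun Q hQ c hc => ?_⟩,
    fun hPc => ⟨hPc.1, fun Q hQ => hPc.2 Q ?_⟩⟩⟩
  · rw [Subgroup.map_le_iff_le_comap, Subgroup.closure_le]
    rintro γ ⟨k, hk⟩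
    show (γ : MulAut P) ∈ E.autGroup P
    have := finite_mulAut_of_le hP
    obtain ⟨Q, hQ, hQn⟩ := exists_fullyNormalized F hP
    obtain ⟨g, hg, hgi⟩ := isConj_iff.1 hQ
    have hzp : IsPGroup p (Subgroup.zpowers (γ : MulAut P)) := by
      refine IsPGroup.of_card (n := k) ?_
      rw [Nat.card_zpowers, Subgroup.orderOf_coe, hk]
    obtain ⟨e0, he0⟩ := hg.exists_equiv hgi
    obtain ⟨δ, hδ, hδA⟩ := exists_conj_le_autInducedBy (fullyNormalized_axiom hS hF hQn).2
      (A := (Subgroup.zpowers (γ : MulAut P)).map (MulAut.congr e0).toMonoidHom)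
      ((Subgroup.map_mono ((Subgroup.zpowers_le).2 γ.2)).trans (hg.map_autGroup_le e0 he0))
      (hzp.map _)
    obtain ⟨s, hs, hse⟩ := mem_autInducedBy_iff.1 (hδA _ ⟨_, Subgroup.mem_zpowers _, rfl⟩)
    have hgQ : ∀ x ∈ P, g x ∈ Q := fun x hx => hgi ▸ mem_img_of_mem hx
    have hm : Mor F P (fun x => autFun δ (g x)) := ((mem_autGroup_iff hQn.1).1 hδ).comp hg hgQ
    obtain ⟨α, hα, e, he, hfe⟩ := hsplit P _ hm
    have hkey : ∀ x ∈ P, autFun δ (g (autFun (γ : MulAut P) x)) = s * autFun δ (g x) * s⁻¹ := by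
      intro x hx
      have h1 := hse _ (autFun_mem δ (hgQ x hx))
      rw [autFun_mul _ _ (autFun_mem δ (hgQ x hx)),
        autFun_mul _ _ (autFun_mem _ (autFun_mem δ (hgQ x hx))),
        ← autFun_mul δ⁻¹ δ (hgQ x hx), inv_mul_cancel, autFun_apply (1 : MulAut Q) (hgQ x hx),
        MulAut.one_apply] at h1
      rw [← h1]
      congr 1
      have h2 := autFun_congr_apply e0 (γ : MulAut P) ⟨x, hx⟩
      rw [he0] at h2
      show g (autFun (γ : MulAut P) x) = autFun (MulAut.congr e0 (γ : MulAut P)) (g x)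
      rw [h2, he0, autFun_apply _ hx]
    set s' := autFun α⁻¹ s with hs'
    have hkey' : ∀ x ∈ P, e (autFun (γ : MulAut P) x) = s' * e x * s'⁻¹ := by
      intro x hx
      have h1 := hkey x hx
      have e1 := hfe _ (autFun_mem (γ : MulAut P) hx)
      have e2 := hfe x hx
      dsimp only at e1 e2
      rw [e1, e2] at h1
      have h2 := congrArg (autFun α⁻¹) h1
      have hαi := (mem_autGroup_iff le_rfl).1 ((F.autGroup S).inv_mem hα)
      rwa [autFun_inv_apply α (he.2.1 _ (autFun_mem _ hx)),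
        hαi.map_conj hs (autFun_mem α (he.2.1 x hx)), autFun_inv_apply α (he.2.1 x hx)] at h2
    obtain ⟨j, hj, hj1, -, -⟩ := he.mor.exists_inv
    have hmem : ∀ x ∈ P, s' * e x * s'⁻¹ ∈ img P e := fun x hx =>
      hkey' x hx ▸ mem_img_of_mem (autFun_mem _ hx)
    refine (mem_autGroup_iff hP).2 ((hj.comp ((mor_conj (he.mor.img_le_top)
      (autFun_mem α⁻¹ hs)).comp he.mor fun x hx => mem_img_of_mem hx) hmem).congr fun x hx => ?_)
    show j (s' * e x * s'⁻¹) = autFun (γ : MulAut P) x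
    rw [← hkey' x hx, hj1 _ (autFun_mem _ hx)]
  · obtain ⟨α, hα, e, he, hfe⟩ := hsplit P _ (mor_extFun hφ)
    obtain ⟨φ₀, hφ₀, hφe⟩ := he.mor.exists_hom
    refine ⟨α, hα, φ₀, hφ₀, fun x hx => ?_⟩
    rw [← extFun_coe φ x, hfe x x.2, ← hφe x, autFun_apply α hx]
  · obtain ⟨f, hf, rfl⟩ := isConj_iff.1 hQ
    obtain ⟨α, hα, e, he, hfe⟩ := hsplit P f hf
    obtain ⟨hcS, hcC⟩ := mem_centralizerIn_iff.1 hc
    have hαi := (mem_autGroup_iff le_rfl).1 ((F.autGroup S).inv_mem hα)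
    have h1 : autFun α⁻¹ c ∈ img P e := hE.2 _ he.mor.isConj (mem_centralizerIn_iff.2
      ⟨autFun_mem _ hcS, fun y hy => by
        obtain ⟨x, hx, rfl⟩ := he.mor.mem_img.1 hy
        have h2 := hcC _ (mem_img_of_mem (f := f) hx)
        rw [hfe x hx] at h2
        have h3 := hαi.map_conj hcS (autFun_mem α (he.2.1 x hx))
        rw [h2, autFun_inv_apply α (he.2.1 x hx)] at h3
        exact h3.symm⟩)
    obtain ⟨x, hx, hxe⟩ := he.mor.mem_img.1 h1
    have h4 : c = f x := by rw [hfe x hx, hxe, autFun_apply_inv α hcS]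
    exact h4 ▸ mem_img_of_mem hx
  · obtain ⟨f, hf, hi⟩ := isConj_iff.1 hQ
    exact isConj_iff.2 ⟨f, hf.of_subsystem hEF, hi⟩

end Cfsg.Lib.Fusion
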