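import Mathlib
import Cfsg.Prelude.Def_FusionSystem
import Cfsg.Prelude.Def_TwoFusion
import Cfsg.Agent.Lib.Fusion.Alperin

/-!
Systems over a product of two strongly closed subgroups.
-/

set_option autoImplicit false
set_option linter.style.haveILetI false

open scoped Classical

namespace Cfsg.Lib.Fusion.ProductClosed

open Cfsg Cfsg.FusionSystem Cfsg.Lib.Fusion

universe u

variable {Ω : Type u} [Group Ω] {p : ℕ} {S S₁ S₂ : Subgroup Ω} {F : FusionSystem S}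

/-- The hypotheses. -/
structure Data (p : ℕ) (F : FusionSystem S) (S₁ S₂ : Subgroup Ω) : Prop where
  pgroup : IsPGroup p S
  sat : F.IsSaturated p
  prod : IsInternalDirectProduct S₁ S₂ S
  closed₁ : F.StronglyClosed S₁
  closed₂ : F.StronglyClosed S₂

/-- Maps extending so as to fix `S₂`. -/
def Fixes (F : FusionSystem S) (S₂ P : Subgroup Ω) (f : Ω → Ω) : Prop :=
  ∃ k, Mor F (P ⊔ S₂) k ∧ (∀ x ∈ P, k x = f x) ∧ ∀ s ∈ S₂, k s = s

namespace Data

variable (d : Data p F S₁ S₂) {P X : Subgroup Ω} {f : Ω → Ω}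
include d

theorem le₁ : S₁ ≤ S := d.prod.1
theorem le₂ : S₂ ≤ S := d.prod.2.1
theorem comm {a b : Ω} (ha : a ∈ S₁) (hb : b ∈ S₂) : a * b = b * a := d.prod.2.2.1 a ha b hb

theorem le_centralizer (hP : P ≤ S₁) : S₂ ≤ centralizerIn S P := fun s hs =>
  mem_centralizerIn_iff.2 ⟨d.le₂ hs, fun x hx => by rw [← d.comm (hP hx) hs, mul_inv_cancel_right]⟩

theorem exists_mul {x : Ω} (hP : P ≤ S₁) (hx : x ∈ P ⊔ S₂) : ∃ y ∈ P, ∃ s ∈ S₂, y * s = x := by
  rw [← SetLike.mem_coe, Subgroup.coe_mul_of_left_le_normalizer_right P S₂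
    (fun y hy => StronglyClosed.le_normalizer d.closed₂ (d.le₁ (hP hy)))] at hx
  exact hx

theorem exists_mul_top {x : Ω} (hx : x ∈ S) : ∃ a ∈ S₁, ∃ b ∈ S₂, a * b = x :=
  d.exists_mul le_rfl (d.prod.2.2.2.2.symm ▸ hx)

theorem card_split [Finite S] {H : Subgroup Ω} (hH : H ≤ S) (hproj : ∀ a ∈ S₁, ∀ b ∈ S₂, a * b ∈ H → a ∈ H) :
    Nat.card H = Nat.card ↥(S₁ ⊓ H) * Nat.card ↥(S₂ ⊓ H) := by
  rw [← Nat.card_prod]
  refine (Nat.card_congr (Equiv.ofBijective (fun t : ↥(S₁ ⊓ H) × ↥(S₂ ⊓ H) =>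
    (⟨(t.1 : Ω) * t.2, H.mul_mem (Subgroup.mem_inf.1 t.1.2).2 (Subgroup.mem_inf.1 t.2.2).2⟩ : H)) ⟨fun t u htu => ?_, fun x => ?_⟩)).symm
  · have h1 : (t.1 : Ω) * t.2 = u.1 * u.2 := congrArg Subtype.val htu
    have h2 : (u.1 : Ω)⁻¹ * t.1 = u.2 * (t.2 : Ω)⁻¹ := by
      rw [eq_mul_inv_iff_mul_eq, mul_assoc, h1, inv_mul_cancel_left]
    have h3 : (u.1 : Ω)⁻¹ * t.1 ∈ S₁ ⊓ S₂ := ⟨S₁.mul_mem (S₁.inv_mem (Subgroup.mem_inf.1 u.1.2).1) (Subgroup.mem_inf.1 t.1.2).1,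
      h2 ▸ S₂.mul_mem (Subgroup.mem_inf.1 u.2.2).1 (S₂.inv_mem (Subgroup.mem_inf.1 t.2.2).1)⟩
    rw [d.prod.2.2.2.1, Subgroup.mem_bot, inv_mul_eq_one] at h3
    rw [h3] at h1
    exact Prod.ext (Subtype.ext h3.symm) (Subtype.ext (mul_left_cancel h1))
  · obtain ⟨a, ha, b, hb, he⟩ := d.exists_mul_top (hH x.2)
    have haH : a ∈ H := hproj a ha b hb (he ▸ x.2)
    have hbH : b ∈ H := by
      have := H.mul_mem (H.inv_mem haH) x.2
      rwa [← he, inv_mul_cancel_left] at this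
    exact ⟨(⟨a, ha, haH⟩, ⟨b, hb, hbH⟩), Subtype.ext he⟩

theorem card_normalizerIn [Finite S] (hP : P ≤ S₁) :
    Nat.card (normalizerIn S P) = Nat.card (normalizerIn S₁ P) * Nat.card S₂ := by
  have h2 : S₂ ≤ normalizerIn S P := (d.le_centralizer hP).trans centralizerIn_le_normalizerIn
  rw [d.card_split normalizerIn_le (fun a ha b hb hab => by
    have := (normalizerIn S P).mul_mem hab ((normalizerIn S P).inv_mem (h2 hb))
    rwa [mul_inv_cancel_right] at this), inf_eq_left.2 h2]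
  congr 1
  show Nat.card ↥(S₁ ⊓ (S ⊓ _)) = Nat.card ↥(S₁ ⊓ _)
  rw [← inf_assoc, inf_eq_left.2 d.le₁]

theorem card_centralizerIn [Finite S] (hP : P ≤ S₁) :
    Nat.card (centralizerIn S P) = Nat.card ↥(S₁ ⊓ centralizerIn S P) * Nat.card S₂ := by
  rw [d.card_split centralizerIn_le (fun a ha b hb hab => by
    have := (centralizerIn S P).mul_mem hab ((centralizerIn S P).inv_mem (d.le_centralizer hP hb))
    rwa [mul_inv_cancel_right] at this), inf_eq_left.2 (d.le_centralizer hP)]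

theorem card_centralizerIn_sup [Finite S] (hP : P ≤ S₁) :
    Nat.card (centralizerIn S (P ⊔ S₂)) =
      Nat.card ↥(S₁ ⊓ centralizerIn S P) * Nat.card ↥(S₂ ⊓ centralizerIn S S₂) := by
  have hmem : ∀ c, c ∈ centralizerIn S (P ⊔ S₂) ↔ c ∈ centralizerIn S P ∧ c ∈ centralizerIn S S₂ := by
    intro c
    rw [mem_centralizerIn_iff, mem_centralizerIn_iff, mem_centralizerIn_iff]
    refine ⟨fun h => ⟨⟨h.1, fun x hx => h.2 x (Subgroup.mem_sup_left hx)⟩, h.1, fun x hx => h.2 x (Subgroup.mem_sup_right hx)⟩, fun h => ⟨h.1.1, fun x hx => ?_⟩⟩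
    obtain ⟨y, hy, s, hs, rfl⟩ := d.exists_mul hP hx
    rw [show c * (y * s) * c⁻¹ = (c * y * c⁻¹) * (c * s * c⁻¹) by group, h.1.2 y hy, h.2.2 s hs]
  have h1 : ∀ a ∈ S₁, a ∈ centralizerIn S S₂ := fun a ha =>
    mem_centralizerIn_iff.2 ⟨d.le₁ ha, fun s hs => by rw [d.comm ha hs, mul_inv_cancel_right]⟩
  rw [d.card_split centralizerIn_le (fun a ha b hb hab => by
    obtain ⟨h3, -⟩ := (hmem _).1 hab
    refine (hmem a).2 ⟨?_, h1 a ha⟩
    have := (centralizerIn S P).mul_mem h3 ((centralizerIn S P).inv_mem (d.le_centralizer hP hb))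
    rwa [mul_inv_cancel_right] at this)]
  congr 1
  · congr 1
    congr 1
    ext c
    simp only [Subgroup.mem_inf, hmem]
    exact ⟨fun h => ⟨h.1, h.2.1⟩, fun h => ⟨h.1, h.2, h1 c h.1⟩⟩
  · congr 1
    congr 1
    ext c
    simp only [Subgroup.mem_inf, hmem]
    exact ⟨fun h => ⟨h.1, h.2.2⟩, fun h => ⟨h.1, d.le_centralizer hP h.1, h.2⟩⟩

theorem maps₁ (hf : Mor F P f) (hP : P ≤ S₁) {x : Ω} (hx : x ∈ P) : f x ∈ S₁ :=
  StronglyClosed.mem d.closed₁ hf hx (hP hx)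

theorem extend_top [Finite S] [Fact p.Prime] {W : Subgroup Ω} (hW : F.StronglyClosed W)
    (hC : ∀ c ∈ S, ∃ w ∈ W, ∃ z ∈ centralizerIn S W, w * z = c) {α : MulAut W} (hα : α ∈ F.autGroup W) :
    ∃ a ∈ F.autGroup S, ∀ x ∈ W, autFun a x = autFun α x := by
  have hfn : F.IsFullyNormalized W := ⟨hW.1, fun Q hQ => by
    obtain ⟨g, hg, rfl⟩ := Cfsg.Lib.Fusion.isConj_iff.1 hQ
    rw [hg.img_eq_of_card_le hW.1 (fun x hx => StronglyClosed.mem hW hg hx hx) le_rfl]⟩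
  obtain ⟨-, hrec⟩ := isReceptive_iff.1 (receptive_of_fullyNormalized d.pgroup d.sat hfn)
  have hm := (mem_autGroup_iff hW.1).1 hα
  obtain ⟨k, hk, hke⟩ := hrec W _ hm (img_autFun α)
  have hle : S ≤ extN S W (autFun α) := fun c hc => by
    obtain ⟨w, hw, z, hz, rfl⟩ := hC c hc
    exact mul_mem (hm.le_extN hw) (centralizerIn_le_extN hz)
  obtain ⟨a, ha, hae⟩ := (hk.restrict hle).exists_aut
    ((hk.restrict hle).img_eq_of_card_le le_rfl (fun x hx => (hk.restrict hle).mem hx) le_rfl)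
  exact ⟨a, ha, fun x hx => by rw [hae x (hW.1 hx), hke x hx]⟩

theorem extend₁ [Finite S] [Fact p.Prime] {α : MulAut S₁} (hα : α ∈ F.autGroup S₁) :
    ∃ a ∈ F.autGroup S, ∀ x ∈ S₁, autFun a x = autFun α x :=
  d.extend_top d.closed₁ (fun c hc => by
    obtain ⟨u, hu, v, hv, he⟩ := d.exists_mul_top hc
    exact ⟨u, hu, v, d.le_centralizer le_rfl hv, he⟩) hα

theorem extend₂ [Finite S] [Fact p.Prime] {α : MulAut S₂} (hα : α ∈ F.autGroup S₂) :
    ∃ a ∈ F.autGroup S, ∀ x ∈ S₂, autFun a x = autFun α x :=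
  d.extend_top d.closed₂ (fun c hc => by
    obtain ⟨u, hu, v, hv, he⟩ := d.exists_mul_top hc
    exact ⟨v, hv, u, mem_centralizerIn_iff.2 ⟨d.le₁ hu, fun s hs => by rw [d.comm hu hs, mul_inv_cancel_right]⟩,
      by rw [← d.comm hu hv, he]⟩) hα

omit d in
theorem inv_apply {W : Subgroup Ω} (a : MulAut W) {x : Ω} (hx : x ∈ W) : autFun a⁻¹ (autFun a x) = x := by
  rw [← autFun_mul a⁻¹ a hx, inv_mul_cancel, autFun_apply _ hx]; rfl

omit d in
theorem apply_inv {W : Subgroup Ω} (a : MulAut W) {x : Ω} (hx : x ∈ W) : autFun a (autFun a⁻¹ x) = x := by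
  simpa using inv_apply a⁻¹ hx

theorem mem₂ {a : MulAut S} (ha : a ∈ F.autGroup S) {x : Ω} (hx : x ∈ S₂) : autFun a x ∈ S₂ :=
  StronglyClosed.mem d.closed₂ ((mem_autGroup_iff le_rfl).1 ha) (d.le₂ hx) hx

theorem mem₁ {a : MulAut S} (ha : a ∈ F.autGroup S) {x : Ω} (hx : x ∈ S₁) : autFun a x ∈ S₁ :=
  StronglyClosed.mem d.closed₁ ((mem_autGroup_iff le_rfl).1 ha) (d.le₁ hx) hx

/-- Factorization for maps onto fully normalized subgroups. -/
theorem factor_full [Finite S] [Fact p.Prime] (hP : P ≤ S₁) (hf : Mor F P f) (hn : F.IsFullyNormalized (img P f)) :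
    ∃ a ∈ F.autGroup S, Fixes F S₂ P (fun x => autFun a⁻¹ (f x)) := by
  obtain ⟨-, hrec⟩ := isReceptive_iff.1 (receptive_of_fullyNormalized d.pgroup d.sat hn)
  obtain ⟨k, hk, hke⟩ := hrec P f hf rfl
  have hle : P ⊔ S₂ ≤ extN S P f := sup_le hf.le_extN ((d.le_centralizer hP).trans centralizerIn_le_extN)
  have hk' := hk.restrict hle
  have hk2 : Mor F S₂ k := hk'.restrict le_sup_right
  obtain ⟨β, hβ, hβe⟩ := hk2.exists_aut (hk2.img_eq_of_card_le d.le₂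
    (fun x hx => StronglyClosed.mem d.closed₂ hk2 hx hx) le_rfl)
  obtain ⟨a, ha, hae⟩ := d.extend₂ hβ
  refine ⟨a, ha, fun x => autFun a⁻¹ (k x), ((mem_autGroup_iff le_rfl).1 (inv_mem ha)).comp hk' (fun x hx => hk'.mem hx),
    fun x hx => ?_, fun s hs => ?_⟩
  · show autFun a⁻¹ (k x) = _
    rw [hke x hx]
  · show autFun a⁻¹ (k s) = s
    rw [← hβe s hs, ← hae s hs, inv_apply a (d.le₂ hs)]

/-- Every map on a subgroup of `S₁` is an automorphism of `S` following a map fixing `S₂`. -/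
theorem factor [Finite S] [Fact p.Prime] (hP : P ≤ S₁) (hf : Mor F P f) :
    ∃ a ∈ F.autGroup S, Fixes F S₂ P (fun x => autFun a⁻¹ (f x)) := by
  have hY : img P f ≤ S₁ := img_le fun x hx => d.maps₁ hf hP hx
  obtain ⟨Q, hQ, hQn⟩ := exists_fullyNormalized F hf.img_le_top
  obtain ⟨g, hg, rfl⟩ := Cfsg.Lib.Fusion.isConj_iff.1 hQ
  obtain ⟨a₂, ha₂, k₂, hk₂, hk₂e, hk₂s⟩ := d.factor_full hY hg hQn
  have hgf : Mor F P (fun x => g (f x)) := hg.comp hf fun x hx => mem_img_of_mem hx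
  obtain ⟨a₁, ha₁, k₁, hk₁, hk₁e, hk₁s⟩ := d.factor_full hP hgf (by rw [hf.img_comp]; exact hQn)
  obtain ⟨j, hj, hj1, -, -⟩ := hk₂.exists_inv
  set a := a₂⁻¹ * a₁ with hadef
  have ha : a ∈ F.autGroup S := mul_mem (inv_mem ha₂) ha₁
  have hval : ∀ x ∈ P, autFun a (k₁ x) = k₂ (f x) := fun x hx => by
    rw [hk₁e x hx, hk₂e _ (mem_img_of_mem hx), hadef, autFun_mul _ _ (autFun_mem _ (hgf.mem hx)),
      apply_inv a₁ (hgf.mem hx)]
  have hdom : ∀ x ∈ P ⊔ S₂, autFun a (k₁ x) ∈ img (img P f ⊔ S₂) k₂ := fun x hx => by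
    obtain ⟨y, hy, s, hs, rfl⟩ := d.exists_mul hP hx
    rw [hk₁.map_mul (Subgroup.mem_sup_left hy) (Subgroup.mem_sup_right hs), hk₁s s hs,
      ((mem_autGroup_iff le_rfl).1 ha).map_mul (hk₁.mem (Subgroup.mem_sup_left hy)) (d.le₂ hs), hval y hy]
    refine mul_mem (mem_img_of_mem (Subgroup.mem_sup_left (mem_img_of_mem hy))) ?_
    have h2 := d.mem₂ ha hs
    rw [← hk₂s _ h2]
    exact mem_img_of_mem (Subgroup.mem_sup_right h2)
  have h3 := hj.comp (((mem_autGroup_iff le_rfl).1 ha).comp hk₁ fun x hx => hk₁.mem hx) hdom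
  refine ⟨a, ha, fun x => autFun a⁻¹ (j (autFun a (k₁ x))),
    ((mem_autGroup_iff le_rfl).1 (inv_mem ha)).comp h3 (fun x hx => h3.mem hx), fun x hx => ?_, fun s hs => ?_⟩
  · show autFun a⁻¹ (j (autFun a (k₁ x))) = _
    rw [hval x hx, hj1 _ (Subgroup.mem_sup_left (mem_img_of_mem hx))]
  · show autFun a⁻¹ (j (autFun a (k₁ s))) = s
    have h2 := d.mem₂ ha hs
    conv_lhs => rw [hk₁s s hs, ← hk₂s _ h2, hj1 _ (Subgroup.mem_sup_right h2)]
    exact inv_apply a (d.le₂ hs)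

/-- Conjugating a fixing map by an automorphism of `S`. -/
theorem fixes_conj {a : MulAut S} (ha : a ∈ F.autGroup S) (hP : P ≤ S₁) (h : Fixes F S₂ P f) :
    Fixes F S₂ (img P (autFun a)) (fun y => autFun a (f (autFun a⁻¹ y))) := by
  obtain ⟨k, hk, hke, hks⟩ := h
  have hA := (mem_autGroup_iff le_rfl).1 ha
  have hA' := (mem_autGroup_iff le_rfl).1 (inv_mem ha)
  have hPS : P ≤ S := hP.trans d.le₁
  have hback : ∀ y ∈ img P (autFun a), autFun a⁻¹ y ∈ P := fun y hy => by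
    obtain ⟨x, hx, rfl⟩ := (hA.restrict hPS).mem_img.1 hy
    rwa [inv_apply a (hPS hx)]
  have hle : img P (autFun a) ⊔ S₂ ≤ S := sup_le (hA.restrict hPS).img_le_top d.le₂
  have hdom : ∀ y ∈ img P (autFun a) ⊔ S₂, autFun a⁻¹ y ∈ P ⊔ S₂ := fun y hy => by
    obtain ⟨z, hz, s, hs, rfl⟩ := d.exists_mul (img_le fun x hx => d.mem₁ ha (hP hx)) hy
    rw [hA'.map_mul (hle (Subgroup.mem_sup_left hz)) (d.le₂ hs)]
    exact mul_mem (Subgroup.mem_sup_left (hback z hz)) (Subgroup.mem_sup_right (d.mem₂ (inv_mem ha) hs))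
  refine ⟨fun y => autFun a (k (autFun a⁻¹ y)), hA.comp (hk.comp (hA'.restrict hle) hdom) (fun y hy => hk.mem (hdom y hy)),
    fun y hy => ?_, fun s hs => ?_⟩
  · show autFun a (k (autFun a⁻¹ y)) = _
    rw [hke _ (hback y hy)]
  · show autFun a (k (autFun a⁻¹ s)) = s
    rw [hks _ (d.mem₂ (inv_mem ha) hs), apply_inv a (d.le₂ hs)]

theorem main [Finite S] [Fact p.Prime] (R R' : FusionSystem S₁) (hR : ∀ P : Subgroup Ω, P ≤ S₁ → R.Hom P = F.Hom P)
    (hR' : ∀ P : Subgroup Ω, P ≤ S₁ → R'.Hom P = F.centralizerHom S₂ P) :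
    R.IsSaturated p ∧ R'.IsSaturated p ∧ R'.IsNormalIn F p ∧ R'.IsNormalIn R p ∧ R.IsWeaklyNormalIn F p := by
  haveI := finite_of_le d.le₁
  have hp₁ : IsPGroup p S₁ := isPGroup_of_le d.pgroup d.le₁
  have iffR : ∀ {P f}, Mor R P f ↔ P ≤ S₁ ∧ Mor F P f := by
    intro P f
    refine ⟨fun h => ⟨h.le, ?_⟩, fun ⟨hP, h⟩ => ?_⟩
    · obtain ⟨φ, hφ, he⟩ := h.exists_hom
      exact ⟨φ, hR P h.le ▸ hφ, he⟩
    · obtain ⟨φ, hφ, he⟩ := h.exists_hom
      exact ⟨φ, (hR P hP).symm ▸ hφ, he⟩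
  have iffR' : ∀ {P f}, Mor R' P f ↔ P ≤ S₁ ∧ Mor F P f ∧ Fixes F S₂ P f := by
    intro P f
    constructor
    · intro h
      obtain ⟨φ, hφ, he⟩ := h.exists_hom
      rw [hR' P h.le] at hφ
      obtain ⟨hφF, -, -, ψ, hψ, h1, h2⟩ := hφ
      refine ⟨h.le, ⟨φ, hφF, he⟩, extFun ψ, mor_extFun hψ, fun x hx => ?_, fun s hs => ?_⟩
      · exact (extFun_coe ψ (Subgroup.inclusion le_sup_left ⟨x, hx⟩)).trans ((h1 ⟨x, hx⟩).trans (he ⟨x, hx⟩))
      · exact (extFun_coe ψ (Subgroup.inclusion le_sup_right ⟨s, hs⟩)).trans (h2 ⟨s, hs⟩)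
    · rintro ⟨hP, hf, k, hk, hke, hks⟩
      obtain ⟨φ, hφ, he⟩ := hf.exists_hom
      obtain ⟨ψ, hψ, hψe⟩ := hk.exists_hom
      have hc : ∀ {x : Ω}, x ∈ S₁ → x ∈ centralizerIn S S₂ := fun hx =>
        mem_centralizerIn_iff.2 ⟨d.le₁ hx, fun s hs => by rw [d.comm hx hs, mul_inv_cancel_right]⟩
      refine ⟨φ, ?_, he⟩
      rw [hR' P hP]
      refine ⟨hφ, fun x hx => hc (hP hx), fun x => hc (by rw [he x]; exact d.maps₁ hf hP x.2), ψ, hψ, fun x => ?_, fun s => ?_⟩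
      · rw [hψe, he x]; exact hke x x.2
      · rw [hψe]; exact hks s s.2
  have hR'R : R'.IsSubsystemOf R := fun P => hom_subset_iff.2 fun f hf => iffR.2 ⟨(iffR'.1 hf).1, (iffR'.1 hf).2.1⟩
  have hRF : R.IsSubsystemOf F := fun P => hom_subset_iff.2 fun f hf => (iffR.1 hf).2
  have hR'F : R'.IsSubsystemOf F := fun P φ hφ => hRF P (hR'R P hφ)
  have autR : ∀ {P : Subgroup Ω}, P ≤ S₁ → R.autGroup P = F.autGroup P := fun {P} hP => by
    ext α
    rw [mem_autGroup_iff hP, mem_autGroup_iff (hP.trans d.le₁), iffR]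
    exact ⟨fun h => h.2, fun h => ⟨hP, h⟩⟩
  have indR : ∀ {P : Subgroup Ω}, P ≤ S₁ → autInducedBy S₁ P = autInducedBy S P := fun {P} hP => by
    refine le_antisymm (autInducedBy_mono d.le₁) fun α hα => ?_
    obtain ⟨c, hc, he⟩ := mem_autInducedBy_iff.1 hα
    obtain ⟨u, hu, v, hv, rfl⟩ := d.exists_mul_top hc
    refine mem_autInducedBy_iff.2 ⟨u, hu, fun x hx => ?_⟩
    rw [he x hx, show u * v * x * (u * v)⁻¹ = u * (v * x * v⁻¹) * u⁻¹ by group,
      (mem_centralizerIn_iff.1 (d.le_centralizer hP hv)).2 x hx]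
  have fnR : ∀ {P : Subgroup Ω}, R.IsFullyNormalized P → F.IsFullyNormalized P := fun {P} hP => by
    refine ⟨hP.1.trans d.le₁, fun Q hQ => ?_⟩
    obtain ⟨g, hg, rfl⟩ := Cfsg.Lib.Fusion.isConj_iff.1 hQ
    rw [d.card_normalizerIn hP.1, d.card_normalizerIn (img_le fun x hx => d.maps₁ hg hP.1 hx)]
    exact Nat.mul_le_mul_right _ (hP.2 _ (Cfsg.Lib.Fusion.isConj_iff.2 ⟨g, iffR.2 ⟨hP.1, hg⟩, rfl⟩))
  have satR : R.IsSaturated p := by
    refine saturated_of_axioms (fun P hP => ?_) fun P hP => ?_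
    · refine (fullyAutomized_iff hp₁ hP.1).2 ?_
      rw [autR hP.1, indR hP.1]
      exact (fullyAutomized_iff d.pgroup (hP.1.trans d.le₁)).1 (fullyNormalized_axiom d.pgroup d.sat (fnR hP)).2
    · refine isReceptive_iff.2 ⟨hP.1, fun X f hf hi => ?_⟩
      obtain ⟨hX, hfF⟩ := iffR.1 hf
      obtain ⟨k, hk, hke⟩ := (isReceptive_iff.1 (receptive_of_fullyNormalized d.pgroup d.sat (fnR hP))).2 X f hfF hi
      refine ⟨k, iffR.2 ⟨extN_le, hk.restrict fun c hc => ?_⟩, hke⟩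
      obtain ⟨hcn, e, he, hee⟩ := mem_extN.1 hc
      exact mem_extN.2 ⟨Subgroup.mem_inf.2 ⟨d.le₁ (normalizerIn_le hcn), (Subgroup.mem_inf.1 hcn).2⟩, e, d.le₁ he, hee⟩
  have fnR' : ∀ {P : Subgroup Ω}, R'.IsFullyNormalized P → F.IsFullyNormalized P := fun {P} hP => by
    refine ⟨hP.1.trans d.le₁, fun Q hQ => ?_⟩
    obtain ⟨g, hg, rfl⟩ := Cfsg.Lib.Fusion.isConj_iff.1 hQ
    have hQ1 : img P g ≤ S₁ := img_le fun x hx => d.maps₁ hg hP.1 hx
    obtain ⟨a, ha, hfix⟩ := d.factor hP.1 hg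
    have hA' := (mem_autGroup_iff le_rfl).1 (inv_mem ha)
    have hψ : Mor F P (fun x => autFun a⁻¹ (g x)) := hA'.comp hg fun x hx => hg.mem hx
    rw [d.card_normalizerIn hP.1, d.card_normalizerIn hQ1]
    refine Nat.mul_le_mul_right _ (le_trans ?_ (hP.2 _ (Cfsg.Lib.Fusion.isConj_iff.2 ⟨_, iffR'.2 ⟨hP.1, hψ, hfix⟩, rfl⟩)))
    rw [hg.img_comp]
    haveI : Finite ↥(normalizerIn S₁ (img (img P g) (autFun a⁻¹))) := finite_of_le normalizerIn_le
    refine Nat.card_le_card_of_injective (fun c => ⟨autFun a⁻¹ (c : Ω), ?_⟩) fun c c' hcc =>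
      Subtype.ext (hA'.eq_of_eq (d.le₁ (normalizerIn_le c.2)) (d.le₁ (normalizerIn_le c'.2)) (congrArg Subtype.val hcc))
    have hc : (c : Ω) ∈ normalizerIn S (img P g) :=
      Subgroup.mem_inf.2 ⟨d.le₁ (normalizerIn_le c.2), (Subgroup.mem_inf.1 c.2).2⟩
    exact Subgroup.mem_inf.2 ⟨d.mem₁ (inv_mem ha) (normalizerIn_le c.2),
      (Subgroup.mem_inf.1 (hA'.mem_normalizerIn (hQ1.trans d.le₁) (normalizerIn_le hc) hc)).2⟩
  have satR' : R'.IsSaturated p := by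
    refine saturated_of_axioms (fun P hP => ?_) fun P hP => ?_
    · have hPS := hP.1.trans d.le₁
      haveI := finite_mulAut_of_le hP.1
      refine (fullyAutomized_iff hp₁ hP.1).2 ?_
      have h1 := (fullyAutomized_iff d.pgroup hPS).1 (fullyNormalized_axiom d.pgroup d.sat (fnR' hP)).2
      rw [← indR hP.1] at h1
      have hle1 : autInducedBy S₁ P ≤ R'.autGroup P := autInducedBy_le_autGroup hP.1
      have hle2 : R'.autGroup P ≤ F.autGroup P := fun α hα =>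
        (mem_autGroup_iff hPS).2 (iffR'.1 ((mem_autGroup_iff hP.1).1 hα)).2.1
      rw [h1]
      congr 1
      refine le_antisymm (((Fact.out : p.Prime).pow_dvd_iff_le_factorization Nat.card_pos.ne').1 ?_) ?_
      · rw [← h1]; exact Subgroup.card_dvd_of_le hle1
      · exact (Nat.factorization_le_iff_dvd Nat.card_pos.ne' Nat.card_pos.ne').2 (Subgroup.card_dvd_of_le hle2) p
    · refine isReceptive_iff.2 ⟨hP.1, fun X f hf hi => ?_⟩
      obtain ⟨hX, hfF, k, hk, hke, hks⟩ := iffR'.1 hf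
      have hPn := fnR' hP
      have hcP := (fullyNormalized_axiom d.pgroup d.sat hPn).1
      have himg : img (X ⊔ S₂) k = P ⊔ S₂ := by
        rw [hk.img_sup le_sup_left le_sup_right, img_congr hke, hi, img_congr hks, img_id]
      have hfc : F.IsFullyCentralized (P ⊔ S₂) := by
        refine ⟨sup_le hPn.1 d.le₂, fun Q hQ => ?_⟩
        obtain ⟨g, hg, rfl⟩ := Cfsg.Lib.Fusion.isConj_iff.1 hQ
        have hg2 : img S₂ g = S₂ := (hg.restrict le_sup_right).img_eq_of_card_le d.le₂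
          (fun x hx => StronglyClosed.mem d.closed₂ (hg.restrict le_sup_right) hx hx) le_rfl
        have hgP := hg.restrict (le_sup_left : P ≤ P ⊔ S₂)
        have hY1 : img P g ≤ S₁ := img_le fun x hx => d.maps₁ hgP hP.1 hx
        rw [hg.img_sup le_sup_left le_sup_right, hg2, d.card_centralizerIn_sup hY1, d.card_centralizerIn_sup hP.1]
        refine Nat.mul_le_mul_right _ (Nat.le_of_mul_le_mul_right ?_ (haveI := finite_of_le d.le₂; (Nat.card_pos : 0 < Nat.card S₂)))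
        rw [← d.card_centralizerIn hY1, ← d.card_centralizerIn hP.1]
        exact hcP.2 _ hgP.isConj
      obtain ⟨-, hrec⟩ := isReceptive_iff.1 (fullyCentralized_axiom d.pgroup d.sat hfc)
      obtain ⟨K, hK, hKe⟩ := hrec _ k hk himg
      have hle : extN S₁ X f ⊔ S₂ ≤ extN S (X ⊔ S₂) k := by
        refine sup_le (fun c hc => ?_) fun s hs => hk.le_extN (Subgroup.mem_sup_right hs)
        obtain ⟨hcn, e, he, hee⟩ := mem_extN.1 hc
        have hc1 : c ∈ S₁ := normalizerIn_le hcn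
        have hconj : ∀ {u s : Ω}, u ∈ S₁ → s ∈ S₂ → u * s * u⁻¹ = s := fun hu hs => by
          rw [d.comm hu hs, mul_inv_cancel_right]
        refine mem_extN.2 ⟨mem_normalizerIn_of_conj (sup_le hk.le (le_refl S) |>.trans' le_sup_left) (d.le₁ hc1) fun x hx => ?_,
          e, d.le₁ he, fun x hx => ?_⟩
        · obtain ⟨y, hy, s, hs, rfl⟩ := d.exists_mul hX hx
          rw [show c * (y * s) * c⁻¹ = (c * y * c⁻¹) * (c * s * c⁻¹) by group, hconj hc1 hs]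
          exact Subgroup.mul_mem_sup (conj_mem_of_mem_normalizerIn hcn hy) hs
        · obtain ⟨y, hy, s, hs, rfl⟩ := d.exists_mul hX hx
          have hy' := conj_mem_of_mem_normalizerIn hcn hy
          rw [show c * (y * s) * c⁻¹ = (c * y * c⁻¹) * (c * s * c⁻¹) by group, hconj hc1 hs,
            hk.map_mul (Subgroup.mem_sup_left hy') (Subgroup.mem_sup_right hs),
            hk.map_mul (Subgroup.mem_sup_left hy) (Subgroup.mem_sup_right hs), hke _ hy', hke y hy, hks s hs, hee y hy,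
            show e * (f y * s) * e⁻¹ = (e * f y * e⁻¹) * (e * s * e⁻¹) by group, hconj he hs]
      refine ⟨K, iffR'.2 ⟨extN_le, (hK.restrict hle).restrict le_sup_left, K, hK.restrict hle, fun _ _ => rfl, fun s hs => ?_⟩,
        fun x hx => by rw [hKe x (Subgroup.mem_sup_left hx), hke x hx]⟩
      rw [hKe s (Subgroup.mem_sup_right hs), hks s hs]
  have hscR : R.StronglyClosed S₁ := stronglyClosed_iff.2 ⟨le_rfl, fun _ _ hg _ hx _ => hg.mem hx⟩
  have transport : ∀ {P f}, P ≤ S₁ → Mor R' P f → ∀ {α : MulAut S₁}, α ∈ F.autGroup S₁ →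
      ∃ χ, Mor R' (img P (autFun α)) χ ∧ ∀ x ∈ P, χ (autFun α x) = autFun α (f x) := by
    intro P f hP hf α hα
    obtain ⟨-, hfF, hfix⟩ := iffR'.1 hf
    obtain ⟨a, ha, hae⟩ := d.extend₁ hα
    have hi : img P (autFun a) = img P (autFun α) := img_congr fun x hx => hae x (hP hx)
    have h1 := d.fixes_conj ha hP hfix
    rw [hi] at h1
    obtain ⟨k, hk, hke, hks⟩ := h1
    refine ⟨fun y => autFun a (f (autFun a⁻¹ y)), iffR'.2 ⟨img_le fun x hx => autFun_mem α (hP hx),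
      (hk.restrict le_sup_left).congr hke, k, hk, hke, hks⟩, fun x hx => ?_⟩
    show autFun a (f (autFun a⁻¹ (autFun α x))) = _
    rw [← hae x (hP hx), inv_apply a (hP.trans d.le₁ hx), hae _ (d.maps₁ hfF hP hx)]
  have frat : ∀ {P f}, P ≤ S₁ → Mor F P f →
      ∃ α ∈ F.autGroup S₁, ∃ g, Mor R' P g ∧ ∀ x ∈ P, f x = autFun α (g x) := by
    intro P f hP hf
    obtain ⟨a, ha, hfix⟩ := d.factor hP hf
    have hm := ((mem_autGroup_iff le_rfl).1 ha).restrict d.le₁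
    obtain ⟨α, hα, hαe⟩ := hm.exists_aut (hm.img_eq_of_card_le d.le₁ (fun x hx => d.mem₁ ha hx) le_rfl)
    refine ⟨α, hα, _, iffR'.2 ⟨hP, ((mem_autGroup_iff le_rfl).1 (inv_mem ha)).comp hf (fun x hx => hf.mem hx), hfix⟩, fun x hx => ?_⟩
    rw [hαe _ (d.mem₁ (inv_mem ha) (d.maps₁ hf hP hx)), apply_inv a (hf.mem hx)]
  have mkinv : ∀ {U : Subgroup Ω} {G : FusionSystem U}, R'.IsSubsystemOf G → G.StronglyClosed S₁ →
      (∀ α ∈ G.autGroup S₁, α ∈ F.autGroup S₁) → (∀ α ∈ F.autGroup S₁, α ∈ G.autGroup S₁) →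
      (∀ {P f}, P ≤ S₁ → Mor G P f → Mor F P f) → R'.IsInvariantIn G := by
    intro U G hsub hsc hGF hFG hmor
    refine ⟨hsub, hsc, fun P hPT φ hφ α hα => ?_, fun P hP φ hφ => ?_⟩
    · obtain ⟨χ, hχ, hχe⟩ := transport hPT (mor_extFun hφ) (hGF α hα)
      have hle : (P.subgroupOf S₁).map (S₁.subtype.comp α.toMonoidHom) ≤ img P (autFun α) := by
        rintro _ ⟨x, hx, rfl⟩
        rw [show (S₁.subtype.comp α.toMonoidHom) x = autFun α (x : Ω) from (autFun_coe α x).symm]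
        exact mem_img_of_mem hx
      obtain ⟨χ', hχ', he⟩ := (hχ.restrict hle).exists_hom
      refine ⟨χ', hχ', fun x hφx hαx => ?_⟩
      rw [he, ← autFun_apply α (hPT x.2), hχe _ x.2, extFun_coe, autFun_apply α hφx]
    · obtain ⟨α, hα, g, hg, hge⟩ := frat hP (hmor hP (mor_extFun hφ))
      obtain ⟨φ₀, hφ₀, he⟩ := hg.exists_hom
      refine ⟨α, hFG α hα, φ₀, hφ₀, fun x hx => ?_⟩
      rw [← extFun_coe φ x, hge _ x.2, ← he x, autFun_apply α hx]
  refine ⟨satR, satR', ⟨⟨satR', d.sat, mkinv hR'F d.closed₁ (fun _ h => h) (fun _ h => h) (fun _ h => h)⟩, fun α hα => ?_⟩,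
    ⟨⟨satR', satR, mkinv hR'R hscR (fun α h => autR le_rfl ▸ h) (fun α h => (autR le_rfl).symm ▸ h)
      fun hP h => (iffR.1 h).2⟩, fun α hα => ?_⟩, satR, d.sat, hRF, d.closed₁, fun P hPT φ hφ α hα => ?_, fun P hP φ hφ => ?_⟩
  · obtain ⟨-, hαF, k, hk, hke, hks⟩ := iffR'.1 ((mem_autGroup_iff le_rfl).1 hα)
    have hW : S₁ ⊔ centralizerIn S S₁ = S :=
      le_antisymm (sup_le d.le₁ centralizerIn_le)
        (d.prod.2.2.2.2.symm.le.trans (sup_le le_sup_left ((d.le_centralizer le_rfl).trans le_sup_right)))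
    have hk' : Mor F (S₁ ⊔ centralizerIn S S₁) k := hk.restrict (hW.le.trans d.prod.2.2.2.2.ge)
    obtain ⟨β, hβ, hβe⟩ := hk'.exists_aut (hk'.img_eq_of_card_le hk'.le
      (fun x hx => hW.symm ▸ hk'.mem hx) le_rfl)
    refine ⟨β, hβ, fun x => ?_, fun c hc => ?_⟩
    · rw [← autFun_coe β, hβe _ (Subgroup.inclusion le_sup_left x).2]
      exact (hke x x.2).trans (autFun_coe α x)
    · rw [← autFun_coe β, hβe _ c.2]
      obtain ⟨u, hu, v, hv, he⟩ := d.exists_mul_top (centralizerIn_le hc)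
      have huC : u ∈ centralizerIn S S₁ := by
        have := (centralizerIn S S₁).mul_mem hc ((centralizerIn S S₁).inv_mem (d.le_centralizer le_rfl hv))
        rwa [← he, mul_inv_cancel_right] at this
      have hku : k u ∈ S₁ := by rw [hke u hu]; exact autFun_mem α hu
      have hmu : u ∈ S₁ ⊔ S₂ := Subgroup.mem_sup_left hu
      have h5 : (c : Ω)⁻¹ * k (c : Ω) = u⁻¹ * k u := by
        rw [← he, hk.map_mul hmu (Subgroup.mem_sup_right hv), hks v hv, mul_inv_rev,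
          show v⁻¹ * u⁻¹ * (k u * v) = v⁻¹ * (u⁻¹ * k u) * v by group,
          ← d.comm (S₁.mul_mem (S₁.inv_mem hu) hku) (S₂.inv_mem hv), mul_assoc, inv_mul_cancel, mul_one]
      rw [h5]
      refine Subgroup.mem_inf.2 ⟨S₁.mul_mem (S₁.inv_mem hu) hku, Subgroup.mul_mem _ (Subgroup.inv_mem _ (Subgroup.mem_inf.1 huC).2) ?_⟩
      have h6 := hk.mem_centralizerIn (P := S₁) le_sup_left hmu huC
      rw [img_congr hke, img_autFun] at h6
      exact (Subgroup.mem_inf.1 h6).2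
  · have hW : S₁ ⊔ centralizerIn S₁ S₁ = S₁ := sup_eq_left.2 centralizerIn_le
    have hm : Mor R (S₁ ⊔ centralizerIn S₁ S₁) (autFun α) :=
      (((mem_autGroup_iff le_rfl).1 hα).of_subsystem hR'R).source_congr hW.symm
    obtain ⟨β, hβ, hβe⟩ := hm.exists_aut (hm.img_eq_of_card_le hm.le (fun x hx => hW.symm ▸ hm.mem hx) le_rfl)
    refine ⟨β, hβ, fun x => ?_, fun c hc => ?_⟩
    · rw [← autFun_coe β, hβe _ (Subgroup.inclusion le_sup_left x).2]
      exact autFun_coe α x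
    · rw [← autFun_coe β, hβe _ c.2]
      have hc1 : (c : Ω) ∈ S₁ := centralizerIn_le hc
      have h6 := ((mem_autGroup_iff le_rfl).1 hα).mem_centralizerIn le_rfl hc1 hc
      rw [img_autFun] at h6
      exact Subgroup.mem_inf.2 ⟨S₁.mul_mem (S₁.inv_mem hc1) (autFun_mem α hc1),
        Subgroup.mul_mem _ (Subgroup.inv_mem _ (Subgroup.mem_inf.1 hc).2) (Subgroup.mem_inf.1 h6).2⟩
  · have hm := ((mem_autGroup_iff d.le₁).1 hα).restrict hPT
    have hf := (mor_extFun hφ).of_subsystem hRF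
    obtain ⟨j, hj, hj1, hj2, -⟩ := hm.exists_inv
    have hg : Mor F (img P (autFun α)) (fun y => autFun α (extFun φ (j y))) :=
      ((mem_autGroup_iff d.le₁).1 hα).comp (hf.comp hj fun y hy => (hj2 y hy).2) fun y hy => d.maps₁ hf hPT (hj2 y hy).2
    have hle : (P.subgroupOf S₁).map (S₁.subtype.comp α.toMonoidHom) ≤ img P (autFun α) := by
      rintro _ ⟨x, hx, rfl⟩
      rw [show (S₁.subtype.comp α.toMonoidHom) x = autFun α (x : Ω) from (autFun_coe α x).symm]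
      exact mem_img_of_mem hx
    have hg' : Mor R ((P.subgroupOf S₁).map (S₁.subtype.comp α.toMonoidHom)) (fun y => autFun α (extFun φ (j y))) :=
      iffR.2 ⟨Subgroup.map_le_range _ _ |>.trans (by rintro _ ⟨x, rfl⟩; exact (α x).2), hg.restrict hle⟩
    obtain ⟨χ, hχ, he⟩ := hg'.exists_hom
    refine ⟨χ, hχ, fun x hφx hαx => ?_⟩
    rw [he]
    show autFun α (extFun φ (j ((α ⟨x, hPT x.2⟩ : S₁) : Ω))) = _
    rw [← autFun_apply α (hPT x.2), hj1 _ x.2, extFun_coe, autFun_apply α hφx]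
  · obtain ⟨φ₀, hφ₀, he⟩ := (iffR.2 ⟨hP, mor_extFun hφ⟩).exists_hom
    exact ⟨1, one_mem _, φ₀, hφ₀, fun x hx => by
      rw [MulAut.one_apply, ← extFun_coe φ x, ← he x]⟩

end Data

end Cfsg.Lib.Fusion.ProductClosed
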